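import Mathlib

set_option autoImplicit false

/-!
# S5514 piece PC (helper40 for helper10): polycyclic normal forms
-/

namespace Cfsg.Agent.H40.O7G

def nfProd {G : Type*} [Group G] (a : ℕ → G) (e : ℕ → ℕ) : ℕ → G
  | 0 => 1
  | (n+1) => nfProd a e n * a n ^ e n

/-- Any function satisfying the two defining equations agrees with `nfProd` (to transfer the
normal form to another copy of the definition). -/
theorem nfProd_eq_of_rec {G : Type*} [Group G] (a : ℕ → G) (e : ℕ → ℕ) (f : ℕ → G)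
    (h0 : f 0 = 1) (hs : ∀ n, f (n + 1) = f n * a n ^ e n) (n : ℕ) : f n = nfProd a e n := by
  induction n with
  | zero => rw [h0]; rfl
  | succ n ih =>
    show f (n + 1) = nfProd a e n * a n ^ e n
    rw [hs, ih]

theorem nfProd_congr {G : Type*} [Group G] (a : ℕ → G) (e e' : ℕ → ℕ) (n : ℕ)
    (h : ∀ i, i < n → e i = e' i) : nfProd a e n = nfProd a e' n := by
  induction n with
  | zero => rfl
  | succ n ih =>
    show nfProd a e n * a n ^ e n = nfProd a e' n * a n ^ e' n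
    rw [ih (fun i hi => h i (Nat.lt_succ_of_lt hi)), h n (Nat.lt_succ_self n)]

theorem pc_conj_pow {G : Type*} [Group G] (N : Subgroup G) (b : G)
    (hN : ∀ p ∈ N, b * p * b⁻¹ ∈ N) (k : ℕ) : ∀ p ∈ N, b ^ k * p * (b ^ k)⁻¹ ∈ N := by
  induction k with
  | zero => intro p hp; simpa using hp
  | succ k ih =>
    intro p hp
    have h1 : b ^ (k + 1) * p * (b ^ (k + 1))⁻¹ = b * (b ^ k * p * (b ^ k)⁻¹) * b⁻¹ := by
      rw [pow_succ']; group
    rw [h1]
    exact hN _ (ih p hp)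

theorem pc_step {G : Type*} [Group G] (N : Subgroup G) (b : G)
    (hN : ∀ p ∈ N, b * p * b⁻¹ ∈ N) (hb3 : b ^ 3 ∈ N) (s : Set G)
    (hs : ∀ x ∈ s, x ∈ N ∨ x = b) :
    ∀ g ∈ Subgroup.closure s, ∃ p ∈ N, ∃ k, k < 3 ∧ g = p * b ^ k := by
  intro g hg
  induction hg using Subgroup.closure_induction with
  | mem x hx =>
    rcases hs x hx with h | h
    · exact ⟨x, h, 0, by norm_num, by simp⟩
    · exact ⟨1, N.one_mem, 1, by norm_num, by simp [h]⟩
  | one => exact ⟨1, N.one_mem, 0, by norm_num, by simp⟩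
  | mul x y _ _ hx hy =>
    obtain ⟨p, hp, k, hk, rfl⟩ := hx
    obtain ⟨p', hp', k', hk', rfl⟩ := hy
    have hq : p * (b ^ k * p' * (b ^ k)⁻¹) ∈ N := N.mul_mem hp (pc_conj_pow N b hN k p' hp')
    have h1 : p * b ^ k * (p' * b ^ k') = p * (b ^ k * p' * (b ^ k)⁻¹) * b ^ (k + k') := by
      rw [pow_add]; group
    by_cases hkk : k + k' < 3
    · exact ⟨_, hq, k + k', hkk, h1⟩
    · refine ⟨p * (b ^ k * p' * (b ^ k)⁻¹) * b ^ 3, N.mul_mem hq hb3, k + k' - 3, by omega, ?_⟩
      have h2 : b ^ (k + k') = b ^ 3 * b ^ (k + k' - 3) := by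
        rw [← pow_add]; congr 1; omega
      rw [h1, h2]
      exact (mul_assoc _ _ _).symm
  | inv x _ hx =>
    obtain ⟨p, hp, k, hk, rfl⟩ := hx
    rcases Nat.eq_zero_or_pos k with rfl | hk0
    · exact ⟨p⁻¹, N.inv_mem hp, 0, by norm_num, by simp⟩
    · have hq : (b ^ 3)⁻¹ * p⁻¹ ∈ N := N.mul_mem (N.inv_mem hb3) (N.inv_mem hp)
      refine ⟨b ^ (3 - k) * ((b ^ 3)⁻¹ * p⁻¹) * (b ^ (3 - k))⁻¹,
        pc_conj_pow N b hN (3 - k) _ hq, 3 - k, by omega, ?_⟩
      have h3 : b ^ 3 = b ^ (3 - k) * b ^ k := by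
        rw [← pow_add]; congr 1; omega
      rw [h3]
      group

theorem pc_normal_form {G : Type*} [Group G] [Finite G] (a : ℕ → G) (n : ℕ)
    (h3 : ∀ i, i < n → a i ^ 3 ∈ Subgroup.closure (a '' Set.Iio i))
    (hc : ∀ i, i < n → ∀ j, j < i → a i * a j * (a i)⁻¹ ∈ Subgroup.closure (a '' Set.Iio i)) :
    ∀ g ∈ Subgroup.closure (a '' Set.Iio n), ∃ e : ℕ → ℕ, (∀ i, e i < 3) ∧ g = nfProd a e n := by
  induction n with
  | zero =>
    intro g hg
    have h0 : a '' Set.Iio 0 = ∅ := by simp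
    rw [h0, Subgroup.closure_empty, Subgroup.mem_bot] at hg
    exact ⟨fun _ => 0, fun _ => by norm_num, by rw [hg]; rfl⟩
  | succ n ih =>
    have ih' := ih (fun i hi => h3 i (Nat.lt_succ_of_lt hi))
      (fun i hi => hc i (Nat.lt_succ_of_lt hi))
    intro g hg
    have hN : ∀ p ∈ Subgroup.closure (a '' Set.Iio n),
        a n * p * (a n)⁻¹ ∈ Subgroup.closure (a '' Set.Iio n) := by
      intro p hp
      have hle : Subgroup.closure (a '' Set.Iio n) ≤
          (Subgroup.closure (a '' Set.Iio n)).comap (MulAut.conj (a n)).toMonoidHom := by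
        rw [Subgroup.closure_le]
        rintro _ ⟨j, hj, rfl⟩
        exact hc n (Nat.lt_succ_self n) j hj
      exact hle hp
    have hb3 := h3 n (Nat.lt_succ_self n)
    have hs : ∀ x ∈ a '' Set.Iio (n + 1), x ∈ Subgroup.closure (a '' Set.Iio n) ∨ x = a n := by
      rintro _ ⟨j, hj, rfl⟩
      rcases Nat.lt_succ_iff_lt_or_eq.mp hj with h | h
      · exact Or.inl (Subgroup.subset_closure ⟨j, h, rfl⟩)
      · exact Or.inr (by rw [h])
    obtain ⟨p, hp, k, hk, rfl⟩ := pc_step _ (a n) hN hb3 _ hs g hg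
    obtain ⟨e, he, rfl⟩ := ih' p hp
    refine ⟨Function.update e n k, ?_, ?_⟩
    · intro i
      by_cases hi : i = n
      · rw [hi, Function.update_self]; exact hk
      · rw [Function.update_of_ne hi]; exact he i
    · show nfProd a e n * a n ^ k =
        nfProd a (Function.update e n k) n * a n ^ (Function.update e n k n)
      rw [Function.update_self]
      congr 1
      apply nfProd_congr
      intro i hi
      rw [Function.update_of_ne (Nat.ne_of_lt hi)]

theorem pc_digits_exist (e : ℕ → ℕ) (he : ∀ i, e i < 3) (n : ℕ) :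
    ∃ E : ℕ, E < 3 ^ n ∧ ∀ i, i < n → E / 3 ^ i % 3 = e i := by
  induction n with
  | zero => exact ⟨0, by norm_num, fun i hi => absurd hi (Nat.not_lt_zero i)⟩
  | succ n ih =>
    obtain ⟨E, hE, hd⟩ := ih
    refine ⟨E + e n * 3 ^ n, ?_, ?_⟩
    · have := he n
      rw [pow_succ]
      nlinarith
    · intro i hi
      rcases Nat.lt_succ_iff_lt_or_eq.mp hi with h | h
      · have h1 : e n * 3 ^ n = (e n * 3 ^ (n - i - 1) * 3) * 3 ^ i := by
          have h2 : 3 ^ n = 3 ^ (n - i - 1) * 3 * 3 ^ i := by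
            rw [← pow_succ, ← pow_add]; congr 1; omega
          rw [h2]; ring
        rw [h1, Nat.add_mul_div_right _ _ (by positivity), Nat.add_mul_mod_self_right, hd i h]
      · subst h
        rw [Nat.add_mul_div_right _ _ (by positivity), Nat.div_eq_of_lt hE, zero_add,
          Nat.mod_eq_of_lt (he i)]

theorem pc_normal_form_digits {G : Type*} [Group G] [Finite G] (a : ℕ → G) (n : ℕ)
    (h3 : ∀ i, i < n → a i ^ 3 ∈ Subgroup.closure (a '' Set.Iio i))
    (hc : ∀ i, i < n → ∀ j, j < i → a i * a j * (a i)⁻¹ ∈ Subgroup.closure (a '' Set.Iio i)) :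
    ∀ g ∈ Subgroup.closure (a '' Set.Iio n), ∃ E : ℕ, E < 3 ^ n ∧ g = nfProd a (fun i => E / 3 ^ i % 3) n := by
  intro g hg
  obtain ⟨e, he, rfl⟩ := pc_normal_form a n h3 hc g hg
  obtain ⟨E, hE, hd⟩ := pc_digits_exist e he n
  exact ⟨E, hE, nfProd_congr a e _ n (fun i hi => (hd i hi).symm)⟩

end Cfsg.Agent.H40.O7G
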