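import Mathlib

set_option autoImplicit false

/-!
# S5514 piece CLS (helper40 for helper10): classes of subgroups of order 3 from classes of
elements of order 3
-/

namespace Cfsg.Agent.H40.O7G

theorem classes_of_order_three {G : Type*} [Group G] [Finite G] {α : Type*} (n : ℕ)
    (y : Fin n → G) (inv : G → α)
    (hy : ∀ i, orderOf (y i) = 3)
    (hinv : ∀ g h : G, inv (h * g * h⁻¹) = inv g)
    (hsep : ∀ i j, inv (y i) = inv (y j) ∨ inv (y i) = inv ((y j) ^ 2) → i = j)
    (hall : ∀ x : G, orderOf x = 3 → ∃ i, ∃ h : G, h * x * h⁻¹ = y i) :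
    ∃ Y : Fin n → Subgroup G, (∀ i, Nat.card (Y i) = 3) ∧ (∀ i j, (∃ g : G, (Y i).map (MulAut.conj g).toMonoidHom = Y j) → i = j) ∧ (∀ X : Subgroup G, Nat.card X = 3 → ∃ i, ∃ g : G, X.map (MulAut.conj g).toMonoidHom = Y i) := by
  have hy1 : ∀ i, y i ≠ 1 := by
    intro i h
    have h3 := hy i
    rw [h, orderOf_one] at h3
    omega
  refine ⟨fun i => Subgroup.zpowers (y i), ?_, ?_, ?_⟩
  · intro i
    rw [Nat.card_zpowers, hy]
  · rintro i j ⟨g, hg⟩
    have hg' : (Subgroup.zpowers (y i)).map (MulAut.conj g).toMonoidHom = Subgroup.zpowers (y j) :=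
      hg
    have hmem : g * y i * g⁻¹ ∈ Subgroup.zpowers (y j) := by
      rw [← hg']
      exact ⟨y i, Subgroup.mem_zpowers _, rfl⟩
    obtain ⟨k, hk⟩ := Subgroup.mem_zpowers_iff.mp hmem
    have hk' : y j ^ (k % 3) = g * y i * g⁻¹ := by
      rw [← hk]
      have h1 := zpow_mod_orderOf (y j) k
      rw [hy j] at h1
      exact_mod_cast h1
    have h0 : 0 ≤ k % 3 := Int.emod_nonneg _ (by norm_num)
    have h3 : k % 3 < 3 := Int.emod_lt_of_pos _ (by norm_num)
    apply hsep
    rw [← hinv (y i) g, ← hk']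
    generalize k % 3 = m at h0 h3 hk' ⊢
    interval_cases m
    · exfalso
      apply hy1 i
      rw [zpow_zero] at hk'
      have h4 : y i = g⁻¹ * (g * y i * g⁻¹) * g := by group
      rw [h4, ← hk']
      group
    · left
      rw [zpow_one]
    · right
      have h5 : y j ^ (2 : ℤ) = y j ^ 2 := by exact_mod_cast zpow_natCast (y j) 2
      rw [h5]
  · intro X hX
    have hnt : Nontrivial X := by
      rw [← Finite.one_lt_card_iff_nontrivial]
      omega
    obtain ⟨⟨x, hxX⟩, hx1⟩ := exists_ne (1 : X)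
    have hx1' : x ≠ 1 := fun h => hx1 (Subtype.ext h)
    have hord : orderOf x = 3 := by
      have hdvd : orderOf x ∣ 3 := hX ▸ Subgroup.orderOf_dvd_natCard X hxX
      rcases (Nat.dvd_prime Nat.prime_three).mp hdvd with h | h
      · exact absurd (orderOf_eq_one_iff.mp h) hx1'
      · exact h
    obtain ⟨i, h, hh⟩ := hall x hord
    refine ⟨i, h, ?_⟩
    have hXz : Subgroup.zpowers x = X := by
      apply Subgroup.eq_of_le_of_card_ge (Subgroup.zpowers_le.mpr hxX)
      rw [Nat.card_zpowers, hord, hX]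
    rw [← hXz, MonoidHom.map_zpowers]
    show Subgroup.zpowers (h * x * h⁻¹) = _
    rw [hh]

end Cfsg.Agent.H40.O7G
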