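import Mathlib

set_option autoImplicit false

/-!
# S5514 piece SYL (helper40 for helper10): elements of order `p` are conjugate into a subgroup of
Sylow order
-/

namespace Cfsg.Agent.H40.O7G

open scoped Pointwise

theorem conj_mem_of_sylow_card {G : Type*} [Group G] [Finite G] (p k : ℕ) [Fact p.Prime]
    (P : Subgroup G)
    (hP : Nat.card P = p ^ k) (hG : ¬ p ^ (k + 1) ∣ Nat.card G) (x : G) (hx : orderOf x = p) :
    ∃ h : G, h * x * h⁻¹ ∈ P := by
  have hp : p.Prime := Fact.out
  have hcard0 : Nat.card G ≠ 0 := Nat.card_pos.ne'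
  have hk : (Nat.card G).factorization p = k := by
    have h1 : p ^ k ∣ Nat.card G := hP ▸ Subgroup.card_subgroup_dvd_card P
    have h2 := (hp.pow_dvd_iff_le_factorization hcard0).mp h1
    have h3 : ¬ (k + 1 ≤ (Nat.card G).factorization p) :=
      fun h => hG ((hp.pow_dvd_iff_le_factorization hcard0).mpr h)
    omega
  let S : Sylow p G := Sylow.ofCard P (by rw [hP, hk])
  have hS : (S : Subgroup G) = P := Sylow.coe_ofCard P _
  have hz : IsPGroup p (Subgroup.zpowers x) :=
    IsPGroup.of_card (n := 1) (by rw [Nat.card_zpowers, hx, pow_one])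
  obtain ⟨Q, hQ⟩ := hz.exists_le_sylow
  obtain ⟨g, hg⟩ := MulAction.exists_smul_eq G Q S
  refine ⟨g, ?_⟩
  rw [← hS, ← hg, Sylow.coe_subgroup_smul]
  have h1 : MulAut.conj g • x ∈ MulAut.conj g • (Q : Subgroup G) :=
    Subgroup.smul_mem_pointwise_smul _ _ _ (hQ (Subgroup.mem_zpowers x))
  simpa [MulAut.smul_def] using h1

end Cfsg.Agent.H40.O7G
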