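import Cfsg.Agent.H52.SrDefs

/-!
Team project SR (for S2951 / S2952), piece SR-DEC: coprime decomposition of `V` under a subgroup
acting through a group of order 3 (norm map).
-/

set_option autoImplicit false
open Cfsg

namespace Cfsg.Agent.H40.Sr

open Cfsg.Agent.H52.Sr

universe u

/-- The norm map of an automorphism of order dividing 3 of a commutative group of exponent 2. -/
theorem dec_norm {A : Type*} [Group A] (hcomm : ∀ a b : A, a * b = b * a)
    (hsq : ∀ a : A, a * a = 1) (f : A ≃* A) (hf3 : ∀ a, f (f (f a)) = a) :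
    (∀ a, f (a * f a * f (f a)) = a * f a * f (f a)) ∧
    (∀ a, a * f a * f (f a) * (f a * f (f a)) = a) ∧
    (∀ a b, (a * b) * f (a * b) * f (f (a * b)) =
      (a * f a * f (f a)) * (b * f b * f (f b))) ∧
    (∀ a, f a * f (f a) * f (f (f a)) = a * f a * f (f a)) := by
  refine ⟨?_, ?_, ?_, ?_⟩
  · intro a
    rw [map_mul, map_mul, hf3, hcomm (f a * f (f a)) a, mul_assoc]
  · intro a
    rw [mul_assoc a (f a) (f (f a)), mul_assoc a, hsq, mul_one]
  · intro a b
    simp only [map_mul]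
    calc a * b * (f a * f b) * (f (f a) * f (f b))
        = a * (b * f a) * f b * (f (f a) * f (f b)) := by simp only [mul_assoc]
      _ = a * (f a * b) * f b * (f (f a) * f (f b)) := by rw [hcomm b (f a)]
      _ = a * f a * ((b * f b) * f (f a)) * f (f b) := by simp only [mul_assoc]
      _ = a * f a * (f (f a) * (b * f b)) * f (f b) := by rw [hcomm (b * f b) (f (f a))]
      _ = a * f a * f (f a) * (b * f b * f (f b)) := by simp only [mul_assoc]
  · intro a
    rw [hf3, hcomm (f a * f (f a)) a, mul_assoc]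

/-- A generator of `K` modulo `K ⊓ C`. -/
theorem dec_gen {X : Type u} [Group X] [Finite X] (K O C : Subgroup X) [C.Normal] (hOC : O ≤ C)
    (h3 : O.relIndex K = 3) (hKC : ¬ K ≤ C) :
    ∃ x ∈ K, x ∉ C ∧ x ^ 3 ∈ C ∧ ∀ k ∈ K, ∃ n : ℕ, (x ^ n)⁻¹ * k ∈ C := by
  have : Fact (Nat.Prime 3) := ⟨Nat.prime_three⟩
  have hOD : O.subgroupOf K ≤ C.subgroupOf K := fun x hx => hOC hx
  have hdvd : (C.subgroupOf K).index ∣ 3 := by
    have h := Subgroup.index_dvd_of_le hOD
    rw [show (O.subgroupOf K).index = 3 from h3] at h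
    exact h
  have hne1 : (C.subgroupOf K).index ≠ 1 := by
    intro h1
    rw [Subgroup.index_eq_one] at h1
    apply hKC
    intro x hx
    have h : (⟨x, hx⟩ : ↥K) ∈ C.subgroupOf K := by rw [h1]; exact Subgroup.mem_top _
    exact h
  have hidx : (C.subgroupOf K).index = 3 := by
    rcases (Nat.dvd_prime Nat.prime_three).mp hdvd with h | h
    · exact absurd h hne1
    · exact h
  have : (C.subgroupOf K).Normal := Subgroup.normal_subgroupOf
  have hcard : Nat.card (↥K ⧸ C.subgroupOf K) = 3 := by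
    rw [← Subgroup.index_eq_card]; exact hidx
  obtain ⟨x, hxK, hxC⟩ := SetLike.not_le_iff_exists.mp hKC
  have hx1 : (QuotientGroup.mk (⟨x, hxK⟩ : ↥K) : ↥K ⧸ C.subgroupOf K) ≠ 1 := by
    intro h
    rw [QuotientGroup.eq_one_iff] at h
    exact hxC h
  refine ⟨x, hxK, hxC, ?_, ?_⟩
  · have h := pow_card_eq_one' (G := ↥K ⧸ C.subgroupOf K)
      (x := QuotientGroup.mk (⟨x, hxK⟩ : ↥K))
    rw [hcard, ← QuotientGroup.mk_pow, QuotientGroup.eq_one_iff] at h
    simpa [Subgroup.mem_subgroupOf] using h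
  · intro k hk
    have hz : (QuotientGroup.mk (⟨k, hk⟩ : ↥K) : ↥K ⧸ C.subgroupOf K) ∈
        Subgroup.zpowers (QuotientGroup.mk (⟨x, hxK⟩ : ↥K) : ↥K ⧸ C.subgroupOf K) :=
      mem_zpowers_of_prime_card hcard hx1
    rw [← mem_powers_iff_mem_zpowers] at hz
    obtain ⟨n, hn⟩ := hz
    refine ⟨n, ?_⟩
    have h2 : (QuotientGroup.mk ((⟨x, hxK⟩ : ↥K) ^ n) : ↥K ⧸ C.subgroupOf K) =
        QuotientGroup.mk (⟨k, hk⟩ : ↥K) := by
      rw [QuotientGroup.mk_pow]; exact hn
    have h4 := QuotientGroup.eq.mp h2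
    simpa [Subgroup.mem_subgroupOf] using h4

/-- SR-DEC. -/
theorem dec : StDec.{u} := by
  intro X _ _ V K O _ hV hOK hOC h3
  obtain ⟨hVc, hV2⟩ := hV
  have hcomm : ∀ a b : ↥V, a * b = b * a := fun a b => hVc.is_comm.comm a b
  have hsq : ∀ a : ↥V, a * a = 1 := by
    intro a
    have h := hV2 a a.2
    apply Subtype.ext
    rw [pow_two] at h
    exact h
  by_cases hKC : K ≤ Subgroup.centralizer (V : Set X)
  · have hbot : ⁅V, K⁆ = ⊥ := by
      rw [Subgroup.commutator_eq_bot_iff_le_centralizer]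
      intro v hv
      rw [Subgroup.mem_centralizer_iff]
      intro k hk
      exact ((Subgroup.mem_centralizer_iff.mp (hKC hk)) v hv).symm
    refine ⟨fun v hv => ⟨v, hv, 1, Subgroup.one_mem _, (mul_one v).symm, ?_⟩, ?_⟩
    · rw [Subgroup.mem_centralizer_iff]
      intro k hk
      exact ((Subgroup.mem_centralizer_iff.mp (hKC hk)) v hv).symm
    · rw [hbot]; exact bot_inf_eq _
  · have : (Subgroup.centralizer (V : Set X)).Normal := Subgroup.normal_centralizer
    obtain ⟨x, hxK, hxC, hx3, hrep⟩ :=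
      dec_gen K O (Subgroup.centralizer (V : Set X)) hOC h3 hKC
    obtain ⟨f, hfdef⟩ : ∃ f : ↥V ≃* ↥V, f = MulAut.conjNormal x := ⟨_, rfl⟩
    have hfv : ∀ a : ↥V, ((f a : ↥V) : X) = x * a * x⁻¹ := by
      intro a; rw [hfdef]; exact MulAut.conjNormal_apply x a
    have hf3 : ∀ a, f (f (f a)) = a := by
      intro a
      apply Subtype.ext
      rw [hfv, hfv, hfv]
      have e := (Subgroup.mem_centralizer_iff.mp hx3) a a.2
      have e3 : x ^ 3 = x * x * x := by rw [pow_succ, pow_two]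
      rw [e3] at e
      calc x * (x * (x * ↑a * x⁻¹) * x⁻¹) * x⁻¹ = x * x * x * ↑a * (x * x * x)⁻¹ := by group
        _ = ↑a * (x * x * x) * (x * x * x)⁻¹ := by rw [← e]
        _ = ↑a := by group
    obtain ⟨n1, n2, n3, n4⟩ := dec_norm hcomm hsq f hf3
    have hfix : ∀ c : ↥V, f c = c → ∀ k ∈ K, k * (c : X) = c * k := by
      intro c hc k hk
      have hxc : x * (c : X) = c * x := by
        have h := congrArg (Subtype.val : ↥V → X) hc
        rw [hfv] at h
        calc x * (c : X) = x * c * x⁻¹ * x := by group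
          _ = c * x := by rw [h]
      obtain ⟨n, hn⟩ := hrep k hk
      have hcd := (Subgroup.mem_centralizer_iff.mp hn) c c.2
      have hxn : x ^ n * (c : X) = c * x ^ n :=
        (Commute.pow_left (show Commute x (c : X) from hxc) n).eq
      calc k * (c : X) = x ^ n * ((c : X) * ((x ^ n)⁻¹ * k)) := by rw [hcd]; group
        _ = x ^ n * c * ((x ^ n)⁻¹ * k) := by group
        _ = c * x ^ n * ((x ^ n)⁻¹ * k) := by rw [hxn]
        _ = c * k := by group
    have hpow : ∀ (n : ℕ) (a : ↥V),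
        ((f ^ n) a) * f ((f ^ n) a) * f (f ((f ^ n) a)) = a * f a * f (f a) := by
      intro n
      induction n with
      | zero => intro a; simp
      | succ n ih =>
        intro a
        have h : (f ^ (n + 1)) a = (f ^ n) (f a) := by
          rw [pow_succ]; rfl
        rw [h, ih (f a), n4 a]
    refine ⟨?_, ?_⟩
    · intro v hv
      refine ⟨(((⟨v, hv⟩ : ↥V) * f ⟨v, hv⟩ * f (f ⟨v, hv⟩) : ↥V) : X), Subtype.property _,
        ((f ⟨v, hv⟩ * f (f ⟨v, hv⟩) : ↥V) : X), ?_, ?_, ?_⟩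
      · have h1 := Subgroup.commutator_mem_commutator (H₁ := V) (H₂ := K)
          (f ⟨v, hv⟩).2 hxK
        rw [commutatorElement_def] at h1
        have e : ((f ⟨v, hv⟩ * f (f ⟨v, hv⟩) : ↥V) : X) =
            ↑(f ⟨v, hv⟩) * x * (↑(f ⟨v, hv⟩))⁻¹ * x⁻¹ := by
          have e1 : ((f (f ⟨v, hv⟩) : ↥V) : X) = x * (↑(f ⟨v, hv⟩))⁻¹ * x⁻¹ := by
            have h5 : (f (f ⟨v, hv⟩) : ↥V) = f ((f ⟨v, hv⟩)⁻¹) := by
              rw [map_inv]
              exact eq_inv_of_mul_eq_one_left (hsq _)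
            rw [h5, hfv, Subgroup.coe_inv]
          rw [Subgroup.coe_mul, e1]
          group
        rw [e]; exact h1
      · have h2 := congrArg (Subtype.val : ↥V → X) (n2 ⟨v, hv⟩)
        rw [Subgroup.coe_mul] at h2
        exact h2.symm
      · rw [Subgroup.mem_centralizer_iff]
        exact hfix _ (n1 ⟨v, hv⟩)
    · rw [eq_bot_iff]
      intro u hu
      obtain ⟨huW, huC⟩ := hu
      let Nk : Subgroup X :=
        { carrier := {g | ∃ h : g ∈ V, (⟨g, h⟩ : ↥V) * f ⟨g, h⟩ * f (f ⟨g, h⟩) = 1}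
          one_mem' := ⟨V.one_mem, by
            have h : (⟨1, V.one_mem⟩ : ↥V) = 1 := rfl
            rw [h, map_one, map_one, mul_one, mul_one]⟩
          mul_mem' := by
            rintro a b ⟨ha, ha'⟩ ⟨hb, hb'⟩
            refine ⟨V.mul_mem ha hb, ?_⟩
            have h : (⟨a * b, V.mul_mem ha hb⟩ : ↥V) = ⟨a, ha⟩ * ⟨b, hb⟩ := rfl
            rw [h, n3, ha', hb', mul_one]
          inv_mem' := by
            rintro a ⟨ha, ha'⟩
            refine ⟨V.inv_mem ha, ?_⟩
            have h : (⟨a⁻¹, V.inv_mem ha⟩ : ↥V) = ⟨a, ha⟩ := by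
              apply Subtype.ext
              have h2 := congrArg (Subtype.val : ↥V → X) (hsq ⟨a, ha⟩)
              exact inv_eq_of_mul_eq_one_left h2
            rw [h]; exact ha' }
      have hle : ⁅V, K⁆ ≤ Nk := by
        rw [Subgroup.commutator_le]
        intro v hv k hk
        rw [commutatorElement_def]
        obtain ⟨n, hn⟩ := hrep k hk
        have hk' : k * v⁻¹ * k⁻¹ = x ^ n * v⁻¹ * (x ^ n)⁻¹ := by
          have hcd := (Subgroup.mem_centralizer_iff.mp hn) v⁻¹ (V.inv_mem hv)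
          calc k * v⁻¹ * k⁻¹ = x ^ n * (v⁻¹ * ((x ^ n)⁻¹ * k)) * k⁻¹ := by rw [hcd]; group
            _ = x ^ n * v⁻¹ * (x ^ n)⁻¹ := by group
        have hg : (MulAut.conjNormal (x ^ n) : MulAut ↥V) = f ^ n := by
          rw [hfdef, map_pow]
        have e : v * k * v⁻¹ * k⁻¹ =
            (((⟨v, hv⟩ : ↥V) * (f ^ n) ((⟨v, hv⟩ : ↥V)⁻¹) : ↥V) : X) := by
          rw [Subgroup.coe_mul, ← hg, MulAut.conjNormal_apply, Subgroup.coe_inv, ← hk']
          group
        rw [e]
        refine ⟨Subtype.property _, ?_⟩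
        simp only [Subtype.coe_eta]
        rw [n3, hpow, ← n3, mul_inv_cancel, map_one, map_one, mul_one, mul_one]
      obtain ⟨huV, hN⟩ := hle huW
      have hfu : f ⟨u, huV⟩ = ⟨u, huV⟩ := by
        apply Subtype.ext
        rw [hfv]
        have h := (Subgroup.mem_centralizer_iff.mp huC) x hxK
        show x * u * x⁻¹ = u
        rw [h]; group
      rw [hfu, hfu, hsq, one_mul] at hN
      have h6 := congrArg (Subtype.val : ↥V → X) hN
      exact Subgroup.mem_bot.mpr h6

example : StDec.{u} := dec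

end Cfsg.Agent.H40.Sr
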