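import Mathlib
import Cfsg.Prelude

/-!
# S5048 pieces B1, NSA, TWO, CLASS (root involutions; helper85's team project)
-/

set_option autoImplicit false

namespace Cfsg.Agent.H40.RootInv

variable {G : Type*} [Group G] {D : Set G}

theorem sq_of_mem (hD : Cfsg.IsRootInvolutionSet D) {d : G} (hd : d ∈ D) : d * d = 1 := by
  have := pow_orderOf_eq_one d
  rw [hD.orderOf_eq d hd, pow_two] at this
  exact this

theorem ne_one_of_mem (hD : Cfsg.IsRootInvolutionSet D) {d : G} (hd : d ∈ D) : d ≠ 1 := by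
  intro h
  have := hD.orderOf_eq d hd
  rw [h, orderOf_one] at this
  omega

theorem odd_dvd_four {k : ℕ} (hk : Odd k) (h : k ∣ 4) : k = 1 := by
  obtain ⟨m, rfl⟩ := hk
  have := Nat.le_of_dvd (by norm_num) h
  have hm : m ≤ 1 := by omega
  interval_cases m
  · rfl
  · omega

theorem odd_dvd_two {k : ℕ} (hk : Odd k) (h : k ∣ 2) : k = 1 :=
  odd_dvd_four hk (h.trans (by norm_num))

theorem pow_odd_of_sq {s : G} (hs : s * s = 1) {m : ℕ} (hm : Odd m) : s ^ m = s := by
  obtain ⟨j, rfl⟩ := hm
  rw [pow_succ, pow_mul, pow_two, hs, one_pow, one_mul]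

/-- B1 -/
theorem b1 (hD : Cfsg.IsRootInvolutionSet D) {u v x : G} (hu : u ∈ D) (hv : v ∈ D)
    (huv : u * v = v * u) (hne : u ≠ v) (huvD : u * v ∈ D) (hx : x ∈ D) (hxu : x * u = u * x)
    (hodd : Odd (orderOf (v * x))) : x = v := by
  have hu2 := sq_of_mem hD hu
  have hv2 := sq_of_mem hD hv
  have hx2 := sq_of_mem hD hx
  have hcomm : Commute u (v * x) := by
    show u * (v * x) = v * x * u
    rw [← mul_assoc, huv, mul_assoc, ← hxu, mul_assoc]
  have hw1 : v * x = 1 := by
    rcases hD.pair (u * v) huvD x hx with h | h | h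
    · -- commuting
      have hvx : v * x = x * v := by
        have h1 : u * (v * x) = u * (x * v) := by
          calc u * (v * x) = u * v * x := (mul_assoc _ _ _).symm
            _ = x * (u * v) := h
            _ = x * u * v := (mul_assoc _ _ _).symm
            _ = u * x * v := by rw [hxu]
            _ = u * (x * v) := mul_assoc _ _ _
        exact mul_left_cancel h1
      have h2 : (v * x) ^ 2 = 1 := by
        rw [pow_two]
        calc v * x * (v * x) = v * (x * v) * x := by group
          _ = v * (v * x) * x := by rw [hvx]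
          _ = (v * v) * (x * x) := by group
          _ = 1 := by rw [hv2, hx2, one_mul]
      have h3 := odd_dvd_two hodd (orderOf_dvd_of_pow_eq_one h2)
      exact orderOf_eq_one_iff.mp h3
    · -- odd order
      have e : u * v * x = u * (v * x) := mul_assoc _ _ _
      rw [e] at h
      have h1 : (u * (v * x)) ^ orderOf (u * (v * x)) = 1 := pow_orderOf_eq_one _
      rw [hcomm.mul_pow, pow_odd_of_sq hu2 h] at h1
      -- u * w^j = 1
      have h2 : (v * x) ^ orderOf (u * (v * x)) = u := by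
        have : (v * x) ^ orderOf (u * (v * x)) = u⁻¹ := eq_inv_of_mul_eq_one_right h1
        rw [this]
        exact inv_eq_of_mul_eq_one_left hu2
      have h3 : (v * x) ^ (2 * orderOf (u * (v * x))) = 1 := by
        rw [mul_comm, pow_mul, h2, pow_two, hu2]
      have h4 : orderOf (v * x) ∣ 2 * orderOf (u * (v * x)) := orderOf_dvd_of_pow_eq_one h3
      have hcop : Nat.Coprime (orderOf (v * x)) 2 := Nat.coprime_two_right.mpr hodd
      have h5 : orderOf (v * x) ∣ orderOf (u * (v * x)) := hcop.dvd_of_dvd_mul_left h4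
      have h6 : (v * x) ^ orderOf (u * (v * x)) = 1 := orderOf_dvd_iff_pow_eq_one.mp h5
      rw [h6] at h2
      exact absurd h2.symm (ne_one_of_mem hD hu)
    · -- order 4
      have e : u * v * x = u * (v * x) := mul_assoc _ _ _
      rw [e] at h
      have h1 : (u * (v * x)) ^ 4 = 1 := by
        rw [← h.1]; exact pow_orderOf_eq_one _
      rw [hcomm.mul_pow] at h1
      have hu4 : u ^ 4 = 1 := by
        rw [show (4 : ℕ) = 2 * 2 from rfl, pow_mul, pow_two u, hu2, one_pow]
      rw [hu4, one_mul] at h1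
      have h3 := odd_dvd_four hodd (orderOf_dvd_of_pow_eq_one h1)
      exact orderOf_eq_one_iff.mp h3
  have : x = v⁻¹ := eq_inv_of_mul_eq_one_right hw1
  rw [this]
  exact inv_eq_of_mul_eq_one_left hv2

/-- one edge of the odd graph: the two involutions are conjugate. -/
theorem conj_of_odd {a b : G} (ha : a * a = 1) (hb : b * b = 1) (hodd : Odd (orderOf (a * b))) :
    ∃ g : G, b = g * a * g⁻¹ := by
  obtain ⟨j, hj⟩ := hodd
  have hainv : a⁻¹ = a := inv_eq_of_mul_eq_one_left ha
  have hbinv : b⁻¹ = b := inv_eq_of_mul_eq_one_left hb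
  have hc : (b * a) ^ (2 * j + 1) = 1 := by
    have e : b * a = a⁻¹ * (a * b) * a⁻¹⁻¹ := by group
    rw [e, conj_pow, ← hj, pow_orderOf_eq_one]
    group
  have hconj : a * (b * a) * a⁻¹ = (b * a)⁻¹ := by
    rw [mul_inv_rev, hainv, hbinv]
    calc a * (b * a) * a = a * b * (a * a) := by group
      _ = a * b := by rw [ha, mul_one]
  have hinv : ((b * a) ^ (j + 1))⁻¹ = a * (b * a) ^ (j + 1) * a⁻¹ := by
    rw [← conj_pow, hconj, inv_pow]
  refine ⟨(b * a) ^ (j + 1), ?_⟩
  rw [hinv, hainv]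
  have e1 : (b * a) ^ (j + 1) * a * (a * (b * a) ^ (j + 1) * a) =
      (b * a) ^ (j + 1) * (a * a) * (b * a) ^ (j + 1) * a := by group
  have e2 : (b * a) ^ (j + 1) * (b * a) ^ (j + 1) = (b * a) ^ (2 * j + 1) * (b * a) := by
    rw [← pow_add, ← pow_succ]
    congr 1
    ring
  rw [e1, ha, mul_one, e2, hc, one_mul, mul_assoc, ha, mul_one]

/-- CLASS -/
theorem conj_of_connected (hD : Cfsg.IsRootInvolutionSet D)
    (hc : Cfsg.IsConnectedSet (Cfsg.OddAdj D) D) {a b : G} (ha : a ∈ D) (hb : b ∈ D) :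
    ∃ g : G, b = g * a * g⁻¹ := by
  have h := hc a ha b hb
  induction h with
  | refl => exact ⟨1, by simp⟩
  | tail _ hbc ih =>
    rename_i b' c
    obtain ⟨hb', hc', -, hodd⟩ := hbc
    obtain ⟨g, hg⟩ := ih hb'
    obtain ⟨h, hh⟩ := conj_of_odd (sq_of_mem hD hb') (sq_of_mem hD hc') hodd
    refine ⟨h * g, ?_⟩
    rw [hh, hg]
    group

/-- two involutions whose product has order dividing 4. -/
theorem dih8 {p q : G} (hp : p * p = 1) (hq : q * q = 1) (h4 : (p * q) ^ 4 = 1) :
    (p * q * (p * q)) * (p * q * (p * q)) = 1 ∧ q * (p * q * (p * q)) = p * q * p ∧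
      (p * q * (p * q)) * q = p * q * p ∧ p * (p * q * (p * q)) = q * p * q ∧
      (p * q * (p * q)) * p = q * p * q := by
  have hpinv : p⁻¹ = p := inv_eq_of_mul_eq_one_left hp
  have hqinv : q⁻¹ = q := inv_eq_of_mul_eq_one_left hq
  have hR : p * q * (p * q) * (p * q * (p * q)) = 1 := by
    have : (p * q) ^ 4 = p * q * (p * q) * (p * q * (p * q)) := by
      rw [show (4 : ℕ) = 2 + 2 from rfl, pow_add, pow_two]
    rw [← this, h4]
  have h1 : (p * q * p) * (q * (p * q * (p * q))) = 1 := by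
    have : (p * q * p) * (q * (p * q * (p * q))) = p * q * (p * q) * (p * q * (p * q)) := by
      group
    rw [this, hR]
  have h2 : q * (p * q * (p * q)) = p * q * p := by
    have : q * (p * q * (p * q)) = (p * q * p)⁻¹ := eq_inv_of_mul_eq_one_right h1
    rw [this, mul_inv_rev, mul_inv_rev, hpinv, hqinv, mul_assoc]
  have h3 : (p * q * (p * q)) * q = p * q * p := by
    calc (p * q * (p * q)) * q = p * q * p * (q * q) := by group
      _ = p * q * p := by rw [hq, mul_one]
  have h4' : p * (p * q * (p * q)) = q * p * q := by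
    calc p * (p * q * (p * q)) = (p * p) * q * p * q := by group
      _ = q * p * q := by rw [hp, one_mul]
  have h5 : (p * q * (p * q) * p) * (q * p * q) = 1 := by
    have : (p * q * (p * q) * p) * (q * p * q) = p * q * (p * q) * (p * q * (p * q)) := by
      group
    rw [this, hR]
  have h6 : (p * q * (p * q)) * p = q * p * q := by
    have : (p * q * (p * q)) * p = (q * p * q)⁻¹ := eq_inv_of_mul_eq_one_left h5
    rw [this, mul_inv_rev, mul_inv_rev, hpinv, hqinv, mul_assoc]
  exact ⟨hR, h2, h3, h4', h6⟩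

/-- NSA -/
theorem nsa (hD : Cfsg.IsRootInvolutionSet D)
    (hb1 : ∀ u v x : G, u ∈ D → v ∈ D → u * v = v * u → u ≠ v → u * v ∈ D → x ∈ D →
      x * u = u * x → Odd (orderOf (v * x)) → x = v)
    {u v x : G} (hu : u ∈ D) (hv : v ∈ D)
    (huv : u * v = v * u) (hne : u ≠ v) (huvD : u * v ∈ D) (hx : x ∈ D) (hxne : x ≠ u * v)
    (hodd : Odd (orderOf (u * v * x))) :
    (x ≠ u ∧ Odd (orderOf (u * x))) ∨ (x ≠ v ∧ Odd (orderOf (v * x))) := by
  by_contra hcon
  have hc1 : x ≠ u → ¬ Odd (orderOf (u * x)) := fun h1 h2 => hcon (Or.inl ⟨h1, h2⟩)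
  have hc2 : x ≠ v → ¬ Odd (orderOf (v * x)) := fun h1 h2 => hcon (Or.inr ⟨h1, h2⟩)
  have hu2 := sq_of_mem hD hu
  have hv2 := sq_of_mem hD hv
  have hx2 := sq_of_mem hD hx
  have huinv : u⁻¹ = u := inv_eq_of_mul_eq_one_left hu2
  have hvinv : v⁻¹ = v := inv_eq_of_mul_eq_one_left hv2
  have e1 : u * (u * v) = v := by rw [← mul_assoc, hu2, one_mul]
  have e2 : u * v * u = v := by rw [huv, mul_assoc, hu2, mul_one]
  have e3 : v * (u * v) = u := by rw [huv, ← mul_assoc, hv2, one_mul]
  have e4 : u * v * v = u := by rw [mul_assoc, hv2, mul_one]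
  have hux : orderOf (u * x) = 4 ∧ (u * x) ^ 2 ∈ D := by
    rcases hD.pair u hu x hx with h | h | h
    · exfalso
      have hne' : u ≠ u * v := by
        intro h'
        apply ne_one_of_mem hD hv
        calc v = u * (u * v) := e1.symm
          _ = u * u := by rw [← h']
          _ = 1 := hu2
      have := hb1 u (u * v) x hu huvD (by rw [e1, e2]) hne' (by rw [e1]; exact hv) hx h.symm hodd
      exact hxne this
    · exfalso
      by_cases hxu : x = u
      · rw [hxu, e2, hD.orderOf_eq v hv] at hodd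
        exact absurd hodd (by decide)
      · exact hc1 hxu h
    · exact h
  have hvx : orderOf (v * x) = 4 ∧ (v * x) ^ 2 ∈ D := by
    rcases hD.pair v hv x hx with h | h | h
    · exfalso
      have hne' : v ≠ u * v := by
        intro h'
        apply ne_one_of_mem hD hu
        calc u = u * v * v := e4.symm
          _ = v * v := by rw [← h']
          _ = 1 := hv2
      have := hb1 v (u * v) x hv huvD (by rw [e3, e4]) hne' (by rw [e3]; exact hu) hx h.symm hodd
      exact hxne this
    · exfalso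
      by_cases hxv : x = v
      · rw [hxv, e4, hD.orderOf_eq u hu] at hodd
        exact absurd hodd (by decide)
      · exact hc2 hxv h
    · exact h
  obtain ⟨h4, ht⟩ := hux
  obtain ⟨h4', ht'⟩ := hvx
  rw [pow_two] at ht ht'
  have q4 : (u * x) ^ 4 = 1 := by rw [← h4]; exact pow_orderOf_eq_one _
  have q4' : (v * x) ^ 4 = 1 := by rw [← h4']; exact pow_orderOf_eq_one _
  obtain ⟨a1, a2, a3, a4, a5⟩ := dih8 hu2 hx2 q4
  obtain ⟨-, b2, b3, b4, b5⟩ := dih8 hv2 hx2 q4'
  have hv2' : ∀ y, v * (v * y) = y := fun y => by rw [← mul_assoc, hv2, one_mul]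
  have hx2' : ∀ y, x * (x * y) = y := fun y => by rw [← mul_assoc, hx2, one_mul]
  have huv' : ∀ y, u * (v * y) = v * (u * y) := fun y => by rw [← mul_assoc, huv, mul_assoc]
  have hmain : (u * v * x) * (u * v * x) = v * (u * x * (u * x)) * v * (v * x * (v * x)) := by
    simp only [mul_assoc, hv2', hx2']
    rw [huv']
  have hxt : x ≠ u * x * (u * x) := by
    intro h
    have hxu : x * u = u * x := by
      have : (u * x * (u * x)) * u = u * (u * x * (u * x)) := by rw [a5, a4]
      rw [← h] at this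
      exact this
    have h2 : (u * x) ^ 2 = 1 := by
      rw [pow_two]
      calc u * x * (u * x) = u * (x * u) * x := by group
        _ = u * (u * x) * x := by rw [hxu]
        _ = (u * u) * (x * x) := by group
        _ = 1 := by rw [hu2, hx2, one_mul]
    have hd := orderOf_dvd_of_pow_eq_one h2
    rw [h4] at hd
    omega
  have hxtD : x * (u * x * (u * x)) ∈ D := by
    rw [a2]
    have := hD.conj_mem x hx u
    rw [huinv] at this
    exact this
  obtain ⟨t, htdef⟩ : ∃ t, t = u * x * (u * x) := ⟨_, rfl⟩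
  obtain ⟨t', ht'def⟩ : ∃ t', t' = v * x * (v * x) := ⟨_, rfl⟩
  rw [← htdef] at ht a1 a2 a3 a4 a5 hmain hxt hxtD
  rw [← ht'def] at ht' b2 b3 b4 b5 hmain
  have hconj : t * t' = v * ((u * v * x) * (u * v * x)) * v⁻¹ := by
    rw [hmain, hvinv]
    calc t * t' = t * (t' * (v * v)) := by rw [hv2, mul_one]
      _ = t * ((t' * v) * v) := by group
      _ = t * ((v * t') * v) := by rw [b5, ← b4]
      _ = (v * v) * t * (v * t' * v) := by rw [hv2, one_mul]
      _ = v * (v * t * v * t') * v := by group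
  have hoddtt : Odd (orderOf (t * t')) := by
    rw [hconj]
    have h1 := MulEquiv.orderOf_eq (MulAut.conj v) ((u * v * x) * (u * v * x))
    rw [MulAut.conj_apply] at h1
    rw [h1, ← pow_two]
    exact Odd.of_dvd_nat hodd (orderOf_pow_dvd 2)
  have htt := hb1 x t t' hx ht (by rw [a2, a3]) hxt hxtD ht' (by rw [b3, b2]) hoddtt
  have h1 : t * t' = 1 := by rw [htt]; exact a1
  rw [hconj] at h1
  have h2 : (u * v * x) * (u * v * x) = 1 := by
    have := congrArg (fun y => v⁻¹ * y * v) h1
    simpa [mul_assoc] using this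
  have h3 : orderOf (u * v * x) = 1 :=
    odd_dvd_two hodd (orderOf_dvd_of_pow_eq_one (by rw [pow_two]; exact h2))
  have h5 : u * v * x = 1 := orderOf_eq_one_iff.mp h3
  apply hxne
  have : x = (u * v)⁻¹ := eq_inv_of_mul_eq_one_right h5
  rw [this, mul_inv_rev, huinv, hvinv, huv]

theorem mem_of_odd_coset (N : Subgroup G) [N.Normal] {s g : G} (hs : s * s = 1)
    (hg : s⁻¹ * g ∈ N) (hodd : Odd (orderOf g)) : s ∈ N := by
  have h1 : ((s : G) : G ⧸ N) = (g : G ⧸ N) := QuotientGroup.eq.mpr hg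
  have h2 : ((s ^ orderOf g : G) : G ⧸ N) = 1 := by
    rw [QuotientGroup.mk_pow, h1, ← QuotientGroup.mk_pow, pow_orderOf_eq_one]
    rfl
  rw [pow_odd_of_sq hs hodd] at h2
  exact (QuotientGroup.eq_one_iff s).mp h2

/-- TWO -/
theorem two_elt_of_normal (hD : Cfsg.IsRootInvolutionSet D)
    (hnsa : ∀ u v x : G, u ∈ D → v ∈ D → u * v = v * u → u ≠ v → u * v ∈ D → x ∈ D →
      x ≠ u * v → Odd (orderOf (u * v * x)) →
      (x ≠ u ∧ Odd (orderOf (u * x))) ∨ (x ≠ v ∧ Odd (orderOf (v * x))))
    {a b : G} (ha : a ∈ D) (hb : b ∈ D) (hab : a * b = b * a) (hne : a ≠ b) (habD : a * b ∈ D)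
    (N : Subgroup G) [hNn : N.Normal] (hN : ∀ d ∈ D, d ∉ N) {n : G} (hn : n ∈ N) :
    orderOf (a * (n * a * n⁻¹)) ∣ 4 := by
  have ha2 := sq_of_mem hD ha
  have hb2 := sq_of_mem hD hb
  have hainv : a⁻¹ = a := inv_eq_of_mul_eq_one_left ha2
  have ha' : n * a * n⁻¹ ∈ D := hD.conj_mem a ha n
  have ha'2 := sq_of_mem hD ha'
  rcases hD.pair a ha (n * a * n⁻¹) ha' with h | h | h
  · apply (orderOf_dvd_of_pow_eq_one _).trans (by norm_num : (2 : ℕ) ∣ 4)
    rw [pow_two]
    calc a * (n * a * n⁻¹) * (a * (n * a * n⁻¹))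
        = a * ((n * a * n⁻¹) * a) * (n * a * n⁻¹) := by simp only [mul_assoc]
      _ = a * (a * (n * a * n⁻¹)) * (n * a * n⁻¹) := by rw [h]
      _ = (a * a) * ((n * a * n⁻¹) * (n * a * n⁻¹)) := by simp only [mul_assoc]
      _ = 1 := by rw [ha2, ha'2, one_mul]
  · by_cases heq : n * a * n⁻¹ = a
    · rw [heq, ha2, orderOf_one]
      exact one_dvd _
    · exfalso
      have e1 : b * (a * b) = a := by rw [hab, ← mul_assoc, hb2, one_mul]
      have e2 : a * b * b = a := by rw [mul_assoc, hb2, mul_one]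
      have hbne : b ≠ a * b := by
        intro h'
        apply ne_one_of_mem hD ha
        calc a = a * b * b := e2.symm
          _ = b * b := by rw [← h']
          _ = 1 := hb2
      have hcase := hnsa b (a * b) (n * a * n⁻¹) hb habD (by rw [e1, e2]) hbne
        (by rw [e1]; exact ha) ha' (by rw [e1]; exact heq) (by rw [e1]; exact h)
      rcases hcase with ⟨-, h1⟩ | ⟨-, h1⟩
      · have hmem : (b * a)⁻¹ * (b * (n * a * n⁻¹)) ∈ N := by
          have e : (b * a)⁻¹ * (b * (n * a * n⁻¹)) = (a⁻¹ * n * a⁻¹⁻¹) * n⁻¹ := by group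
          rw [e]
          exact N.mul_mem (hNn.conj_mem n hn a⁻¹) (N.inv_mem hn)
        have hs : (b * a) * (b * a) = 1 := by rw [← hab]; exact sq_of_mem hD habD
        have hmemN := mem_of_odd_coset N hs hmem h1
        rw [← hab] at hmemN
        exact hN _ habD hmemN
      · have hmem : b⁻¹ * (a * b * (n * a * n⁻¹)) ∈ N := by
          have e : b⁻¹ * (a * b * (n * a * n⁻¹)) = (a * n * a⁻¹) * n⁻¹ := by
            rw [hab, hainv]
            group
          rw [e]
          exact N.mul_mem (hNn.conj_mem n hn a) (N.inv_mem hn)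
        exact hN b hb (mem_of_odd_coset N hb2 hmem h1)
  · rw [h.1]

end Cfsg.Agent.H40.RootInv
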