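import Mathlib
import Cfsg.Agent.H29.BG117Defs

set_option autoImplicit false

/-!
# B&G 11.7, piece COMM (helper40 for helper29): `[Y, A]` centralizes `M_σ`
-/

namespace Cfsg.Agent.H40.BG117

open Cfsg Subgroup Cfsg.Agent.H58.BG10 Cfsg.Agent.H63.BG11 Cfsg.Agent.H29.BG117

open scoped commutatorElement

universe u

variable {G : Type u} [Group G] [Finite G]

omit [Finite G] in
theorem le_normalizer_map_subtype_aux (M : Subgroup G) (N : Subgroup ↥M)
    [hN : N.Normal] : M ≤ Subgroup.normalizer ((N.map M.subtype : Subgroup G) : Set G) := by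
  rw [Subgroup.le_normalizer_iff]
  rintro m hm _ ⟨n, hn, rfl⟩
  exact ⟨⟨m, hm⟩ * n * ⟨m, hm⟩⁻¹, hN.conj_mem n hn ⟨m, hm⟩, by simp⟩

omit [Finite G] in
theorem le_normalizer_sigmaCore (M : Subgroup G) :
    M ≤ normalizer ((sigmaCore M : Subgroup G) : Set G) :=
  le_normalizer_map_subtype_aux M (piCore (sigma M) M)

/-- two distinct subgroups of order `p` generate a group of order `p ^ 2` containing them -/
theorem sup_eq_of_card {p : ℕ} [Fact p.Prime] {A Aa Ab : Subgroup G} (hA : Nat.card A = p ^ 2)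
    (ha : Aa ≤ A) (hb : Ab ≤ A) (hca : Nat.card Aa = p) (hcb : Nat.card Ab = p) (hne : Aa ≠ Ab) :
    Aa ⊔ Ab = A := by
  have hp := (Fact.out : p.Prime)
  have hle : Aa ⊔ Ab ≤ A := sup_le ha hb
  apply Subgroup.eq_of_le_of_card_ge hle
  have hd : Nat.card ↥(Aa ⊔ Ab) ∣ p ^ 2 := hA ▸ Subgroup.card_dvd_of_le hle
  obtain ⟨k, hk, hk'⟩ := (Nat.dvd_prime_pow hp).mp hd
  rw [hA, hk']
  by_contra hlt
  have hk1 : k ≤ 1 := by
    by_contra h
    have : k = 2 := by omega
    exact hlt (by rw [this])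
  have hcle : Nat.card ↥(Aa ⊔ Ab) ≤ p := by
    rw [hk']
    calc p ^ k ≤ p ^ 1 := Nat.pow_le_pow_right hp.pos hk1
      _ = p := pow_one p
  have e1 : Aa = Aa ⊔ Ab := Subgroup.eq_of_le_of_card_ge le_sup_left (by rw [hca]; exact hcle)
  have e2 : Ab = Aa ⊔ Ab := Subgroup.eq_of_le_of_card_ge le_sup_right (by rw [hcb]; exact hcle)
  exact hne (e1.trans e2.symm)

omit [Finite G] in
/-- If `A` is abelian and normalizes `Y`, the elements `a ∈ A` with `[Y, a] ⊆ C` form a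
subgroup. -/
theorem comm_le_of_sup {A Aa Ab Y C : Subgroup G} (hAc : IsMulCommutative A)
    (hAY : A ≤ normalizer (Y : Set G)) (ha : Aa ≤ A) (hb : Ab ≤ A)
    (h1 : ⁅Y, Aa⁆ ≤ C) (h2 : ⁅Y, Ab⁆ ≤ C) : ⁅Y, Aa ⊔ Ab⁆ ≤ C := by
  classical
  have hcomm : ∀ a ∈ A, ∀ b ∈ A, a * b = b * a := by
    intro a ha' b hb'
    have := hAc.is_comm.comm (⟨a, ha'⟩ : A) ⟨b, hb'⟩
    exact congrArg Subtype.val this
  let S : Subgroup G :=
    { carrier := {a | a ∈ A ∧ ∀ y ∈ Y, ⁅y, a⁆ ∈ C}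
      one_mem' := ⟨one_mem _, fun y _ => by simp⟩
      mul_mem' := by
        rintro a b ⟨haA, ha'⟩ ⟨hbA, hb'⟩
        refine ⟨mul_mem haA hbA, fun y hy => ?_⟩
        have hy' : a * y * a⁻¹ ∈ Y := (Subgroup.mem_normalizer_iff.mp (hAY haA) y).mp hy
        have e : ⁅y, a * b⁆ = ⁅y, a⁆ * ⁅a * y * a⁻¹, b⁆ := by
          have hab := hcomm a haA b hbA
          rw [commutatorElement_def, commutatorElement_def, commutatorElement_def]
          have hab' : a * b * a⁻¹ = b := by rw [hab]; group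
          have hab'' : a * b⁻¹ * a⁻¹ = b⁻¹ := by
            have := congrArg (·⁻¹) hab'
            simpa [mul_assoc] using this
          calc y * (a * b) * y⁻¹ * (a * b)⁻¹
              = y * a * y⁻¹ * a⁻¹ * (a * y * a⁻¹ * (a * b * a⁻¹) * (a * y * a⁻¹)⁻¹
                  * (a * b⁻¹ * a⁻¹)) := by
                group
            _ = y * a * y⁻¹ * a⁻¹ * (a * y * a⁻¹ * b * (a * y * a⁻¹)⁻¹ * b⁻¹) := by
                rw [hab', hab'']
        rw [e]
        exact mul_mem (ha' y hy) (hb' _ hy')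
      inv_mem' := by
        rintro a ⟨haA, ha'⟩
        refine ⟨inv_mem haA, fun y hy => ?_⟩
        have hy' : a⁻¹ * y * a⁻¹⁻¹ ∈ Y :=
          (Subgroup.mem_normalizer_iff.mp (hAY (inv_mem haA)) y).mp hy
        have e : ⁅y, a⁻¹⁆ = (⁅a⁻¹ * y * a⁻¹⁻¹, a⁆)⁻¹ := by
          simp only [commutatorElement_def, mul_inv_rev, inv_inv]
          group
        rw [e]
        exact inv_mem (ha' _ hy') }
  have hS : Aa ⊔ Ab ≤ S := by
    refine sup_le ?_ ?_
    · intro a haa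
      exact ⟨ha haa, fun y hy => h1 (Subgroup.commutator_mem_commutator hy haa)⟩
    · intro b hbb
      exact ⟨hb hbb, fun y hy => h2 (Subgroup.commutator_mem_commutator hy hbb)⟩
  rw [Subgroup.commutator_le]
  intro y hy a ha'
  exact (hS ha').2 y hy

/-- **BG117-COMM**: `[Y, A]` centralizes `M_σ` for every `A`-invariant `t`-subgroup `Y` of `M`,
`t ∉ σ(M) ∪ {p}`. -/
theorem excComm (_hG : IsMinSimpleOddOrder G) (h350 : St1350 G) (hN : StExcNilp G)
    (h2 : StExcTwoFree G) (hfpf : StFpfComm G) : StExcComm G := by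
  intro M A A₀ p _ hE t _ htσ htp Y hYM hYt hAY
  obtain ⟨Aa, Ab, haA, hbA, hca, hcb, hne, hfa, hfb⟩ := h2 M A A₀ p hE
  have hp := (Fact.out : p.Prime)
  have hsup : Aa ⊔ Ab = A := sup_eq_of_card hE.card haA hbA hca hcb hne
  have hV : Group.IsNilpotent (sigmaCore M) := hN M A A₀ p hE
  have hHall := (h350 M hE.coatom).1
  have hMV := le_normalizer_sigmaCore M
  have key : ∀ R : Subgroup G, R ≤ A → Nat.card R = p →
      sigmaCore M ⊓ centralizer (R : Set G) = ⊥ →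
      ⁅Y, R⁆ ≤ centralizer (sigmaCore M : Set G) := by
    intro R hRA hRc hRf
    refine hfpf (sigmaCore M) Y R t hV hYt (by rw [hRc]; exact hp) (hYM.trans hMV)
      ((hRA.trans hE.le).trans hMV) (hRA.trans hAY) ?_ ?_ ?_ hRf
    · intro hdvd
      exact htσ (hHall.2.1 t (Fact.out : t.Prime) hdvd)
    · rw [hRc]
      intro hdvd
      exact hE.nsig (hHall.2.1 p hp hdvd)
    · rw [hRc]
      exact fun h => htp h.symm
  rw [← hsup]
  exact comm_le_of_sup hE.elem.1 hAY haA hbA (key Aa haA hca hfa) (key Ab hbA hcb hfb)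

end Cfsg.Agent.H40.BG117
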