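import Mathlib
import Cfsg.Agent.H29.BG117Defs
import Cfsg.Agent.H31.PLen
import Cfsg.Agent.Lib.Helper30.CoprimeIface

set_option autoImplicit false
set_option linter.unusedSectionVars false

/-!
# B&G 11.7, piece NORMAL (helper40 for helper29): `M_σ A ⊴ M` from `(*)`
-/

namespace Cfsg.Agent.H40.BG117N

open Cfsg Subgroup Cfsg.Agent.H58.BG10 Cfsg.Agent.H63.BG11 Cfsg.Agent.H29.BG117

universe u

variable {G : Type u} [Group G] [Finite G]

theorem le_normalizer_map_subtype_aux (M : Subgroup G) (N : Subgroup ↥M)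
    [hN : N.Normal] : M ≤ Subgroup.normalizer ((N.map M.subtype : Subgroup G) : Set G) := by
  rw [Subgroup.le_normalizer_iff]
  rintro m hm _ ⟨n, hn, rfl⟩
  exact ⟨⟨m, hm⟩ * n * ⟨m, hm⟩⁻¹, hN.conj_mem n hn ⟨m, hm⟩, by simp⟩

/-- a subgroup containing a Sylow `s`-subgroup of `K` for every prime `s` is `K` -/
theorem eq_of_sylow_le {H : Type*} [Group H] [Finite H] (K L : Subgroup H) (hLK : L ≤ K)
    (h : ∀ s : ℕ, s.Prime → ∃ P : Sylow s K, (P : Subgroup K).map K.subtype ≤ L) : L = K := by
  apply Subgroup.eq_of_le_of_card_ge hLK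
  apply Nat.le_of_dvd Nat.card_pos
  rw [← Nat.factorization_prime_le_iff_dvd Nat.card_pos.ne' Nat.card_pos.ne']
  intro s hs
  obtain ⟨P, hP⟩ := h s hs
  have := Fact.mk hs
  have h1 : Nat.card ((P : Subgroup K).map K.subtype) ∣ Nat.card L := Subgroup.card_dvd_of_le hP
  rw [Subgroup.card_map_of_injective K.subtype_injective, Sylow.card_eq_multiplicity] at h1
  exact (hs.pow_dvd_iff_le_factorization Nat.card_pos.ne').mp h1

/-- a normal subgroup of index prime to `s` contains every `s`-subgroup -/
theorem le_normal_of_pgroup {H : Type*} [Group H] [Finite H] {s : ℕ} (hs : s.Prime)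
    (N : Subgroup H) [N.Normal] (S : Subgroup H) (hS : IsPGroup s S) (hN : ¬ s ∣ N.index) :
    S ≤ N := by
  intro x hx
  obtain ⟨k, hk⟩ := hS ⟨x, hx⟩
  have hk' : x ^ s ^ k = 1 := congrArg Subtype.val hk
  have h1 : orderOf (QuotientGroup.mk' N x) ∣ s ^ k :=
    orderOf_dvd_of_pow_eq_one (by rw [← map_pow, hk', map_one])
  have h2 : orderOf (QuotientGroup.mk' N x) ∣ N.index := by
    rw [Subgroup.index]; exact orderOf_dvd_natCard _
  have hc : Nat.Coprime (s ^ k) N.index :=
    Nat.Coprime.pow_left k ((Nat.Prime.coprime_iff_not_dvd hs).mpr hN)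
  have h3 : orderOf (QuotientGroup.mk' N x) = 1 := Nat.eq_one_of_dvd_coprimes hc h1 h2
  exact (QuotientGroup.eq_one_iff x).mp (orderOf_eq_one_iff.mp h3)

/-- conjugation maps a join into `L` if it maps both parts into `L` -/
theorem conj_sup_mem {H₁ H₂ L : Subgroup G} {g : G} (h1 : ∀ x ∈ H₁, g * x * g⁻¹ ∈ L)
    (h2 : ∀ x ∈ H₂, g * x * g⁻¹ ∈ L) : ∀ x ∈ H₁ ⊔ H₂, g * x * g⁻¹ ∈ L := by
  have hle : H₁ ⊔ H₂ ≤ L.comap (MulAut.conj g).toMonoidHom := by
    refine sup_le ?_ ?_
    · intro x hx
      simpa [Subgroup.mem_comap, MulAut.conj_apply] using h1 x hx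
    · intro x hx
      simpa [Subgroup.mem_comap, MulAut.conj_apply] using h2 x hx
  intro x hx
  simpa [Subgroup.mem_comap, MulAut.conj_apply] using hle hx

/-- **BG117-NORMAL**: `M_σ A ⊴ M`. -/
theorem excNormal (_hG : IsMinSimpleOddOrder G) (h350 : St1350 G) (h1410 : St1410 G)
    (_hF : StExcFacts G) (hΩ : StExcOmega G) (hStar : StExcStar G) : StExcNormal G := by
  intro M A A₀ p _ hE
  have hp := (Fact.out : p.Prime)
  have hMV : M ≤ normalizer ((sigmaCore M : Subgroup G) : Set G) :=
    le_normalizer_map_subtype_aux M (piCore (sigma M) M)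
  have hHall := (h350 M hE.coatom).1
  -- a Sylow `p`-subgroup of `M` containing `A`
  have hAp : IsPGroup p (A.subgroupOf M) := by
    intro x
    refine ⟨1, ?_⟩
    apply Subtype.ext
    apply Subtype.ext
    have hx : ((x : ↥M) : G) ∈ A := x.2
    simpa using hE.elem.2 _ hx
  obtain ⟨P, hP⟩ := hAp.exists_le_sylow
  have hAP : A ≤ (P : Subgroup M).map M.subtype := by
    intro a ha
    exact ⟨⟨a, hE.le ha⟩, hP (show (⟨a, hE.le ha⟩ : M) ∈ A.subgroupOf M from ha), rfl⟩
  have hom := (hΩ M A A₀ p hE P).2 hAP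
  -- Frattini
  have hpl : PLengthLE p 1 M := h1410 p M hE.coatom.1
  obtain ⟨K, hKn, hKc, hsup⟩ := Cfsg.Agent.H31.exists_normal_pprime_of_plength_one p hpl P
  set T : Subgroup G := normalizer ((sigmaCore M ⊔ A : Subgroup G) : Set G) with hT
  -- (a) the normalizer of `P` in `M`
  have ha : (normalizer ((P : Subgroup M) : Set M)).map M.subtype ≤ T := by
    rw [hT, Subgroup.le_normalizer_iff]
    rintro _ ⟨n, hn, rfl⟩
    apply conj_sup_mem
    · intro x hx
      exact le_sup_left (α := Subgroup G)
        ((Subgroup.mem_normalizer_iff.mp (hMV n.2) x).mp hx)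
    · intro x hx
      apply le_sup_right (α := Subgroup G)
      have hxP : (⟨x, hE.le hx⟩ : M) ∈ (P : Subgroup M) :=
        hP (show (⟨x, hE.le hx⟩ : M) ∈ A.subgroupOf M from hx)
      have hxP' : n * (⟨x, hE.le hx⟩ : M) * n⁻¹ ∈ (P : Subgroup M) :=
        (Subgroup.mem_normalizer_iff.mp hn _).mp hxP
      have hmem : M.subtype n * x * (M.subtype n)⁻¹ ∈ (P : Subgroup M).map M.subtype :=
        ⟨_, hxP', by simp⟩
      refine (hom _ hmem).mp ?_
      rw [conj_pow, hE.elem.2 x hx]
      group
  -- (b) the normal `p'`-subgroup `K`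
  set K' : Subgroup G := K.map M.subtype with hK'
  have hK'M : K' ≤ M := Subgroup.map_subtype_le K
  have hK'card : Nat.card K' = Nat.card K :=
    Subgroup.card_map_of_injective M.subtype_injective
  have hMK' : M ≤ normalizer (K' : Set G) := le_normalizer_map_subtype_aux M K
  have hAK' : A ≤ normalizer (K' : Set G) := hE.le.trans hMK'
  have hcop : (Nat.card A).Coprime (Nat.card K') := by
    rw [hE.card, hK'card]
    exact Nat.Coprime.pow_left 2 hKc.symm
  have hAsolv : Group.IsSolvable A := by
    have hc := hE.elem.1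
    exact Group.isSolvable_of_comm (fun a b => hc.is_comm.comm a b)
  have hb : K' ≤ T := by
    have hLK : T ⊓ K' = K' := by
      apply eq_of_sylow_le K' (T ⊓ K') inf_le_right
      intro s hs
      have := Fact.mk hs
      obtain ⟨Q, hQ⟩ := Cfsg.Agent.Lib.Helper30.coprime_exists_invariant_sylow A K' hAK' hcop
        (Or.inl hAsolv) s
      refine ⟨Q, le_inf ?_ (Subgroup.map_subtype_le _)⟩
      set Y : Subgroup G := (Q : Subgroup K').map K'.subtype with hY
      have hYK : Y ≤ K' := Subgroup.map_subtype_le _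
      have hYM : Y ≤ M := hYK.trans hK'M
      have hYs : IsPGroup s Y := Q.isPGroup'.map _
      by_cases hsσ : s ∈ sigma M
      · -- `Y ≤ M_σ`
        have hYσ : Y ≤ sigmaCore M := by
          have hidx : ¬ s ∣ (piCore (sigma M) M).index := by
            have h1 := hHall.2.2 s hs hsσ
            have e : (sigmaCore M).subgroupOf M = piCore (sigma M) M :=
              Subgroup.comap_map_eq_self_of_injective M.subtype_injective _
            rw [Subgroup.relIndex, e] at h1
            exact h1
          have hle := le_normal_of_pgroup hs (piCore (sigma M) M) (Y.subgroupOf M)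
            hYs.comap_subtype hidx
          intro y hy
          exact ⟨⟨y, hYM hy⟩, hle (show (⟨y, hYM hy⟩ : M) ∈ Y.subgroupOf M from hy), rfl⟩
        exact (hYσ.trans le_sup_left).trans Subgroup.le_normalizer
      · -- `Y ≤ C(A)`
        have hYc : Y ≤ centralizer (A : Set G) := by
          apply hStar M A A₀ p hE Y hYM hQ
          intro q hq hqd
          obtain ⟨n, hn⟩ := hYs.exists_card_eq
          rw [hn] at hqd
          have hqs : q = s := (Nat.prime_dvd_prime_iff_eq hq hs).mp (hq.dvd_of_dvd_pow hqd)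
          subst hqs
          refine ⟨hsσ, ?_⟩
          rintro rfl
          have h1 : q ∣ Nat.card K' := by
            have h2 : Nat.card Y ∣ Nat.card K' := Subgroup.card_dvd_of_le hYK
            rw [hn] at h2
            exact hqd.trans h2
          rw [hK'card] at h1
          exact (Nat.Prime.coprime_iff_not_dvd hq).mp hKc.symm h1
        rw [hT, Subgroup.le_normalizer_iff]
        intro y hy
        apply conj_sup_mem
        · intro x hx
          exact le_sup_left (α := Subgroup G)
            ((Subgroup.mem_normalizer_iff.mp (hMV (hYM hy)) x).mp hx)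
        · intro x hx
          apply le_sup_right (α := Subgroup G)
          have := hYc hy x hx
          have e : y * x * y⁻¹ = x := by rw [← this]; group
          rw [e]; exact hx
    rw [← hLK]; exact inf_le_left
  -- assembly
  intro m hm
  have hmem : (⟨m, hm⟩ : M) ∈ normalizer ((P : Subgroup M) : Set M) ⊔ K := by
    rw [hsup]; trivial
  have h2 : m ∈ (normalizer ((P : Subgroup M) : Set M) ⊔ K).map M.subtype := ⟨_, hmem, rfl⟩
  rw [Subgroup.map_sup] at h2
  exact (sup_le ha hb) h2

end Cfsg.Agent.H40.BG117N
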