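import Mathlib
import Cfsg.Agent.H29.BG117Defs

set_option autoImplicit false
set_option linter.unusedSectionVars false

/-!
# B&G 11.7, piece TWO (helper40 for helper29): two distinct subgroups of order `p` of `A`
without fixed points on `M_σ`
-/

namespace Cfsg.Agent.H40.BG117

open Cfsg Subgroup Cfsg.Agent.H58.BG10 Cfsg.Agent.H63.BG11 Cfsg.Agent.H29.BG117

universe u

variable {G : Type u} [Group G] [Finite G]

omit [Finite G] in
theorem centralizer_le_normalizer_aux (H : Subgroup G) :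
    centralizer (H : Set G) ≤ normalizer (H : Set G) := by
  intro c hc
  rw [Subgroup.mem_normalizer_iff]
  intro h
  have key : ∀ x ∈ H, c * x * c⁻¹ = x := by
    intro x hx
    have := hc x hx
    rw [← this]; group
  constructor
  · intro hh
    rw [key h hh]; exact hh
  · intro hh
    have h1 := key _ hh
    have h2 : c * h * c⁻¹ = h := by
      have : c * (c * h * c⁻¹) * c⁻¹ = c * h * c⁻¹ := h1
      have h3 : c⁻¹ * (c * (c * h * c⁻¹) * c⁻¹) * c = c⁻¹ * (c * h * c⁻¹) * c := by rw [this]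
      have h4 : c⁻¹ * (c * (c * h * c⁻¹) * c⁻¹) * c = c * h * c⁻¹ := by group
      have h5 : c⁻¹ * (c * h * c⁻¹) * c = h := by group
      rw [h4, h5] at h3
      exact h3
    rw [← h2]; exact hh

omit [Finite G] in
/-- the fixed-point-freeness of a conjugate of `A₀` by an element outside `M` normalizing `A` -/
theorem conj_free (hTI : StExcTI G) {M A A₀ : Subgroup G} {p : ℕ} [Fact p.Prime]
    (hE : Exc M A A₀ p) {h : G} (hM : h ∉ M) (h2 : ∀ x ∈ A, h⁻¹ * x * h ∈ A) :
    sigmaCore M ⊓ centralizer ((A₀.map (MulAut.conj h).toMonoidHom : Subgroup G) : Set G) = ⊥ := by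
  have hAg : A ≤ M.map (MulAut.conj h).toMonoidHom := by
    intro a ha
    refine ⟨h⁻¹ * a * h, hE.le (h2 a ha), ?_⟩
    simp only [MulEquiv.toMonoidHom_eq_coe, MonoidHom.coe_coe, MulAut.conj_apply]
    group
  have hti := hTI M A A₀ p hE h hM hAg
  rw [eq_bot_iff, ← hti]
  intro x hx
  refine ⟨hx.1, ?_⟩
  have hx2 := hx.2
  have hc : h⁻¹ * x * h ∈ centralizer (A₀ : Set G) := by
    intro a ha
    have ha' : h * a * h⁻¹ ∈ (A₀.map (MulAut.conj h).toMonoidHom : Subgroup G) :=
      ⟨a, ha, by simp [MulAut.conj_apply]⟩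
    have := hx2 _ ha'
    -- (h a h⁻¹) x = x (h a h⁻¹)
    have e1 : a * (h⁻¹ * x * h) = h⁻¹ * (h * a * h⁻¹ * x) * h := by group
    have e2 : h⁻¹ * x * h * a = h⁻¹ * (x * (h * a * h⁻¹)) * h := by group
    rw [e1, e2, this]
  have hm : h⁻¹ * x * h ∈ M := hE.norm (centralizer_le_normalizer_aux A₀ hc)
  refine ⟨h⁻¹ * x * h, hm, ?_⟩
  simp only [MulEquiv.toMonoidHom_eq_coe, MonoidHom.coe_coe, MulAut.conj_apply]
  group

/-- **BG117-TWO**: two distinct subgroups of order `p` of `A` without fixed points on `M_σ`. -/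
theorem excTwoFree (hG : IsMinSimpleOddOrder G) (hTI : StExcTI G) (hΩ : StExcOmega G) :
    StExcTwoFree G := by
  intro M A A₀ p _ hE
  have hp := (Fact.out : p.Prime)
  -- a Sylow `p`-subgroup of `M` containing `A`
  have hAp : IsPGroup p (A.subgroupOf M) := by
    intro x
    refine ⟨1, ?_⟩
    apply Subtype.ext
    apply Subtype.ext
    have hx : ((x : ↥M) : G) ∈ A := x.2
    simpa using hE.elem.2 _ hx
  obtain ⟨P, hP⟩ := hAp.exists_le_sylow
  have hAP : A ≤ (P : Subgroup M).map M.subtype := by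
    intro a ha
    exact ⟨⟨a, hE.le ha⟩, hP (show (⟨a, hE.le ha⟩ : M) ∈ A.subgroupOf M from ha), rfl⟩
  have hom := (hΩ M A A₀ p hE P).2 hAP
  have hdvd : p ∣ Nat.card M := by
    have h1 : Nat.card A ∣ Nat.card M := Subgroup.card_dvd_of_le hE.le
    rw [hE.card] at h1
    exact (dvd_pow_self p (by norm_num)).trans h1
  have hnot : ¬ normalizer (((P : Subgroup M).map M.subtype : Subgroup G) : Set G) ≤ M := by
    intro hle
    exact hE.nsig ⟨hp, hdvd, P, hle⟩
  obtain ⟨g, hgN, hgM⟩ := SetLike.not_le_iff_exists.mp hnot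
  -- elements of the normalizer of `P` normalize `A`
  have hnormA : ∀ h ∈ normalizer (((P : Subgroup M).map M.subtype : Subgroup G) : Set G),
      ∀ x ∈ A, h * x * h⁻¹ ∈ A := by
    intro h hh x hx
    have hxP : h * x * h⁻¹ ∈ (P : Subgroup M).map M.subtype :=
      (Subgroup.mem_normalizer_iff.mp hh x).mp (hAP hx)
    refine (hom _ hxP).mp ?_
    rw [conj_pow, hE.elem.2 x hx]
    group
  have hg1 : ∀ x ∈ A, g * x * g⁻¹ ∈ A := hnormA g hgN
  have hg2 : ∀ x ∈ A, g⁻¹ * x * g ∈ A := by
    intro x hx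
    have := hnormA g⁻¹ (inv_mem hgN) x hx
    simpa using this
  have hgM' : g⁻¹ ∉ M := fun h => hgM (by simpa using inv_mem h)
  have hinj : ∀ h : G, Function.Injective ((MulAut.conj h).toMonoidHom : G →* G) :=
    fun h => (MulAut.conj h).injective
  refine ⟨A₀.map (MulAut.conj g).toMonoidHom, A₀.map (MulAut.conj g⁻¹).toMonoidHom,
    ?_, ?_, ?_, ?_, ?_, conj_free hTI hE hgM hg2, conj_free hTI hE hgM' ?_⟩
  · rintro _ ⟨a, ha, rfl⟩
    simpa [MulAut.conj_apply] using hg1 a (hE.le₀ ha)
  · rintro _ ⟨a, ha, rfl⟩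
    simpa [MulAut.conj_apply] using hg2 a (hE.le₀ ha)
  · rw [Subgroup.card_map_of_injective (hinj g), hE.card₀]
  · rw [Subgroup.card_map_of_injective (hinj g⁻¹), hE.card₀]
  · intro heq
    apply hgM
    -- `g ^ 2` normalizes `A₀`
    have hsq : g * g ∈ normalizer (A₀ : Set G) := by
      rw [Subgroup.mem_normalizer_iff]
      intro x
      constructor
      · intro hx
        have h1 : g * x * g⁻¹ ∈ A₀.map (MulAut.conj g).toMonoidHom :=
          ⟨x, hx, by simp [MulAut.conj_apply]⟩
        rw [heq] at h1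
        obtain ⟨a, ha, hae⟩ := h1
        have hae' : g⁻¹ * a * g = g * x * g⁻¹ := by simpa [MulAut.conj_apply] using hae
        have : g * g * x * (g * g)⁻¹ = a := by
          have : g * g * x * (g * g)⁻¹ = g * (g * x * g⁻¹) * g⁻¹ := by group
          rw [this, ← hae']; group
        rw [this]; exact ha
      · intro hx
        have h1 : g⁻¹ * (g * g * x * (g * g)⁻¹) * g ∈ A₀.map (MulAut.conj g⁻¹).toMonoidHom :=
          ⟨_, hx, by simp [MulAut.conj_apply]⟩
        rw [← heq] at h1
        obtain ⟨b, hb, hbe⟩ := h1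
        have hbe' : g * b * g⁻¹ = g⁻¹ * (g * g * x * (g * g)⁻¹) * g := by
          simpa [MulAut.conj_apply] using hbe
        have : x = b := by
          have h3 : g⁻¹ * (g * g * x * (g * g)⁻¹) * g = g * x * g⁻¹ := by group
          rw [h3] at hbe'
          have h4 : g⁻¹ * (g * b * g⁻¹) * g = g⁻¹ * (g * x * g⁻¹) * g := by rw [hbe']
          have h5 : g⁻¹ * (g * b * g⁻¹) * g = b := by group
          have h6 : g⁻¹ * (g * x * g⁻¹) * g = x := by group
          rw [h5, h6] at h4
          exact h4.symm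
        rw [this]; exact hb
    have hsqM : g * g ∈ M := hE.norm hsq
    obtain ⟨k, hk⟩ := hG.1
    have hgk : g = (g * g) ^ (k + 1) := by
      have h1 : g ^ (2 * k + 1) = 1 := by rw [← hk]; exact pow_card_eq_one'
      calc g = g ^ (2 * k + 1) * g := by rw [h1, one_mul]
        _ = (g * g) ^ (k + 1) := by
          rw [← pow_two, ← pow_mul, ← pow_succ]
          congr 1
    rw [hgk]
    exact pow_mem hsqM _
  · intro x hx
    simpa using hg1 x hx

end Cfsg.Agent.H40.BG117
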