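import Mathlib

set_option autoImplicit false
set_option linter.unusedSectionVars false

/-! S2140 extra piece LINALG (helper40, for helper17): small existence lemmas in `ι → F`. -/

namespace Cfsg.Agent.H40.Pm

variable {ι : Type} [Fintype ι] [DecidableEq ι] {F : Type*} [Field F]

omit [DecidableEq ι] in
theorem exists_not_mem_of_card_lt {k : ℕ} (v : Fin k → (ι → F)) (hs : k < Fintype.card ι) :
    ∃ u : ι → F, u ∉ Submodule.span F (Set.range v) := by
  by_contra hcon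
  push Not at hcon
  have htop : Submodule.span F (Set.range v) = ⊤ := by
    rw [eq_top_iff]
    intro x _
    exact hcon x
  have h1 : Module.finrank F (Submodule.span F (Set.range v)) ≤ Fintype.card (Fin k) :=
    finrank_range_le_card v
  rw [htop, finrank_top, Module.finrank_fintype_fun_eq_card, Fintype.card_fin] at h1
  omega

omit [DecidableEq ι] in
theorem exists_form_of_card_lt {k : ℕ} (v : Fin k → (ι → F)) (hs : k < Fintype.card ι) :
    ∃ θ : (ι → F) →ₗ[F] F, θ ≠ 0 ∧ ∀ i, θ (v i) = 0 := by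
  obtain ⟨u, hu⟩ := exists_not_mem_of_card_lt v hs
  have hlt : Submodule.span F (Set.range v) < ⊤ := by
    rw [lt_top_iff_ne_top]
    intro h
    exact hu (by rw [h]; exact Submodule.mem_top)
  obtain ⟨θ, hθ, hle⟩ := Submodule.exists_le_ker_of_lt_top _ hlt
  refine ⟨θ, hθ, fun i => ?_⟩
  have : v i ∈ LinearMap.ker θ := hle (Submodule.subset_span ⟨i, rfl⟩)
  exact LinearMap.mem_ker.mp this

theorem exists_indep (hn : 2 ≤ Fintype.card ι) (c : ι → F) (hc : c ≠ 0) :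
    ∃ e : ι → F, LinearIndependent F ![c, e] := by
  obtain ⟨e, he⟩ := exists_not_mem_of_card_lt (![c] : Fin 1 → (ι → F)) (by omega)
  refine ⟨e, ?_⟩
  rw [LinearIndependent.pair_iff' hc]
  intro a ha
  apply he
  rw [← ha]
  exact Submodule.smul_mem _ _ (Submodule.subset_span ⟨0, rfl⟩)

theorem exists_not_mem_span_pair (hn : 3 ≤ Fintype.card ι) (c e : ι → F) :
    ∃ u : ι → F, u ∉ Submodule.span F {c, e} := by
  obtain ⟨u, hu⟩ := exists_not_mem_of_card_lt (![c, e] : Fin 2 → (ι → F)) (by omega)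
  refine ⟨u, ?_⟩
  have h : Set.range (![c, e] : Fin 2 → (ι → F)) = {c, e} := by
    ext x
    simp only [Set.mem_range, Set.mem_insert_iff, Set.mem_singleton_iff]
    constructor
    · rintro ⟨i, rfl⟩
      fin_cases i
      · exact Or.inl rfl
      · exact Or.inr rfl
    · rintro (rfl | rfl)
      · exact ⟨0, rfl⟩
      · exact ⟨1, rfl⟩
  rw [h] at hu
  exact hu

theorem exists_form_three (hn : 4 ≤ Fintype.card ι) (c e u : ι → F) :
    ∃ θ₀ : (ι → F) →ₗ[F] F, θ₀ ≠ 0 ∧ θ₀ c = 0 ∧ θ₀ e = 0 ∧ θ₀ u = 0 := by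
  obtain ⟨θ, hθ, h⟩ := exists_form_of_card_lt (![c, e, u] : Fin 3 → (ι → F)) (by omega)
  exact ⟨θ, hθ, h 0, h 1, h 2⟩

theorem exists_form_three_indep (hn : 5 ≤ Fintype.card ι) (c e u : ι → F) :
    ∃ θ₀ θ : (ι → F) →ₗ[F] F, θ₀ ≠ 0 ∧ θ₀ c = 0 ∧ θ₀ e = 0 ∧ θ₀ u = 0 ∧
      θ c = 0 ∧ θ e = 0 ∧ θ u = 0 ∧ ∀ a : F, θ ≠ a • θ₀ := by
  obtain ⟨θ₀, hθ₀, h1, h2, h3⟩ := exists_form_three (by omega) c e u
  obtain ⟨w, hw⟩ : ∃ w : ι → F, θ₀ w ≠ 0 := by
    by_contra hcon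
    push Not at hcon
    exact hθ₀ (LinearMap.ext hcon)
  obtain ⟨θ, hθ, h⟩ := exists_form_of_card_lt (![c, e, u, w] : Fin 4 → (ι → F)) (by omega)
  refine ⟨θ₀, θ, hθ₀, h1, h2, h3, h 0, h 1, h 2, ?_⟩
  intro a ha
  have hw0 : θ w = 0 := h 3
  rw [ha, LinearMap.smul_apply, smul_eq_mul] at hw0
  rcases mul_eq_zero.mp hw0 with h0 | h0
  · apply hθ
    rw [ha, h0, zero_smul]
  · exact hw h0

theorem card_eq_two_of [Fintype F] (h2 : (2 : F) = 0) (h : ∀ s : F, s ≠ 0 → s ^ 2 = 1) :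
    Fintype.card F = 2 := by
  have h1 : ∀ s : F, s ≠ 0 → s = 1 := by
    intro s hs
    have hsq : (s - 1) ^ 2 = 0 := by
      have : (s - 1) ^ 2 = s ^ 2 - 2 * s + 1 := by ring
      rw [this, h s hs, h2]
      have : (1 : F) - 0 * s + 1 = 2 := by ring
      rw [this, h2]
    have := pow_eq_zero_iff (n := 2) (by norm_num) |>.mp hsq
    exact sub_eq_zero.mp this
  rw [← Nat.card_eq_fintype_card, Nat.card_eq_two_iff]
  refine ⟨0, 1, zero_ne_one, ?_⟩
  ext s
  simp only [Set.mem_insert_iff, Set.mem_singleton_iff, Set.mem_univ, iff_true]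
  by_cases hs : s = 0
  · exact Or.inl hs
  · exact Or.inr (h1 s hs)

end Cfsg.Agent.H40.Pm
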