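import Mathlib
import Cfsg.Agent.H77.TqDefs
import Cfsg.Agent.H49.Disc

/-!
# S5978-PLANE (helper40, for helper77)

For a nonsquare `ν` of a quadratic extension `L / F` of finite fields of odd characteristic, the
plane `(L, tr(ν c c'))` has an orthogonal basis whose norms have a square product.
-/

set_option autoImplicit false

namespace Cfsg.Agent.H40.Tq

open Cfsg.Agent.H77.Tq Module

universe u

theorem plane_finrank (F : Type u) [Field F] [Fintype F] (L : Type u) [Field L] [Fintype L]
    [Algebra F L] (hc : Fintype.card L = Fintype.card F ^ 2) : finrank F L = 2 := by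
  have h := Module.card_eq_pow_finrank (K := F) (V := L)
  rw [hc] at h
  exact (Nat.pow_right_injective (Fintype.one_lt_card (α := F)) h).symm

theorem plane_tr (F : Type u) [Field F] [Fintype F] (L : Type u) [Field L] [Fintype L]
    [Algebra F L] (h2 : finrank F L = 2) (x : L) :
    algebraMap F L (Algebra.trace F L x) = x + x ^ Fintype.card F := by
  rw [FiniteField.algebraMap_trace_eq_sum_pow, h2, Finset.sum_range_succ, Finset.sum_range_one,
    Nat.card_eq_fintype_card]
  simp

theorem plane_nm (F : Type u) [Field F] [Fintype F] (L : Type u) [Field L] [Fintype L]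
    [Algebra F L] (h2 : finrank F L = 2) (x : L) :
    algebraMap F L (Algebra.norm F x) = x * x ^ Fintype.card F := by
  rw [FiniteField.algebraMap_norm_eq_prod_pow, h2, Finset.prod_range_succ, Finset.prod_range_one,
    Nat.card_eq_fintype_card]
  simp

theorem plane (hN : StNormSq.{u}) : StPlane.{u} := by
  intro F _ _ L _ _ _ h2F hc ν hν
  classical
  have h2 : finrank F L = 2 := plane_finrank F L hc
  have hinj : Function.Injective (algebraMap F L) := FaithfulSMul.algebraMap_injective F L
  have hν0 : ν ≠ 0 := by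
    rintro rfl
    exact hν ⟨0, by simp⟩
  have htr1 : Algebra.trace F L (1 : L) = 2 := by
    have := Algebra.trace_algebraMap (S := L) (1 : F)
    rw [map_one, h2] at this
    rw [this]; simp
  -- a vector of nonzero norm
  obtain ⟨u, hu⟩ : ∃ u : L, Algebra.trace F L (ν * u * u) ≠ 0 := by
    by_contra hcon
    push Not at hcon
    have h1 := hcon (ν⁻¹ + 1)
    have h3 := hcon ν⁻¹
    have h4 := hcon 1
    have e : ν * (ν⁻¹ + 1) * (ν⁻¹ + 1) = ν * ν⁻¹ * ν⁻¹ + ν * 1 * 1 + (1 + 1) := by
      field_simp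
      ring
    rw [e, map_add, map_add, h3, h4, map_add, htr1] at h1
    apply h2F
    have : (2 : F) + 2 = 0 := by simpa using h1
    have h5 : (2 : F) * 2 = 0 := by rw [← this]; ring
    rcases mul_eq_zero.mp h5 with h | h <;> exact h
  have hu0 : u ≠ 0 := by
    rintro rfl
    apply hu
    simp
  set ν' : L := ν * u * u with hν'
  have hν'0 : ν' ≠ 0 := mul_ne_zero (mul_ne_zero hν0 hu0) hu0
  have hν'ns : ¬ IsSquare ν' := by
    rintro ⟨s, hs⟩
    apply hν
    refine ⟨s / u, ?_⟩
    field_simp
    linear_combination hs - hν'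
  set t : F := Algebra.trace F L ν' with ht
  -- a nonzero vector of trace zero
  obtain ⟨δ, hδ, hδ0⟩ : ∃ δ : L, Algebra.trace F L δ = 0 ∧ δ ≠ 0 := by
    have hk : LinearMap.ker (Algebra.trace F L) ≠ ⊥ := by
      apply LinearMap.ker_ne_bot_of_finrank_lt
      rw [h2, finrank_self]
      norm_num
    obtain ⟨δ, hδ, hδ0⟩ := (Submodule.ne_bot_iff _).mp hk
    exact ⟨δ, LinearMap.mem_ker.mp hδ, hδ0⟩
  have hδq : δ ^ Fintype.card F = -δ := by
    have := plane_tr F L h2 δ
    rw [hδ, map_zero] at this
    exact (neg_eq_of_add_eq_zero_right this.symm).symm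
  set η : F := -Algebra.norm F δ with hη
  have hδ2 : δ * δ = algebraMap F L η := by
    rw [hη, map_neg, plane_nm F L h2 δ, hδq]
    ring
  have hη0 : η ≠ 0 := by
    intro h
    rw [h, map_zero] at hδ2
    exact hδ0 (mul_self_eq_zero.mp hδ2)
  have hηns : ¬ IsSquare η := by
    rintro ⟨s, hs⟩
    have h6 : δ * δ = algebraMap F L s * algebraMap F L s := by
      rw [hδ2, hs, map_mul]
    have hs0 : s ≠ 0 := by
      rintro rfl
      apply hη0
      rw [hs]; simp
    have htrs : Algebra.trace F L (algebraMap F L s) = 2 * s := by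
      rw [Algebra.trace_algebraMap, h2]
      simp
    rcases mul_self_eq_mul_self_iff.mp h6 with h | h
    · rw [h, htrs] at hδ
      rcases mul_eq_zero.mp hδ with h' | h'
      · exact h2F h'
      · exact hs0 h'
    · rw [h, map_neg, htrs] at hδ
      rcases mul_eq_zero.mp (neg_eq_zero.mp hδ) with h' | h'
      · exact h2F h'
      · exact hs0 h'
  -- the norm of `ν'`
  set n : F := Algebra.norm F ν' with hn
  have hn0 : n ≠ 0 := by
    rw [hn]
    exact Algebra.norm_ne_zero_iff.mpr hν'0
  have hnns : ¬ IsSquare n := by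
    rw [hn, ← hN F L h2F hc ν' hν'0]
    exact hν'ns
  -- trace of the inverse
  have htinv : Algebra.trace F L ν'⁻¹ = t / n := by
    apply hinj
    rw [plane_tr F L h2, map_div₀, ht, hn, plane_tr F L h2, plane_nm F L h2, inv_pow]
    have : ν' ^ Fintype.card F ≠ 0 := pow_ne_zero _ hν'0
    field_simp
    ring
  have ht0 : t ≠ 0 := hu
  refine ⟨u, δ * (ν * u)⁻¹, ?_, hu, ?_, ?_⟩
  · have e : ν * u * (δ * (ν * u)⁻¹) = δ := by
      field_simp
    rw [e, hδ]
  · have e : ν * (δ * (ν * u)⁻¹) * (δ * (ν * u)⁻¹) = η • ν'⁻¹ := by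
      rw [Algebra.smul_def, ← hδ2, hν']
      field_simp
    rw [e, map_smul, htinv, smul_eq_mul]
    exact mul_ne_zero hη0 (div_ne_zero ht0 hn0)
  · have e : ν * (δ * (ν * u)⁻¹) * (δ * (ν * u)⁻¹) = η • ν'⁻¹ := by
      rw [Algebra.smul_def, ← hδ2, hν']
      field_simp
    rw [e, map_smul, htinv, smul_eq_mul]
    have hsq : IsSquare (η * n) :=
      (Cfsg.Agent.H49.isSquare_mul_nonsquare_iff hη0 hnns).mpr hηns
    obtain ⟨s, hs⟩ := hsq
    refine ⟨t * s / n, ?_⟩
    change t * (η * (t / n)) = t * s / n * (t * s / n)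
    field_simp
    linear_combination hs

example : StNormSq.{u} → StPlane.{u} := plane

end Cfsg.Agent.H40.Tq

#print axioms Cfsg.Agent.H40.Tq.plane
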