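import Mathlib
import Cfsg.Agent.H77.TqDefs
import Cfsg.Agent.H49.Disc
import Cfsg.Agent.H40.TqPlane

/-!
# S5978-DISC (helper40, for helper77)

For the minus-type form in adapted coordinates: if all `α_l` but the last are nonsquares of `L`,
the last one is a square iff `(-1)^n` is a square of `F`.
-/

set_option autoImplicit false
open scoped MatrixGroups
open scoped Matrix

namespace Cfsg.Agent.H40.Tq

open Cfsg.Agent.H77.Tq Module

universe u

theorem disc_delta (F : Type u) [Field F] [Fintype F] (L : Type u) [Field L] [Fintype L]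
    [Algebra F L] (h2F : (2 : F) ≠ 0) (h2 : finrank F L = 2) :
    ∃ (δ : L) (η : F), Algebra.trace F L δ = 0 ∧ δ ≠ 0 ∧ δ ^ Fintype.card F = -δ ∧
      δ * δ = algebraMap F L η ∧ η ≠ 0 ∧ ¬ IsSquare η := by
  classical
  obtain ⟨δ, hδ, hδ0⟩ : ∃ δ : L, Algebra.trace F L δ = 0 ∧ δ ≠ 0 := by
    have hk : LinearMap.ker (Algebra.trace F L) ≠ ⊥ := by
      apply LinearMap.ker_ne_bot_of_finrank_lt
      rw [h2, finrank_self]
      norm_num
    obtain ⟨δ, hδ, hδ0⟩ := (Submodule.ne_bot_iff _).mp hk
    exact ⟨δ, LinearMap.mem_ker.mp hδ, hδ0⟩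
  have hδq : δ ^ Fintype.card F = -δ := by
    have := plane_tr F L h2 δ
    rw [hδ, map_zero] at this
    exact (neg_eq_of_add_eq_zero_right this.symm).symm
  have hδ2 : δ * δ = algebraMap F L (-Algebra.norm F δ) := by
    rw [map_neg, plane_nm F L h2 δ, hδq]
    ring
  have hη0 : -Algebra.norm F δ ≠ 0 := by
    intro h
    rw [h, map_zero] at hδ2
    exact hδ0 (mul_self_eq_zero.mp hδ2)
  refine ⟨δ, -Algebra.norm F δ, hδ, hδ0, hδq, hδ2, hη0, ?_⟩
  rintro ⟨s, hs⟩
  have h6 : δ * δ = algebraMap F L s * algebraMap F L s := by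
    rw [hδ2, hs, map_mul]
  have hs0 : s ≠ 0 := by
    rintro rfl
    apply hη0
    rw [hs]; simp
  have htrs : Algebra.trace F L (algebraMap F L s) = 2 * s := by
    rw [Algebra.trace_algebraMap, h2]
    simp
  rcases mul_self_eq_mul_self_iff.mp h6 with h | h
  · rw [h, htrs] at hδ
    rcases mul_eq_zero.mp hδ with h' | h'
    · exact h2F h'
    · exact hs0 h'
  · rw [h, map_neg, htrs] at hδ
    rcases mul_eq_zero.mp (neg_eq_zero.mp hδ) with h' | h'
    · exact h2F h'
    · exact hs0 h'

theorem disc_block (F : Type u) [Field F] [Fintype F] (L : Type u) [Field L] [Fintype L]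
    [Algebra F L] (h2 : finrank F L = 2) (δ : L) (η : F) (hδq : δ ^ Fintype.card F = -δ)
    (hδ2 : δ * δ = algebraMap F L η) (α : L) :
    Algebra.trace F L (α * 1 * 1) * Algebra.trace F L (α * δ * δ) -
      Algebra.trace F L (α * 1 * δ) * Algebra.trace F L (α * δ * 1) =
        4 * η * Algebra.norm F α := by
  apply FaithfulSMul.algebraMap_injective F L
  simp only [map_sub, map_mul, plane_tr F L h2, plane_nm F L h2, map_ofNat, mul_one, mul_pow,
    hδq]
  linear_combination (4 * α * α ^ Fintype.card F) * hδ2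

theorem disc (hN : StNormSq.{u}) : StDisc.{u} := by
  intro F _ _ m a b K L _ _ _ n ψ φ α h2F hAn hKC hns l hl
  classical
  have h2 : finrank F L = 2 := plane_finrank F L hKC.card
  have hn : n = m + 1 := by
    have h := hKC.dim
    simp only [Fintype.card_sum, Fintype.card_fin] at h
    omega
  obtain ⟨δ, η, hδ, hδ0, hδq, hδ2, hη0, hηns⟩ := disc_delta F L h2F h2
  have htr1 : Algebra.trace F L (1 : L) = 2 := by
    have := Algebra.trace_algebraMap (S := L) (1 : F)
    rw [map_one, h2] at this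
    rw [this]; simp
  have hli : LinearIndependent F ![(1 : L), δ] := by
    rw [LinearIndependent.pair_iff]
    intro s t hst
    have h3 := congrArg (Algebra.trace F L) hst
    rw [map_add, map_smul, map_smul, htr1, hδ, map_zero, smul_zero, add_zero, smul_eq_mul] at h3
    have hs : s = 0 := by
      rcases mul_eq_zero.mp h3 with h | h
      · exact h
      · exact absurd h h2F
    refine ⟨hs, ?_⟩
    rw [hs, zero_smul, zero_add] at hst
    rcases smul_eq_zero.mp hst with h | h
    · exact h
    · exact absurd h hδ0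
  let B₂ : Basis (Fin 2) F L :=
    basisOfLinearIndependentOfCardEqFinrank hli (by rw [Fintype.card_fin, h2])
  have hB0 : B₂ 0 = 1 := by simp [B₂]
  have hB1 : B₂ 1 = δ := by simp [B₂]
  let bb : Basis (Fin 2 × Fin n) F (MI m → F) :=
    ((Pi.basis (fun _ : Fin n => B₂)).map φ).reindex
      ((Equiv.sigmaEquivProd (Fin n) (Fin 2)).trans (Equiv.prodComm _ _))
  have hbb : ∀ (k : Fin n) (i : Fin 2), bb (i, k) = φ (Pi.single k (B₂ i)) := by
    intro k i
    simp [bb, Pi.basis_apply]
  obtain ⟨d, hd0, hdet⟩ := Cfsg.Agent.H49.gram_det_basis (Cfsg.quadFormMinus m F a b)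
    (Cfsg.Agent.H49.minusGram m F a b) (Cfsg.Agent.H49.polar_quadFormMinus m F a b) bb
  rw [Cfsg.Agent.H49.det_minusGram] at hdet
  have hG : (Matrix.of fun i j : Fin 2 × Fin n =>
      QuadraticMap.polar (Cfsg.quadFormMinus m F a b) (bb i) (bb j)) =
      Matrix.blockDiagonal (fun k : Fin n => Matrix.of (fun i j : Fin 2 =>
        Algebra.trace F L (α k * B₂ i * B₂ j))) := by
    ext ⟨i, k⟩ ⟨j, k'⟩
    rw [Matrix.of_apply, hbb, hbb]
    have hform := hKC.form (Pi.single k (B₂ i)) (Pi.single k' (B₂ j))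
    rw [Cfsg.Agent.H49.QMin_coe] at hform
    rw [hform]
    by_cases hkk : k = k'
    · subst hkk
      rw [Matrix.blockDiagonal_apply_eq, Matrix.of_apply]
      congr 1
      rw [Finset.sum_eq_single k]
      · simp
      · intro l' _ hl'
        simp [hl']
      · intro h; exact absurd (Finset.mem_univ k) h
    · rw [Matrix.blockDiagonal_apply_ne _ _ _ hkk]
      have e0 : (∑ l', α l' * (Pi.single k (B₂ i) : Fin n → L) l' *
          (Pi.single k' (B₂ j) : Fin n → L) l') = 0 := by
        apply Finset.sum_eq_zero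
        intro l' _
        by_cases h1 : l' = k
        · subst h1
          simp [hkk]
        · simp [Pi.single_apply, h1]
      rw [e0, map_zero]
  rw [hG, Matrix.det_blockDiagonal] at hdet
  have hblk : ∀ k : Fin n, (Matrix.of (fun i j : Fin 2 =>
      Algebra.trace F L (α k * B₂ i * B₂ j))).det = 4 * η * Algebra.norm F (α k) := by
    intro k
    rw [Matrix.det_fin_two, Matrix.of_apply, Matrix.of_apply, Matrix.of_apply, Matrix.of_apply,
      hB0, hB1]
    exact disc_block F L h2 δ η hδq hδ2 (α k)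
  rw [Finset.prod_congr rfl (fun k _ => hblk k)] at hdet
  -- quadratic characters
  have hχ4 : quadraticChar F 4 = 1 := by
    have e : (4 : F) = 2 ^ 2 := by norm_num
    rw [e]; exact quadraticChar_sq_one' h2F
  have hχη : quadraticChar F η = -1 := quadraticChar_neg_one_iff_not_isSquare.mpr hηns
  have hNk : ∀ k : Fin n, k ≠ l → quadraticChar F (Algebra.norm F (α k)) = -1 := by
    intro k hk
    apply quadraticChar_neg_one_iff_not_isSquare.mpr
    rw [← hN F L h2F hKC.card (α k) (hKC.ne k)]
    apply hns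
    have h3 : (k : ℕ) ≠ (l : ℕ) := fun h => hk (Fin.ext h)
    have h4 := k.2
    omega
  have hL : quadraticChar F (∏ k, 4 * η * Algebra.norm F (α k)) =
      - quadraticChar F (Algebra.norm F (α l)) := by
    rw [map_prod, Fintype.prod_eq_single l]
    · rw [map_mul, map_mul, hχ4, hχη]; ring
    · intro k hk
      rw [map_mul, map_mul, hχ4, hχη, hNk k hk]; norm_num
  have hdisc : quadraticChar F (a ^ 2 - 4 * b) = -1 :=
    quadraticChar_neg_one_iff_not_isSquare.mpr (Cfsg.Agent.H49.aniso_not_isSquare h2F hAn)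
  have hR : quadraticChar F (d ^ 2 * ((-1) ^ m * (4 * b - a ^ 2))) =
      - quadraticChar F ((-1 : F) ^ n) := by
    have e : d ^ 2 * ((-1) ^ m * (4 * b - a ^ 2)) = d ^ 2 * ((-1) ^ n * (a ^ 2 - 4 * b)) := by
      rw [hn, pow_succ]; ring
    rw [e, map_mul, map_mul, quadraticChar_sq_one' hd0, hdisc]; ring
  rw [hdet, hR] at hL
  have hfin : quadraticChar F (Algebra.norm F (α l)) = quadraticChar F ((-1 : F) ^ n) :=
    (neg_injective hL).symm
  rw [hN F L h2F hKC.card (α l) (hKC.ne l)]
  have hN0 : Algebra.norm F (α l) ≠ 0 := Algebra.norm_ne_zero_iff.mpr (hKC.ne l)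
  have h10 : ((-1 : F) ^ n) ≠ 0 := pow_ne_zero _ (neg_ne_zero.mpr one_ne_zero)
  rw [← quadraticChar_one_iff_isSquare hN0, ← quadraticChar_one_iff_isSquare h10, hfin]

example : StNormSq.{u} → StDisc.{u} := disc

end Cfsg.Agent.H40.Tq

#print axioms Cfsg.Agent.H40.Tq.disc
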