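import Mathlib
import Cfsg.Agent.H42.UnDefs

/-!
helper40: S5954 piece UN-INVNS (team project of helper42): `T ^ 2 = ν ^ 2` with `ν` of norm
`-1` -- invariant nondegenerate subspaces of every even dimension.
-/

set_option autoImplicit false

namespace Cfsg.Agent.H40.Un

open Cfsg.Agent.H45 Cfsg.Agent.H42.Un Module

universe u v

section

variable {F : Type u} [Field F] {σ : F →+* F} {V : Type v} [AddCommGroup V] [Module F V]

/-- Eigenvectors for an eigenvalue of norm `-1` are isotropic to each other. -/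
theorem ns_iso (B : V →ₗ[F] V →ₛₗ[σ] F) (T : Module.End F V) (hI : UIso B T) (h2 : (2 : F) ≠ 0)
    (s : F) (hs : s * σ s = -1) (x y : V) (hx : T x = s • x) (hy : T y = s • y) :
    B x y = 0 := by
  have h1 := hI.isom x y
  rw [hx, hy, LinearMap.map_smulₛₗ, LinearMap.map_smul, LinearMap.smul_apply, smul_eq_mul,
    smul_eq_mul, ← mul_assoc, mul_comm (σ s) s, hs] at h1
  have h3 : (2 : F) * B x y = 0 := by
    have : B x y + B x y = 0 := by
      nth_rewrite 1 [← h1]
      ring
    rw [two_mul]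
    exact this
  rcases mul_eq_zero.mp h3 with h | h
  · exact absurd h h2
  · exact h

/-- An invariant nondegenerate plane spanned by eigenvectors for `s` and `-s`. -/
theorem ns_plane (B : V →ₗ[F] V →ₛₗ[σ] F) (T : Module.End F V) (hI : UIso B T)
    (h2 : (2 : F) ≠ 0) (s : F) (hs : s * σ s = -1) (W : Submodule F V) (u w : V) (huW : u ∈ W)
    (hwW : w ∈ W) (hu : T u = s • u) (hw : T w = (-s) • w) (hne : B w u ≠ 0) :
    ∃ P : Submodule F V, P ≤ W ∧ UNd B T P ∧ Module.finrank F P = 2 := by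
  have hs' : (-s) * σ (-s) = -1 := by
    rw [map_neg, neg_mul_neg, hs]
  have huu : B u u = 0 := ns_iso B T hI h2 s hs u u hu hu
  have hww : B w w = 0 := ns_iso B T hI h2 (-s) hs' w w hw hw
  have huw : B u w ≠ 0 := by
    rw [hI.herm w u]
    intro h
    apply hne
    have h1 : σ (B w u) = σ 0 := by rw [h, map_zero]
    exact σ.injective h1
  have key : ∀ a b : F, B u (a • u + b • w) = 0 → B w (a • u + b • w) = 0 → a = 0 ∧ b = 0 := by
    intro a b h1 h3
    rw [map_add, LinearMap.map_smulₛₗ, LinearMap.map_smulₛₗ, huu, smul_zero, zero_add,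
      smul_eq_mul] at h1
    rw [map_add, LinearMap.map_smulₛₗ, LinearMap.map_smulₛₗ, hww, smul_zero, add_zero,
      smul_eq_mul] at h3
    have hb : σ b = 0 := by
      rcases mul_eq_zero.mp h1 with h | h
      · exact h
      · exact absurd h huw
    have ha : σ a = 0 := by
      rcases mul_eq_zero.mp h3 with h | h
      · exact h
      · exact absurd h hne
    constructor
    · apply σ.injective
      rw [ha, map_zero]
    · apply σ.injective
      rw [hb, map_zero]
  refine ⟨Submodule.span F {u, w}, ?_, ⟨?_, ?_⟩, ?_⟩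
  · rw [Submodule.span_le]
    intro x hx
    rcases hx with rfl | hx
    · exact huW
    · rw [Set.mem_singleton_iff] at hx
      rw [hx]
      exact hwW
  · rw [Module.End.mem_invtSubmodule]
    intro x hx
    rw [Submodule.mem_comap]
    obtain ⟨a, b, rfl⟩ := Submodule.mem_span_pair.mp hx
    rw [map_add, map_smul, map_smul, hu, hw]
    refine Submodule.add_mem _ (Submodule.smul_mem _ _ (Submodule.smul_mem _ _ ?_))
      (Submodule.smul_mem _ _ (Submodule.smul_mem _ _ ?_))
    · exact Submodule.subset_span (by simp)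
    · exact Submodule.subset_span (by simp)
  · rw [eq_bot_iff]
    intro y hy
    obtain ⟨hy1, hy2⟩ := hy
    obtain ⟨a, b, rfl⟩ := Submodule.mem_span_pair.mp hy1
    have h1 := hy2 u (Submodule.subset_span (by simp))
    have h3 := hy2 w (Submodule.subset_span (by simp))
    obtain ⟨ha, hb⟩ := key a b h1 h3
    rw [ha, hb, zero_smul, zero_smul, add_zero]
    exact Submodule.zero_mem _
  · have hli : LinearIndependent F ![u, w] := by
      rw [LinearIndependent.pair_iff]
      intro a b hab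
      apply key a b
      · rw [hab, map_zero]
      · rw [hab, map_zero]
    have h1 := finrank_span_eq_card hli
    rw [Matrix.range_cons_cons_empty, Fintype.card_fin] at h1
    exact h1

end

/-- **UN-INVNS.** -/
theorem uInvNs (hP : StUPeel.{u, v}) : StUInvNs.{u, v} := by
  intro F _ _ σ V _ _ _ B T hI h2 ν hν hTT k hk
  have hν0 : ν ≠ 0 := by
    rintro rfl
    rw [zero_mul] at hν
    exact absurd hν.symm (neg_ne_zero.mpr one_ne_zero)
  have h2ν : (2 * ν) ≠ 0 := mul_ne_zero h2 hν0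
  have hν' : (-ν) * σ (-ν) = -1 := by
    rw [map_neg, neg_mul_neg, hν]
  have hTTx : ∀ x : V, T (T x) = (ν * ν) • x := by
    intro x
    have h := congrArg (fun f : Module.End F V => f x) hTT
    simpa using h
  -- the two projections
  have hpl : ∀ x : V, T ((2 * ν)⁻¹ • (T x + ν • x)) = ν • ((2 * ν)⁻¹ • (T x + ν • x)) := by
    intro x
    rw [map_smul, map_add, map_smul, hTTx]
    module
  have hmi : ∀ x : V, T ((2 * ν)⁻¹ • (ν • x - T x)) = (-ν) • ((2 * ν)⁻¹ • (ν • x - T x)) := by
    intro x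
    rw [map_smul, map_sub, map_smul, hTTx]
    module
  have hsum : ∀ x : V, (2 * ν)⁻¹ • (T x + ν • x) + (2 * ν)⁻¹ • (ν • x - T x) = x := by
    intro x
    have h : (2 * ν)⁻¹ • (T x + ν • x) + (2 * ν)⁻¹ • (ν • x - T x)
        = ((2 * ν)⁻¹ * (2 * ν)) • x := by
      module
    rw [h, inv_mul_cancel₀ h2ν, one_smul]
  have htop : UNd B T ⊤ := by
    refine ⟨?_, ?_⟩
    · rw [Module.End.mem_invtSubmodule]
      exact le_top
    · rw [eq_bot_iff]
      intro y hy
      obtain ⟨-, hy2⟩ := hy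
      have h1 : y = 0 := by
        apply hI.nondeg
        intro x
        rw [hI.herm x y, hy2 x Submodule.mem_top, map_zero]
      rw [h1]
      exact Submodule.zero_mem _
  have hfin : Module.finrank F (⊤ : Submodule F V) = Module.finrank F V := finrank_top F V
  obtain ⟨U, -, hU, hUr⟩ := hP F σ V B T hI 2 ⊤ htop (by
    intro W _ hW hW0
    obtain ⟨hWinv, hWnd⟩ := hW
    rw [Module.End.mem_invtSubmodule] at hWinv
    have hTW : ∀ x ∈ W, T x ∈ W := fun x hx => hWinv hx
    have hplW : ∀ x ∈ W, (2 * ν)⁻¹ • (T x + ν • x) ∈ W := fun x hx =>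
      Submodule.smul_mem _ _ (Submodule.add_mem _ (hTW x hx) (Submodule.smul_mem _ _ hx))
    have hmiW : ∀ x ∈ W, (2 * ν)⁻¹ • (ν • x - T x) ∈ W := fun x hx =>
      Submodule.smul_mem _ _ (Submodule.sub_mem _ (Submodule.smul_mem _ _ hx) (hTW x hx))
    -- a nonzero vector of `W`
    obtain ⟨w₀, hw₀W, hw₀⟩ := (Submodule.ne_bot_iff W).mp hW0
    -- for a nonzero `u ∈ W` there is `w' ∈ W` with `B w' u ≠ 0`
    have hex : ∀ u ∈ W, u ≠ 0 → ∃ w' ∈ W, B w' u ≠ 0 := by
      intro u hu hu0
      by_contra hcon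
      push Not at hcon
      have : u ∈ W ⊓ perp B W := ⟨hu, hcon⟩
      rw [hWnd] at this
      exact hu0 ((Submodule.mem_bot F).mp this)
    by_cases hc : (2 * ν)⁻¹ • (T w₀ + ν • w₀) = 0
    · -- `w₀` lies in the `-ν` eigenspace
      have hw₀' : (2 * ν)⁻¹ • (ν • w₀ - T w₀) = w₀ := by
        have := hsum w₀
        rw [hc, zero_add] at this
        exact this
      have hTw₀ : T w₀ = (-ν) • w₀ := by
        have := hmi w₀
        rw [hw₀'] at this
        exact this
      obtain ⟨w', hw'W, hw'⟩ := hex w₀ hw₀W hw₀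
      have h3 : B ((2 * ν)⁻¹ • (T w' + ν • w')) w₀ ≠ 0 := by
        intro h
        apply hw'
        have h4 : B ((2 * ν)⁻¹ • (ν • w' - T w')) w₀ = 0 :=
          ns_iso B T hI h2 (-ν) hν' _ _ (hmi w') hTw₀
        calc B w' w₀ = B ((2 * ν)⁻¹ • (T w' + ν • w') + (2 * ν)⁻¹ • (ν • w' - T w')) w₀ := by
              rw [hsum w']
          _ = 0 := by rw [map_add, LinearMap.add_apply, h, h4, add_zero]
      exact ns_plane B T hI h2 (-ν) hν' W w₀ _ hw₀W (hplW w' hw'W) hTw₀
        (by rw [neg_neg]; exact hpl w') h3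
    · -- the `ν`-component of `w₀` is nonzero
      obtain ⟨w', hw'W, hw'⟩ := hex _ (hplW w₀ hw₀W) hc
      have h3 : B ((2 * ν)⁻¹ • (ν • w' - T w')) ((2 * ν)⁻¹ • (T w₀ + ν • w₀)) ≠ 0 := by
        intro h
        apply hw'
        have h4 : B ((2 * ν)⁻¹ • (T w' + ν • w')) ((2 * ν)⁻¹ • (T w₀ + ν • w₀)) = 0 :=
          ns_iso B T hI h2 ν hν _ _ (hpl w') (hpl w₀)
        calc B w' ((2 * ν)⁻¹ • (T w₀ + ν • w₀))
            = B ((2 * ν)⁻¹ • (T w' + ν • w') + (2 * ν)⁻¹ • (ν • w' - T w'))
                ((2 * ν)⁻¹ • (T w₀ + ν • w₀)) := by rw [hsum w']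
          _ = 0 := by rw [map_add, LinearMap.add_apply, h, h4, add_zero]
      exact ns_plane B T hI h2 ν hν W _ _ (hplW w₀ hw₀W) (hmiW w' hw'W) (hpl w₀) (hmi w') h3)
    k (by rw [hfin]; exact hk)
  exact ⟨U, hU, hUr⟩

example : Cfsg.Agent.H42.Un.StUPeel.{u, v} → Cfsg.Agent.H42.Un.StUInvNs.{u, v} := uInvNs

end Cfsg.Agent.H40.Un

#print axioms Cfsg.Agent.H40.Un.uInvNs
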