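import Mathlib
import Cfsg.Agent.H95.OhDefs

/-!
# S5992-BOTH (helper40, for helper95)

A nondegenerate subspace `K` of dimension at least `e + 1` contains nondegenerate subspaces of
even dimension `e ≥ 2` of both types.
-/

set_option autoImplicit false

namespace Cfsg.Agent.H40.Oh

open Cfsg.Agent.H45 Cfsg.Agent.H42.Spd Cfsg.Agent.H42.Ti Cfsg.Agent.H14.Ot Cfsg.Agent.H95.Oh Module

universe u v

/-- The span of pairwise orthogonal nonsingular vectors is nondegenerate, of full dimension. -/
theorem span_orth {F : Type u} [Field F] {V : Type v} [AddCommGroup V] [Module F V]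
    (B : V →ₗ[F] V →ₗ[F] F) {n : ℕ} (v : Fin n → V) (ho : ∀ a b, a ≠ b → B (v a) (v b) = 0)
    (hn : ∀ a, B (v a) (v a) ≠ 0) :
    Submodule.span F (Set.range v) ⊓ perp B (Submodule.span F (Set.range v)) = ⊥ ∧
      Module.finrank F (Submodule.span F (Set.range v)) = n := by
  classical
  have key : ∀ (c : Fin n → F) (b : Fin n),
      B (v b) (∑ a, c a • v a) = c b * B (v b) (v b) := by
    intro c b
    rw [map_sum, Finset.sum_eq_single b]
    · rw [map_smul, smul_eq_mul]
    · intro a _ hab
      rw [map_smul, ho b a (Ne.symm hab), smul_zero]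
    · intro h
      exact absurd (Finset.mem_univ b) h
  constructor
  · rw [eq_bot_iff]
    rintro x ⟨hx1, hx2⟩
    rw [Submodule.mem_bot]
    obtain ⟨c, rfl⟩ := (Submodule.mem_span_range_iff_exists_fun F).mp hx1
    have hc : ∀ b, c b = 0 := by
      intro b
      have h := (mem_perp B _ _).mp hx2 (v b) (Submodule.subset_span ⟨b, rfl⟩)
      rw [key] at h
      exact (mul_eq_zero.mp h).resolve_right (hn b)
    simp [hc]
  · have hli : LinearIndependent F v := by
      rw [Fintype.linearIndependent_iff]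
      intro c hc b
      have h := key c b
      rw [hc, map_zero] at h
      exact (mul_eq_zero.mp h.symm).resolve_right (hn b)
    rw [finrank_span_eq_card hli, Fintype.card_fin]

theorem both (hD : StDisc.{u, v}) (hS : StSubDisc.{u, v}) : StBoth.{u, v} := by
  intro F _ _ V _ _ _ B h2 hsymm K hK e pl heven he2 hedim
  classical
  obtain ⟨t, ht⟩ := heven
  have he : e = 2 * t := by omega
  subst he
  have hchar : ringChar F ≠ 2 := by
    intro h
    apply h2
    have h3 := ringChar.Nat.cast_ringChar (R := F)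
    rw [h] at h3
    exact_mod_cast h3
  obtain ⟨ν, hν⟩ := FiniteField.exists_nonsquare hchar
  have hν0 : ν ≠ 0 := by
    rintro rfl
    exact hν ⟨0, by simp⟩
  have hm1 : ((-1 : F)) ^ t ≠ 0 := pow_ne_zero _ (neg_ne_zero.mpr one_ne_zero)
  by_cases hpl : pl
  · obtain ⟨v, hvK, hvo, hvn, hsq⟩ :=
      hS F V B h2 hsymm K hK (2 * t) ((-1) ^ t) (by omega) hedim hm1
    obtain ⟨hnd, hfr⟩ := span_orth B v hvo hvn
    refine ⟨Submodule.span F (Set.range v), ?_, hnd, hfr, ?_⟩
    · rw [Submodule.span_le]
      rintro _ ⟨a, rfl⟩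
      exact hvK a
    · rw [hD F V B h2 hsymm t v hvo hvn]
      exact ⟨fun _ => hpl, fun _ => hsq⟩
  · obtain ⟨v, hvK, hvo, hvn, hsq⟩ :=
      hS F V B h2 hsymm K hK (2 * t) ((-1) ^ t * ν) (by omega) hedim (mul_ne_zero hm1 hν0)
    obtain ⟨hnd, hfr⟩ := span_orth B v hvo hvn
    refine ⟨Submodule.span F (Set.range v), ?_, hnd, hfr, ?_⟩
    · rw [Submodule.span_le]
      rintro _ ⟨a, rfl⟩
      exact hvK a
    · rw [hD F V B h2 hsymm t v hvo hvn]
      constructor
      · intro hsq2
        exfalso
        obtain ⟨s, hs⟩ := hsq2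
        obtain ⟨u', hu⟩ := hsq
        have hP : (∏ a, B (v a) (v a)) ≠ 0 := Finset.prod_ne_zero_iff.mpr (fun a _ => hvn a)
        have hs0 : s ≠ 0 := by
          rintro rfl
          rw [mul_zero] at hs
          exact (mul_ne_zero hm1 hP) hs
        apply hν
        refine ⟨u' / s, ?_⟩
        field_simp
        linear_combination hu - ν * hs
      · intro h
        exact absurd h hpl

example : StDisc.{u, v} → StSubDisc.{u, v} → StBoth.{u, v} := both

end Cfsg.Agent.H40.Oh

#print axioms Cfsg.Agent.H40.Oh.both
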