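import Mathlib
import Cfsg.Agent.H95.OhDefs
import Cfsg.Agent.H49.Isom
import Cfsg.Agent.H49.Count
import Cfsg.Agent.H49.MinusForm

/-!
# S5992-ZEROS (helper40, for helper95)

The number of singular vectors of a nondegenerate symmetric bilinear space of dimension `2 t` over
a finite field of odd characteristic, by type.
-/

set_option autoImplicit false

namespace Cfsg.Agent.H40.Oh

open Cfsg.Agent.H45 Cfsg.Agent.H42.Spd Cfsg.Agent.H42.Ti Cfsg.Agent.H14.Ot Cfsg.Agent.H95.Oh Module

universe u v

/-- All fibres of a surjective linear functional have the same size. -/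
theorem card_fiber {F : Type u} [Field F] [Fintype F] {W : Type v} [AddCommGroup W]
    [Module F W] [Finite W] (φ : W →ₗ[F] F) (hφ : Function.Surjective φ) (c : F) :
    Fintype.card F * Nat.card {w : W // φ w = c} = Nat.card W := by
  classical
  have hfib : ∀ y : F, Nat.card {w : W // φ w = y} = Nat.card {w : W // φ w = c} := by
    intro y
    obtain ⟨w₀, hw₀⟩ := hφ (y - c)
    apply Nat.card_congr
    refine Equiv.subtypeEquiv (Equiv.addRight (-w₀)) ?_
    intro w
    rw [Equiv.coe_addRight, map_add, map_neg, hw₀]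
    constructor
    · intro h
      rw [h]
      ring
    · intro h
      linear_combination h
  rw [← Nat.card_congr (Equiv.sigmaFiberEquiv φ), Nat.card_sigma,
    Finset.sum_congr rfl (fun y _ => hfib y), Finset.sum_const, Finset.card_univ, smul_eq_mul]

/-- The count for plus type: cosets of a maximal totally isotropic subspace. -/
theorem zeros_plus {F : Type u} [Field F] [Fintype F] {V : Type v} [AddCommGroup V]
    [Module F V] [FiniteDimensional F V] (B : V →ₗ[F] V →ₗ[F] F) (h2 : (2 : F) ≠ 0)
    (hsymm : ∀ x y, B x y = B y x) (hnd : ∀ x, (∀ y, B x y = 0) → x = 0) (t : ℕ) (ht : 1 ≤ t)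
    (hV : finrank F V = 2 * t) (hP : Plus B ⊤) :
    Nat.card {x : V // B x x = 0} + Fintype.card F ^ (t - 1) =
      Fintype.card F ^ (2 * t - 1) + Fintype.card F ^ t := by
  classical
  obtain ⟨U, -, hTI, hUdim⟩ := hP
  rw [finrank_top, hV] at hUdim
  have hU : finrank F U = t := by omega
  have hfinV : Finite V := Module.finite_of_finite F
  have hq : 0 < Fintype.card F := Fintype.card_pos
  -- `U^⊥ = U`
  have hperp : ∀ x : V, (∀ u ∈ U, B u x = 0) → x ∈ U := by
    intro x hx
    have hle : U ≤ LinearMap.BilinForm.orthogonal B U := fun u hu n hn => hTI n hn u hu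
    have hker : LinearMap.ker B = ⊥ := by
      rw [LinearMap.ker_eq_bot']
      intro x hx
      apply hnd
      intro y
      rw [hx, LinearMap.zero_apply]
    have hfr := LinearMap.BilinForm.finrank_add_finrank_orthogonal' (B := B) U
    rw [hker, inf_bot_eq, finrank_bot, add_zero, hU, hV] at hfr
    have heq : U = LinearMap.BilinForm.orthogonal B U :=
      Submodule.eq_of_le_of_finrank_le hle (by omega)
    rw [heq]
    exact hx
  obtain ⟨U', hc⟩ := Submodule.exists_isCompl U
  have hU' : finrank F U' = t := by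
    have h3 := Submodule.finrank_add_eq_of_isCompl hc
    omega
  have hcardU : Nat.card U = Fintype.card F ^ t := by
    rw [Module.natCard_eq_pow_finrank (K := F), hU, Nat.card_eq_fintype_card]
  have hcardU' : Nat.card U' = Fintype.card F ^ t := by
    rw [Module.natCard_eq_pow_finrank (K := F), hU', Nat.card_eq_fintype_card]
  -- the count on `U' × U`
  have h1 : Nat.card {x : V // B x x = 0} =
      Nat.card {p : U' × U // 2 * B (p.1 : V) (p.2 : V) + B (p.1 : V) (p.1 : V) = 0} := by
    apply Nat.card_congr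
    refine (Equiv.subtypeEquiv (Submodule.prodEquivOfIsCompl U' U hc.symm).toEquiv ?_).symm
    intro p
    have e : B ((p.1 : V) + (p.2 : V)) ((p.1 : V) + (p.2 : V)) =
        2 * B (p.1 : V) (p.2 : V) + B (p.1 : V) (p.1 : V) := by
      simp only [map_add, LinearMap.add_apply]
      rw [hTI _ p.2.2 _ p.2.2, hsymm (p.2 : V) (p.1 : V)]
      ring
    show _ ↔ B ((p.1 : V) + (p.2 : V)) ((p.1 : V) + (p.2 : V)) = 0
    rw [e]
  haveI : Fintype U' := Fintype.ofFinite U'
  have h2' : Nat.card {p : U' × U // 2 * B (p.1 : V) (p.2 : V) + B (p.1 : V) (p.1 : V) = 0} =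
      ∑ a : U', Nat.card {u : U // 2 * B (a : V) (u : V) + B (a : V) (a : V) = 0} := by
    rw [← Nat.card_sigma]
    exact Nat.card_congr (Equiv.subtypeProdEquivSigmaSubtype
      (fun (a : U') (u : U) => 2 * B (a : V) (u : V) + B (a : V) (a : V) = 0))
  have h0 : Nat.card {u : U // 2 * B ((0 : U') : V) (u : V) + B ((0 : U') : V) ((0 : U') : V) = 0}
      = Fintype.card F ^ t := by
    rw [← hcardU]
    apply Nat.card_congr
    refine Equiv.subtypeUnivEquiv ?_
    intro u
    simp
  have hne : ∀ a : U', a ≠ 0 →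
      Nat.card {u : U // 2 * B (a : V) (u : V) + B (a : V) (a : V) = 0} =
        Fintype.card F ^ (t - 1) := by
    intro a ha
    have hex : ∃ u ∈ U, B (a : V) u ≠ 0 := by
      by_contra hcon
      push Not at hcon
      apply ha
      have haU : (a : V) ∈ U := hperp _ (fun u hu => by rw [hsymm]; exact hcon u hu)
      have h3 : (a : V) ∈ U ⊓ U' := ⟨haU, a.2⟩
      rw [hc.inf_eq_bot, Submodule.mem_bot] at h3
      exact Subtype.ext h3
    obtain ⟨u₀, hu₀, hd⟩ := hex
    have hsurj : Function.Surjective ((B (a : V)).comp U.subtype) := by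
      intro y
      refine ⟨(y / B (a : V) u₀) • ⟨u₀, hu₀⟩, ?_⟩
      rw [map_smul, LinearMap.comp_apply, Submodule.subtype_apply, smul_eq_mul,
        div_mul_cancel₀ _ hd]
    have h3 := card_fiber ((B (a : V)).comp U.subtype) hsurj (-B (a : V) (a : V) / 2)
    have h4 : Nat.card {u : U // 2 * B (a : V) (u : V) + B (a : V) (a : V) = 0} =
        Nat.card {u : U // ((B (a : V)).comp U.subtype) u = -B (a : V) (a : V) / 2} := by
      apply Nat.card_congr
      refine Equiv.subtypeEquivRight ?_
      intro u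
      rw [LinearMap.comp_apply, Submodule.subtype_apply, eq_div_iff h2]
      constructor
      · intro h
        linear_combination h
      · intro h
        linear_combination h
    rw [h4]
    rw [hcardU] at h3
    obtain ⟨s, rfl⟩ : ∃ s, t = s + 1 := ⟨t - 1, by omega⟩
    rw [pow_succ, mul_comm] at h3
    rw [Nat.add_sub_cancel]
    exact Nat.eq_of_mul_eq_mul_right hq h3
  have h5 : ∑ a : U', Nat.card {u : U // 2 * B (a : V) (u : V) + B (a : V) (a : V) = 0} =
      Fintype.card F ^ t + (Fintype.card F ^ t - 1) * Fintype.card F ^ (t - 1) := by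
    rw [← Finset.add_sum_erase Finset.univ _ (Finset.mem_univ (0 : U')), h0,
      Finset.sum_congr rfl (fun a ha => hne a (Finset.ne_of_mem_erase ha)), Finset.sum_const,
      Finset.card_erase_of_mem (Finset.mem_univ _), Finset.card_univ, smul_eq_mul,
      show Fintype.card ↥U' = Fintype.card F ^ t from by
        rw [← Nat.card_eq_fintype_card]; exact hcardU']
  rw [h1, h2', h5]
  have h6 : 1 ≤ Fintype.card F ^ t := Nat.one_le_pow _ _ hq
  have h7 : Fintype.card F ^ (2 * t - 1) = Fintype.card F ^ t * Fintype.card F ^ (t - 1) := by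
    rw [← pow_add]
    congr 1
    omega
  rw [h7]
  obtain ⟨c, hc'⟩ : ∃ c, Fintype.card F ^ t = c + 1 := ⟨Fintype.card F ^ t - 1, by omega⟩
  rw [hc', Nat.add_sub_cancel]
  ring

/-- A hyperbolic basis gives a totally isotropic subspace of half the dimension. -/
theorem plus_of_basis {F : Type u} [Field F] {V : Type v} [AddCommGroup V] [Module F V]
    [FiniteDimensional F V] (B : V →ₗ[F] V →ₗ[F] F) (t : ℕ) (hV : finrank F V = 2 * t)
    (b : Module.Basis (Fin t ⊕ Fin t) F V)
    (hb : ∀ a a' : Fin t, B (b (Sum.inl a)) (b (Sum.inl a')) = 0) : Plus B ⊤ := by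
  classical
  refine ⟨Submodule.span F (Set.range (fun a : Fin t => b (Sum.inl a))), le_top, ?_, ?_⟩
  · have h1 : ∀ a : Fin t, Submodule.span F (Set.range (fun a : Fin t => b (Sum.inl a))) ≤
        LinearMap.ker (B (b (Sum.inl a))) := by
      intro a
      rw [Submodule.span_le]
      rintro _ ⟨a', rfl⟩
      exact LinearMap.mem_ker.mpr (hb a a')
    intro u hu v hv
    have h2 : Submodule.span F (Set.range (fun a : Fin t => b (Sum.inl a))) ≤
        LinearMap.ker (B.flip v) := by
      rw [Submodule.span_le]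
      rintro _ ⟨a, rfl⟩
      apply LinearMap.mem_ker.mpr
      rw [LinearMap.flip_apply]
      exact LinearMap.mem_ker.mp (h1 a hv)
    have h3 := LinearMap.mem_ker.mp (h2 hu)
    rwa [LinearMap.flip_apply] at h3
  · have hli : LinearIndependent F (fun a : Fin t => b (Sum.inl a)) :=
      b.linearIndependent.comp _ Sum.inl_injective
    rw [finrank_span_eq_card hli, Fintype.card_fin, finrank_top, hV]

/-- The count for an elliptic basis, by transport to the standard minus form. -/
theorem zeros_minus {F : Type u} [Field F] [Fintype F] {V : Type v} [AddCommGroup V]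
    [Module F V] [FiniteDimensional F V] (h2 : (2 : F) ≠ 0) (Q : QuadraticForm F V) (t : ℕ)
    (ht : 1 ≤ t) (b : Module.Basis ((Fin (t - 1) ⊕ Fin (t - 1)) ⊕ Fin 2) F V) (ζ : F)
    (hζ : ∀ s : F, s ^ 2 + s + ζ ≠ 0)
    (hpol : ∀ i j, QuadraticMap.polar ⇑Q (b i) (b j) =
      Cfsg.Agent.H49.minusGram (t - 1) F 1 ζ i j) :
    Nat.card {x : V // Q x = 0} + Fintype.card F ^ t =
      Fintype.card F ^ (2 * t - 1) + Fintype.card F ^ (t - 1) := by
  classical
  have hq : 0 < Fintype.card F := Fintype.card_pos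
  obtain ⟨Q', hcomp⟩ : ∃ Q' : QuadraticForm F V,
      ∀ x, Q' x = Cfsg.quadFormMinus (t - 1) F 1 ζ (b.equivFun x) :=
    ⟨(Cfsg.Agent.H49.QMin (t - 1) F 1 ζ).comp (b.equivFun : V →ₗ[F] _), fun x => rfl⟩
  have hsingle : ∀ i, b.equivFun (b i) = Pi.single i 1 := by
    intro i
    funext j
    rw [Module.Basis.equivFun_self, Pi.single_apply]
    simp [eq_comm]
  have hpb : QuadraticMap.polarBilin Q = QuadraticMap.polarBilin Q' := by
    apply b.ext
    intro i
    apply b.ext
    intro j
    show QuadraticMap.polar ⇑Q (b i) (b j) = QuadraticMap.polar ⇑Q' (b i) (b j)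
    have e : QuadraticMap.polar ⇑Q' (b i) (b j) =
        QuadraticMap.polar (Cfsg.quadFormMinus (t - 1) F 1 ζ) (b.equivFun (b i))
          (b.equivFun (b j)) := by
      simp only [QuadraticMap.polar, hcomp, map_add]
    rw [hpol, e, Cfsg.Agent.H49.polar_quadFormMinus, hsingle, hsingle]
    simp
  have hQ : ∀ x, Q x = Cfsg.quadFormMinus (t - 1) F 1 ζ (b.equivFun x) := by
    intro x
    have h3 : QuadraticMap.polar ⇑Q x x = QuadraticMap.polar ⇑Q' x x :=
      congrArg (fun f => f x x) hpb
    rw [QuadraticMap.polar_self, QuadraticMap.polar_self, two_smul, two_smul, ← two_mul,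
      ← two_mul] at h3
    rw [← hcomp]
    exact mul_left_cancel₀ h2 h3
  have hcard : Nat.card {x : V // Q x = 0} =
      Nat.card {c : ((Fin (t - 1) ⊕ Fin (t - 1)) ⊕ Fin 2 → F) //
        Cfsg.quadFormMinus (t - 1) F 1 ζ c = 0} :=
    Nat.card_congr (Equiv.subtypeEquiv b.equivFun.toEquiv (fun x => by rw [hQ x]; rfl))
  have hab : ∀ z₁ z₂ : F, z₁ ^ 2 + 1 * z₁ * z₂ + ζ * z₂ ^ 2 = 0 → z₁ = 0 ∧ z₂ = 0 := by
    intro z₁ z₂ h
    have hz2 : z₂ = 0 := by
      by_contra hz
      apply hζ (z₁ / z₂)
      field_simp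
      linear_combination h
    rw [hz2] at h
    simp at h
    exact ⟨h, hz2⟩
  rw [hcard, Cfsg.Agent.H49.card_zeros_minus (t - 1) 1 ζ hab]
  obtain ⟨s, rfl⟩ : ∃ s, t = s + 1 := ⟨t - 1, by omega⟩
  simp only [Nat.add_sub_cancel]
  rcases s with _ | s
  · simp
    omega
  · have h6 : 1 ≤ Fintype.card F ^ (s + 1) := Nat.one_le_pow _ _ hq
    have h7 : Fintype.card F ^ (2 * (s + 1 + 1) - 1) =
        Fintype.card F ^ (s + 1) * Fintype.card F ^ (s + 1 + 1) := by
      rw [← pow_add]
      congr 1
      omega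
    rw [h7]
    obtain ⟨c, hc'⟩ : ∃ c, Fintype.card F ^ (s + 1) = c + 1 :=
      ⟨Fintype.card F ^ (s + 1) - 1, by omega⟩
    rw [hc', Nat.add_sub_cancel, Nat.add_sub_cancel]
    ring

theorem zeros (hO : StOrtho.{u, v}) (hD : StDisc.{u, v}) : StZeros.{u, v} := by
  intro F _ _ V _ _ _ B h2 hsymm hnd t ht hV
  classical
  refine ⟨fun hP => zeros_plus B h2 hsymm hnd t ht hV hP, fun hnP => ?_⟩
  obtain ⟨Q, hQ⟩ : ∃ Q : QuadraticForm F V, ∀ x, Q x = B x x :=
    ⟨LinearMap.BilinMap.toQuadraticMap B, fun x => LinearMap.BilinMap.toQuadraticMap_apply B x⟩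
  have hpolar : ∀ x y, QuadraticMap.polar ⇑Q x y = 2 * B x y := by
    intro x y
    simp only [QuadraticMap.polar, hQ, map_add, LinearMap.add_apply]
    rw [hsymm y x]
    ring
  have hQnd : (QuadraticMap.polarBilin Q).Nondegenerate := by
    constructor
    · intro x hx
      apply hnd
      intro y
      have h3 := hx y
      rw [QuadraticMap.polarBilin_apply_apply, hpolar] at h3
      exact (mul_eq_zero.mp h3).resolve_left h2
    · intro y hy
      apply hnd
      intro x
      have h3 := hy x
      rw [QuadraticMap.polarBilin_apply_apply, hpolar, hsymm] at h3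
      exact (mul_eq_zero.mp h3).resolve_left h2
  rcases Cfsg.Agent.H49.even_standard_gram hV Q hQnd with ⟨b, hb0, hbp⟩ | ⟨b, ζ, hζ, hb0, hbp⟩
  · exfalso
    apply hnP
    apply plus_of_basis B t hV b
    intro a a'
    have h3 := hbp (Sum.inl a) (Sum.inl a')
    rw [hpolar] at h3
    have h0 : Cfsg.Agent.H49.hypGram t F (Sum.inl a) (Sum.inl a') = 0 := by
      simp [Cfsg.Agent.H49.hypGram]
    rw [h0] at h3
    exact (mul_eq_zero.mp h3).resolve_left h2
  · have h3 := zeros_minus h2 Q t ht b ζ hζ hbp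
    have hcongr : Nat.card {x : V // B x x = 0} = Nat.card {x : V // Q x = 0} :=
      Nat.card_congr (Equiv.subtypeEquivRight (fun x => by rw [hQ]))
    rw [hcongr]
    exact h3

example : StOrtho.{u, v} → StDisc.{u, v} → StZeros.{u, v} := zeros

end Cfsg.Agent.H40.Oh

#print axioms Cfsg.Agent.H40.Oh.zeros
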