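import Mathlib
import Cfsg.Agent.Lib.Helper30.BG134Defs
import Cfsg.Agent.H47.BG1216E1

set_option autoImplicit false

/-!
helper40: piece BG134-B1 of the team project S1428 (helper30): no configuration has `p ∈ σ(H)`,
`q ∉ σ(H)` and `H` of `q`-rank at least `2`.
-/

namespace Cfsg.Agent.H40.BG134

open Cfsg Subgroup Cfsg.Agent.H58.BG10 Cfsg.Agent.H57.BG12 Cfsg.Agent.H76.BG12
  Cfsg.Agent.H63.Sig Cfsg.Agent.H47.BG12 Cfsg.Agent.Lib.Helper30.BG134
open scoped Pointwise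

universe u

variable {G : Type u} [Group G] [Finite G]

/-- Conjugates of elementary abelian subgroups are elementary abelian. -/
theorem elemAb_map_conj {q : ℕ} {B : Subgroup G} (hB : IsElementaryAbelian q B) (g : G) :
    IsElementaryAbelian q (B.map (MulAut.conj g).toMonoidHom) := by
  refine ⟨⟨⟨fun x y => Subtype.ext ?_⟩⟩, ?_⟩
  · obtain ⟨a, ha, hax⟩ := x.2
    obtain ⟨b, hb, hby⟩ := y.2
    have hab : a * b = b * a :=
      congrArg Subtype.val (hB.1.is_comm.comm (⟨a, ha⟩ : B) ⟨b, hb⟩)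
    show (x : G) * (y : G) = (y : G) * (x : G)
    rw [← hax, ← hby, ← map_mul, ← map_mul, hab]
  · rintro _ ⟨b, hb, rfl⟩
    rw [← map_pow, hB.2 b hb, map_one]

/-- A nontrivial `q`-group has a subgroup of order `q`. -/
theorem exists_le_card_prime {q : ℕ} [Fact q.Prime] {Q : Subgroup G} (hQ : IsPGroup q Q)
    (hQ1 : Q ≠ ⊥) : ∃ X : Subgroup G, X ≤ Q ∧ Nat.card X = q := by
  obtain ⟨n, hn⟩ := IsPGroup.iff_card.mp hQ
  have hn0 : n ≠ 0 := by
    rintro rfl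
    rw [pow_zero] at hn
    exact hQ1 (Subgroup.card_eq_one.mp hn)
  have hdvd : q ^ 1 ∣ Nat.card ↥Q := by
    rw [hn, pow_one]
    exact dvd_pow_self q hn0
  obtain ⟨K, hK⟩ := Sylow.exists_subgroup_card_pow_prime q hdvd
  refine ⟨K.map Q.subtype, Subgroup.map_subtype_le _, ?_⟩
  rw [Subgroup.card_map_of_injective Q.subtype_injective, hK, pow_one]

/-- **BG134-B1.** -/
theorem b1 (hG : IsMinSimpleOddOrder G) (h50 : St1350 G) (h03 : St1403 G) (h18 : St1418 G)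
    (hSC : StSigConj G) (h24 : St1424 G) (hE1 : StEmbE1 G) : StB1 G := by
  intro M E H P R Q1 p r q hC hpH hqH hrk
  have hq : q.Prime := hC.hq
  haveI : Fact q.Prime := ⟨hq⟩
  have hpP : p.Prime := hC.hp.1
  haveI : Fact p.Prime := ⟨hpP⟩
  have hMH : H ≠ M := by
    intro h
    apply hC.hnc 1
    rw [h, map_conj_eq_smul, cj_one]
  -- `q ∈ τ₂(H)`
  have hτ : q ∈ tau2 H := by
    refine ⟨hq, hqH, ?_, hrk⟩
    by_contra h
    exact hqH (alpha_subset_sigma hG h03 hC.hH ⟨hq, h⟩)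
  -- a subgroup `X` of order `q` of `Q1`
  obtain ⟨X, hXQ, hXcard⟩ := exists_le_card_prime hC.hQ1q hC.hQ1
  have hXH : X ≤ H := hXQ.trans hC.hQ1H
  have hXq : IsPGroup q X := hC.hQ1q.to_le hXQ
  have hX1 : X ≠ ⊥ := by
    intro h
    rw [h, Subgroup.card_bot] at hXcard
    exact hq.one_lt.ne hXcard
  have hXM : X ≤ M := hXQ.trans (hC.hQ1M.trans hC.hE.2.1)
  -- a complement of `H_σ` containing `X`
  obtain ⟨E₀, hE₀⟩ := exists_complIn_sigmaCore h50 hC.hH
  have hqpi : ∀ Y : Subgroup G, IsPGroup q Y →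
      ∀ s : ℕ, s.Prime → s ∣ Nat.card Y → s ∉ sigma H := by
    intro Y hY s hs hsd
    obtain ⟨n, hn⟩ := IsPGroup.iff_card.mp hY
    rw [hn] at hsd
    have h1 : s = q := (Nat.prime_dvd_prime_iff_eq hs hq).mp (hs.dvd_of_dvd_pow hsd)
    rw [h1]
    exact hqH
  obtain ⟨g, hgH, hg⟩ := hSC H hC.hH E₀ hE₀ X hXH (hqpi X hXq)
  have hE' : IsComplIn (MulAut.conj g⁻¹ • E₀) (sigmaCore H) H := complIn_cj hE₀ (inv_mem hgH)
  have hXE : X ≤ MulAut.conj g⁻¹ • E₀ := le_cj_inv (by rw [← map_conj_eq_smul]; exact hg)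
  -- an elementary abelian subgroup of order `q ^ 2` of that complement
  obtain ⟨B, hBH, hBel, hBcard⟩ :=
    Cfsg.Agent.Lib.Helper30.BG12.exists_elem_sq_of_not_pRankLE_one hrk
  have hBq : IsPGroup q B := (elem_sq_facts hBel hBcard).1
  obtain ⟨g2, -, hg2⟩ := hSC H hC.hH _ hE' B hBH (hqpi B hBq)
  have hAel : IsElementaryAbelian q (B.map (MulAut.conj g2).toMonoidHom) :=
    elemAb_map_conj hBel g2
  have hAcard : Nat.card ↥(B.map (MulAut.conj g2).toMonoidHom) = q ^ 2 := by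
    rw [Subgroup.card_map_of_injective (MulAut.conj g2).injective, hBcard]
  obtain ⟨⟨-, hXA⟩, -, hcent⟩ := h18 H hC.hH _ hE' q hτ _ ⟨hg2, hAel, hAcard⟩
  have hXleA : X ≤ B.map (MulAut.conj g2).toMonoidHom := hXA X hXE hXcard
  -- `P ≤ H_σ ∩ C(X)`
  have hPp : IsPGroup p P := IsPGroup.of_card (n := 1) (by rw [hC.hP, pow_one])
  have hPσ : P ≤ sigmaCore H :=
    Cfsg.Agent.H92.BG12.le_sigmaCore_of_mem h50 hC.hH hpH hPp hC.hPH
  have hP1 : P ≠ ⊥ := by
    intro h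
    have h1 := hC.hP
    rw [h, Subgroup.card_bot] at h1
    exact hpP.one_lt.ne h1
  have hPC : P ≤ centralizer (X : Set G) := by
    intro y hy
    rw [mem_centralizer_iff]
    intro x hx
    have h1 := hC.hQ1P (hXQ hx)
    rw [mem_centralizer_iff] at h1
    exact (h1 y hy).symm
  have hne : sigmaCore H ⊓ centralizer (X : Set G) ≠ ⊥ := by
    intro h
    apply hP1
    rw [eq_bot_iff, ← h]
    exact le_inf hPσ hPC
  obtain ⟨-, huniq⟩ := hcent X hXleA hXcard hne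
  -- `N_G(X) ≤ H`
  have hNX : normalizer (X : Set G) ≤ H := by
    have hXtop : X ≠ ⊤ := fun h => hC.hH.1 (top_le_iff.mp (h ▸ hXH))
    have hN := Cfsg.Agent.Lib.Helper30.minSimple_normalizer_ne_top hG hX1 hXtop
    obtain ⟨L, hL, hNL⟩ := (eq_top_or_exists_le_coatom (normalizer (X : Set G))).resolve_left hN
    have h1 := huniq L hL (le_trans (centralizer_le_normalizer (X : Set G)) hNL)
    rw [← h1]
    exact hNL
  -- a Sylow `q`-subgroup of `M ∩ H` containing `X`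
  obtain ⟨S, hS⟩ := (hXq.comap_subtype (H := X) (K := M ⊓ H)).exists_le_sylow
  have hXS : X ≤ (S : Subgroup ↥(M ⊓ H)).map (M ⊓ H).subtype := by
    intro x hx
    exact ⟨⟨x, hXM hx, hXH hx⟩, hS (mem_subgroupOf.mpr hx), rfl⟩
  obtain ⟨-, -, hidx⟩ := h24 M hC.hM q hC.hqM X hXq hX1 hXM H hC.hH hMH hNX S hXS
  have hSq : IsPGroup q ↥((S : Subgroup ↥(M ⊓ H)).map (M ⊓ H).subtype) :=
    S.2.map _
  have hSle : (S : Subgroup ↥(M ⊓ H)).map (M ⊓ H).subtype ≤ M ⊓ H :=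
    Subgroup.map_subtype_le _
  obtain ⟨-, hint, -⟩ := hE1 M H hC.hM hC.hH hMH q hC.hqM hqH X hX1 hNX _ hSq hXS
    (hSle.trans inf_le_left) (hSle.trans inf_le_right) hidx
  have hPle : P ≤ sigmaCore H ⊓ M := le_inf hPσ (hC.hPE.trans hC.hE.1)
  rw [hint] at hPle
  exact hP1 (eq_bot_iff.mpr hPle)

example (hG : IsMinSimpleOddOrder G) (h50 : St1350 G) (h03 : St1403 G) (h18 : St1418 G)
    (hSC : StSigConj G) (h24 : St1424 G) (hE1 : StEmbE1 G) :
    Cfsg.Agent.Lib.Helper30.BG134.StB1 G := b1 hG h50 h03 h18 hSC h24 hE1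

end Cfsg.Agent.H40.BG134

#print axioms Cfsg.Agent.H40.BG134.b1
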