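import Mathlib
import Cfsg.Agent.Lib.Helper30.BG134Defs
import Cfsg.Agent.H47.BG1216E1
import Cfsg.Agent.Helper55.BG161Alpha1
import Cfsg.Agent.H58.Sig2

set_option autoImplicit false

/-!
helper40: piece BG134-B2B of the team project S1428 (helper30): `p ∈ σ(H) ∖ α(H)`,
`1 ≠ X ≤ Q1`, `N_G(X) ≤ L ≠ H`, `H = H_α (H ∩ L)` is impossible.
-/

namespace Cfsg.Agent.H40.BG134

open Cfsg Subgroup Cfsg.Agent.H58.BG10 Cfsg.Agent.H57.BG12 Cfsg.Agent.H76.BG12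
  Cfsg.Agent.H63.Sig Cfsg.Agent.H47.BG12 Cfsg.Agent.Lib.Helper30.BG134
open scoped Pointwise
open scoped commutatorElement

universe u

variable {G : Type u} [Group G] [Finite G]

/-- The image in `G` of a normal subgroup of `H` is normalized by `H`. -/
theorem le_normalizer_map_subtype (H : Subgroup G) (N₀ : Subgroup ↥H) [hN : N₀.Normal] :
    H ≤ normalizer ((N₀.map H.subtype : Subgroup G) : Set G) := by
  intro g hg
  rw [mem_normalizer_iff]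
  intro x
  constructor
  · rintro ⟨y, hy, rfl⟩
    exact ⟨⟨g, hg⟩ * y * ⟨g, hg⟩⁻¹, hN.conj_mem y hy ⟨g, hg⟩, rfl⟩
  · rintro ⟨y, hy, hyx⟩
    refine ⟨⟨g, hg⟩⁻¹ * y * ⟨g, hg⟩, ?_, ?_⟩
    · have := hN.conj_mem y hy ⟨g, hg⟩⁻¹
      simpa using this
    · show g⁻¹ * (y : G) * g = x
      have h1 : (y : G) = g * x * g⁻¹ := hyx
      rw [h1]
      group

/-- (DER) If `H = N K` with `N` normal in `H`, `p ∤ |N|` and `p ∣ |H'|`, then `p ∣ |K'|`. -/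
theorem der {H N K : Subgroup G} (hnorm : H ≤ normalizer (N : Set G)) (hKH : K ≤ H)
    (hfac : ∀ h ∈ H, ∃ a ∈ N, ∃ n ∈ K, h = a * n) {p : ℕ} (hp : p.Prime)
    (hpN : ¬ p ∣ Nat.card N) (hpH : p ∣ Nat.card ↥⁅H, H⁆) : p ∣ Nat.card ↥⁅K, K⁆ := by
  have hconj : ∀ h ∈ H, ∀ a ∈ N, h * a * h⁻¹ ∈ N := fun h hh a ha =>
    ((mem_normalizer_iff.mp (hnorm hh)) a).mp ha
  have hle : ⁅H, H⁆ ≤ N ⊔ ⁅K, K⁆ := by
    rw [Subgroup.commutator_le]
    intro g₁ hg₁ g₂ hg₂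
    obtain ⟨a₁, ha₁, n₁, hn₁, rfl⟩ := hfac g₁ hg₁
    obtain ⟨a₂, ha₂, n₂, hn₂, rfl⟩ := hfac g₂ hg₂
    have key : ⁅a₁ * n₁, a₂ * n₂⁆ = (a₁ * (n₁ * a₂ * n₁⁻¹) *
        ((n₁ * n₂ * n₁⁻¹) * a₁⁻¹ * (n₁ * n₂ * n₁⁻¹)⁻¹) *
        ((n₁ * n₂ * n₁⁻¹ * n₂⁻¹) * a₂⁻¹ * (n₁ * n₂ * n₁⁻¹ * n₂⁻¹)⁻¹)) *
        ⁅n₁, n₂⁆ := by
      simp only [commutatorElement_def]
      group
    rw [key]
    have h1 : n₁ ∈ H := hKH hn₁
    have h2 : n₂ ∈ H := hKH hn₂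
    refine mul_mem (mem_sup_left (mul_mem (mul_mem (mul_mem ha₁ ?_) ?_) ?_))
      (mem_sup_right (Subgroup.commutator_mem_commutator hn₁ hn₂))
    · exact hconj n₁ h1 a₂ ha₂
    · exact hconj _ (mul_mem (mul_mem h1 h2) (inv_mem h1)) _ (inv_mem ha₁)
    · exact hconj _ (mul_mem (mul_mem (mul_mem h1 h2) (inv_mem h1)) (inv_mem h2)) _ (inv_mem ha₂)
  have hKK : ⁅K, K⁆ ≤ K := by
    rw [Subgroup.commutator_le]
    intro g₁ hg₁ g₂ hg₂
    rw [commutatorElement_def]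
    exact mul_mem (mul_mem (mul_mem hg₁ hg₂) (inv_mem hg₁)) (inv_mem hg₂)
  have h1 : Nat.card ↥⁅H, H⁆ ∣ Nat.card ↥(N ⊔ ⁅K, K⁆) := Subgroup.card_dvd_of_le hle
  have h2 : Nat.card ↥(N ⊔ ⁅K, K⁆) ∣ Nat.card N * Nat.card ↥⁅K, K⁆ :=
    Cfsg.Agent.H58.card_sup_dvd ((hKK.trans hKH).trans hnorm)
  exact (hp.dvd_mul.mp ((hpH.trans h1).trans h2)).resolve_left hpN

/-- **BG134-B2B.** -/
theorem b2b (h50 : St1350 G) (h05 : St1405 G) (hT : StSigComm G) (h24 : St1424 G)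
    (hD1 : StEmbD1 G) (hE1 : StEmbE1 G) : StB2b G := by
  intro M E H P R Q1 X L p r q hC hpH hpα hXQ hX1 hL hLH hNX hfac
  have hq : q.Prime := hC.hq
  haveI : Fact q.Prime := ⟨hq⟩
  have hpP : p.Prime := hC.hp.1
  haveI : Fact p.Prime := ⟨hpP⟩
  have hpM' : ¬ p ∣ Nat.card ↥⁅M, M⁆ := hC.hp.2.2.2.1
  -- `P`
  have hPp : IsPGroup p P := IsPGroup.of_card (n := 1) (by rw [hC.hP, pow_one])
  have hP1 : P ≠ ⊥ := by
    intro h
    have h1 := hC.hP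
    rw [h, Subgroup.card_bot] at h1
    exact hpP.one_lt.ne h1
  have hPσ : P ≤ sigmaCore H :=
    Cfsg.Agent.H92.BG12.le_sigmaCore_of_mem h50 hC.hH hpH hPp hC.hPH
  -- `p ∣ |H'|`, `p ∤ |H_α|`
  have hpH' : p ∣ Nat.card ↥⁅H, H⁆ := by
    have h1 : P ≤ ⁅H, H⁆ := hPσ.trans (Cfsg.Agent.H76.BG10.sigmaCore_le_commutator hT H hC.hH)
    have h2 := Subgroup.card_dvd_of_le h1
    rw [hC.hP] at h2
    exact h2
  have hpHα : ¬ p ∣ Nat.card (alphaCore H) := fun h => hpα ((h05 H hC.hH).1.2.1 p hpP h)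
  have hαnorm : ∀ K : Subgroup G, K ≤ normalizer ((alphaCore K : Subgroup G) : Set G) :=
    fun K => le_normalizer_map_subtype K (piCore (alpha K) ↥K)
  have hσnorm : ∀ K : Subgroup G, K ≤ normalizer ((sigmaCore K : Subgroup G) : Set G) :=
    fun K => le_normalizer_map_subtype K (piCore (sigma K) ↥K)
  -- (DER) in `H`
  have hpHL : p ∣ Nat.card ↥⁅H ⊓ L, H ⊓ L⁆ := der (hαnorm H) inf_le_left hfac hpP hpHα hpH'
  have hpL' : p ∣ Nat.card ↥⁅L, L⁆ :=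
    hpHL.trans (Subgroup.card_dvd_of_le (Subgroup.commutator_mono inf_le_right inf_le_right))
  have hLM : L ≠ M := by
    rintro rfl
    exact hpM' hpL'
  -- `X` and a Sylow `q`-subgroup of `M ∩ L`
  have hXq : IsPGroup q X := hC.hQ1q.to_le hXQ
  have hXM : X ≤ M := hXQ.trans (hC.hQ1M.trans hC.hE.2.1)
  have hXL : X ≤ L := le_normalizer.trans hNX
  obtain ⟨S, hS⟩ := (hXq.comap_subtype (H := X) (K := M ⊓ L)).exists_le_sylow
  have hXS : X ≤ (S : Subgroup ↥(M ⊓ L)).map (M ⊓ L).subtype := by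
    intro x hx
    exact ⟨⟨x, hXM hx, hXL hx⟩, hS (mem_subgroupOf.mpr hx), rfl⟩
  obtain ⟨-, hNS, hidx⟩ := h24 M hC.hM q hC.hqM X hXq hX1 hXM L hL hLM hNX S hXS
  have hSq : IsPGroup q ↥((S : Subgroup ↥(M ⊓ L)).map (M ⊓ L).subtype) := S.2.map _
  have hSle : (S : Subgroup ↥(M ⊓ L)).map (M ⊓ L).subtype ≤ M ⊓ L :=
    Subgroup.map_subtype_le _
  have hfin : p ∣ Nat.card ↥⁅M ⊓ L, M ⊓ L⁆ → False := fun h =>
    hpM' (h.trans (Subgroup.card_dvd_of_le (Subgroup.commutator_mono inf_le_left inf_le_left)))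
  by_cases hqL : q ∈ sigma L
  · -- `q ∈ σ(L)`
    have hfacL := hD1 M L hL q hqL _ hSq (hSle.trans inf_le_right) hidx hNS
    have hpαL : p ∉ alpha L := by
      intro h
      obtain ⟨-, -, P0, hN0⟩ := hpH
      obtain ⟨T0, hT0⟩ := Cfsg.Agent.H31.BG8.sylow_of_normalizer_le P0 hN0
      have hrkH : PRankLE p 2 H := by
        by_contra h'
        exact hpα ⟨hpP, h'⟩
      exact h.2 (Cfsg.Agent.Helper55.BG161.pRankLE_of_sylow_le L ⟨T0, hT0⟩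
        (Subgroup.map_subtype_le _) hrkH)
    have hpLα : ¬ p ∣ Nat.card (alphaCore L) := fun h => hpαL ((h05 L hL).1.2.1 p hpP h)
    exact hfin (der (hαnorm L) inf_le_right hfacL hpP hpLα hpL')
  · -- `q ∉ σ(L)`
    obtain ⟨-, hint, hcompl⟩ := hE1 M L hC.hM hL hLM q hC.hqM hqL X hX1 hNX _ hSq hXS
      (hSle.trans inf_le_left) (hSle.trans inf_le_right) hidx
    have hPC : P ≤ centralizer (X : Set G) := by
      intro y hy
      rw [mem_centralizer_iff]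
      intro x hx
      have h1 := hC.hQ1P (hXQ hx)
      rw [mem_centralizer_iff] at h1
      exact (h1 y hy).symm
    have hPL : P ≤ L := (hPC.trans (centralizer_le_normalizer (X : Set G))).trans hNX
    have hpσL : p ∉ sigma L := by
      intro h
      have h1 : P ≤ sigmaCore L ⊓ M :=
        le_inf (Cfsg.Agent.H92.BG12.le_sigmaCore_of_mem h50 hL h hPp hPL)
          (hC.hPE.trans hC.hE.1)
      rw [hint] at h1
      exact hP1 (eq_bot_iff.mpr h1)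
    have hpLσ : ¬ p ∣ Nat.card (sigmaCore L) := fun h => hpσL ((h50 L hL).1.2.1 p hpP h)
    have hfacL : ∀ m ∈ L, ∃ a ∈ sigmaCore L, ∃ n ∈ M ⊓ L, m = a * n := by
      intro m hm
      obtain ⟨a, ha, b, hb, hab⟩ := hcompl.2.2.2 m hm
      refine ⟨a * b * a⁻¹, conj_mem_sigmaCore (hcompl.1 ha) hb, a, ha, ?_⟩
      rw [hab]
      group
    exact hfin (der (hσnorm L) inf_le_right hfacL hpP hpLσ hpL')

example (h50 : St1350 G) (h05 : St1405 G) (hT : StSigComm G) (h24 : St1424 G)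
    (hD1 : StEmbD1 G) (hE1 : StEmbE1 G) :
    Cfsg.Agent.Lib.Helper30.BG134.StB2b G := b2b h50 h05 hT h24 hD1 hE1

end Cfsg.Agent.H40.BG134

#print axioms Cfsg.Agent.H40.BG134.b2b
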