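import Cfsg.Agent.S0617
import Cfsg.Agent.H14.TFail
import Cfsg.Agent.H5.SnRed
import Cfsg.Agent.H52.SpDefs

/-!
# SP-GLP (piece of S2944): odd-order elements of `J(X)` commute modulo `O₂(X)`

`H = J(X)`, `Q = O₂(X)`, `C = C_X(V)`.  The quotient `Y = H / (Q ∩ H)` maps to the holomorph of
`V` with central kernel of odd order (`[C, J(X)] ≤ Q`, and `Q` is the Sylow 2-subgroup of `C`),
and its image is generated by independent normal copies of `SL(2,2)` (S0617); then `StGLPA`.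
-/

set_option autoImplicit false
open Cfsg
open scoped commutatorElement Pointwise

universe u

namespace Cfsg.Agent.H40.Sn

open Cfsg.Agent.H52.Sn Cfsg.Agent.H14.Holo

/-- A normal subgroup normalizing one Sylow 2-subgroup normalizes all of them. -/
theorem glp_norm_all {X : Type u} [Group X] [Finite X] (C : Subgroup X) (hCn : C.Normal)
    (S S' : Sylow 2 X) (hC : C ≤ Subgroup.normalizer ((S : Subgroup X) : Set X)) :
    C ≤ Subgroup.normalizer ((S' : Subgroup X) : Set X) := by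
  haveI : Fact (Nat.Prime 2) := ⟨Nat.prime_two⟩
  obtain ⟨g, rfl⟩ := MulAction.exists_smul_eq X S S'
  intro x hx
  have h1 : g⁻¹ * x * g ∈ Subgroup.normalizer ((S : Subgroup X) : Set X) := by
    apply hC
    have := hCn.conj_mem x hx g⁻¹
    simpa using this
  have h1' : (g⁻¹ * x * g) • S = S := Sylow.smul_eq_iff_mem_normalizer.mpr h1
  have h2 : x • g • S = g • S := by
    calc x • g • S = (g * (g⁻¹ * x * g)) • S := by
          rw [← mul_smul]
          congr 1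
          group
      _ = g • S := by rw [mul_smul, h1']
  exact Sylow.smul_eq_iff_mem_normalizer.mp h2

/-- The 2-subgroups of `C` lie in `Q`. -/
theorem glp_two_le {X : Type u} [Group X] [Finite X] (T C Q : Subgroup X) (hT : IsPGroup 2 ↥T)
    (hTi : Odd T.index) (hTC : T ⊓ C ≤ Q) (hCT : C ≤ Subgroup.normalizer (T : Set X))
    (P : Subgroup X) (hP : IsPGroup 2 ↥P) (hPC : P ≤ C) : P ≤ Q := by
  haveI : Fact (Nat.Prime 2) := ⟨Nat.prime_two⟩
  have hdvd : ¬ 2 ∣ T.index := by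
    rw [← even_iff_two_dvd, Nat.not_even_iff_odd]
    exact hTi
  have h2 := hP.inf_normalizer_sylow (hT.toSylow hdvd)
  have h3 : P ≤ P ⊓ T :=
    le_trans (show P ≤ P ⊓ Subgroup.normalizer ((hT.toSylow hdvd : Sylow 2 X) : Set X) from
      le_inf le_rfl (hPC.trans hCT)) h2.le
  exact fun p hp => hTC ⟨(h3 hp).2, hPC hp⟩

/-- `[C, J(X)] ≤ Q`, elementwise. -/
theorem glp_cm {X : Type u} [Group X] [Finite X] (T C Q : Subgroup X) (hT : IsPGroup 2 ↥T)
    (hTi : Odd T.index) (hCn : C.Normal) (hQn : Q.Normal) (hTC : T ⊓ C ≤ Q)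
    (hCT : C ≤ Subgroup.normalizer (T : Set X)) :
    ∀ c ∈ C, ∀ j ∈ thompsonSubgroup 2 X, c * j * c⁻¹ * j⁻¹ ∈ Q := by
  haveI : Fact (Nat.Prime 2) := ⟨Nat.prime_two⟩
  have hdvd : ¬ 2 ∣ T.index := by
    rw [← even_iff_two_dvd, Nat.not_even_iff_odd]
    exact hTi
  let N : Subgroup X :=
    { carrier := {j | ∀ c ∈ C, c * j * c⁻¹ * j⁻¹ ∈ Q}
      one_mem' := by
        intro c hc
        simp
      mul_mem' := by
        intro a b ha hb c hc
        have e : c * (a * b) * c⁻¹ * (a * b)⁻¹ =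
            (c * a * c⁻¹ * a⁻¹) * (a * (c * b * c⁻¹ * b⁻¹) * a⁻¹) := by group
        rw [e]
        exact Q.mul_mem (ha c hc) (hQn.conj_mem _ (hb c hc) a)
      inv_mem' := by
        intro a ha c hc
        have e : c * a⁻¹ * c⁻¹ * a⁻¹⁻¹ = a⁻¹ * (c * a * c⁻¹ * a⁻¹)⁻¹ * a⁻¹⁻¹ := by group
        rw [e]
        exact hQn.conj_mem _ (Q.inv_mem (ha c hc)) a⁻¹ }
  have hN : thompsonSubgroup 2 X ≤ N := by
    unfold Cfsg.thompsonSubgroup
    apply sSup_le
    intro A hA a ha c hc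
    have hA2 : IsPGroup 2 ↥A := fun a => ⟨1, Subtype.ext (by simpa using hA.1.2 a.1 a.2)⟩
    obtain ⟨S', hS'⟩ := hA2.exists_le_sylow
    have hcS' := glp_norm_all C hCn (hT.toSylow hdvd) S' hCT hc
    have h1 : c * a * c⁻¹ ∈ (S' : Subgroup X) :=
      (Subgroup.mem_normalizer_iff.mp hcS' a).mp (hS' ha)
    have h2 : c * a * c⁻¹ * a⁻¹ ∈ (S' : Subgroup X) :=
      Subgroup.mul_mem _ h1 (Subgroup.inv_mem _ (hS' ha))
    have h3 : c * a * c⁻¹ * a⁻¹ ∈ C := by
      have e : c * a * c⁻¹ * a⁻¹ = c * (a * c⁻¹ * a⁻¹) := by group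
      rw [e]
      exact C.mul_mem hc (hCn.conj_mem _ (C.inv_mem hc) a)
    have hP : IsPGroup 2 ↥(Subgroup.zpowers (c * a * c⁻¹ * a⁻¹)) :=
      S'.isPGroup'.to_le (Subgroup.zpowers_le.mpr h2)
    exact glp_two_le T C Q hT hTi hTC hCT _ hP (Subgroup.zpowers_le.mpr h3)
      (Subgroup.mem_zpowers _)
  exact fun c hc j hj => hN hj c hc

/-- The quotient step: `H / (Q ∩ H)` is a central extension with odd kernel of `H.map φ`. -/
theorem glp_quot (h : StGLPA.{u}) {X X' : Type u} [Group X] [Finite X] [Group X'] [Finite X']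
    (φ : X →* X') (H Q : Subgroup X) (hQn : Q.Normal) (hQker : Q ≤ φ.ker)
    (hcm : ∀ c ∈ φ.ker, ∀ j ∈ H, c * j * c⁻¹ * j⁻¹ ∈ Q)
    (htwo : ∀ c ∈ φ.ker, c ^ 2 ∈ Q → c ∈ Q)
    {ι : Type u} (E : ι → Subgroup X')
    (hE1 : ∀ i, H.map φ ≤ Subgroup.normalizer ((E i : Subgroup X') : Set X'))
    (hE2 : ∀ i, Nonempty (↥(E i) ≃* Matrix.SpecialLinearGroup (Fin 2) (ZMod 2)))
    (hE3 : iSupIndep E) (hE4 : (⨆ i, E i) = H.map φ)
    (x y : X) (hx : x ∈ H) (hy : y ∈ H) (hxo : Odd (orderOf x)) (hyo : Odd (orderOf y)) :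
    x * y * x⁻¹ * y⁻¹ ∈ Q := by
  haveI : Fact (Nat.Prime 2) := ⟨Nat.prime_two⟩
  haveI hQH : (Q.subgroupOf H).Normal := inferInstance
  have hle : Q.subgroupOf H ≤ (φ.comp H.subtype).ker := by
    intro q hq
    rw [MonoidHom.mem_ker, MonoidHom.comp_apply]
    exact MonoidHom.mem_ker.mp (hQker (Subgroup.mem_subgroupOf.mp hq))
  obtain ⟨f, hf⟩ : ∃ f : (↥H ⧸ Q.subgroupOf H) →* X',
      ∀ a : ↥H, f (QuotientGroup.mk a) = φ (a : X) :=
    ⟨QuotientGroup.lift (Q.subgroupOf H) (φ.comp H.subtype) hle, fun a => rfl⟩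
  have hfr : f.range = H.map φ := by
    ext z
    constructor
    · rintro ⟨q, rfl⟩
      obtain ⟨a, rfl⟩ := QuotientGroup.mk_surjective q
      rw [hf]
      exact ⟨a.1, a.2, rfl⟩
    · rintro ⟨a, ha, rfl⟩
      exact ⟨QuotientGroup.mk ⟨a, ha⟩, hf ⟨a, ha⟩⟩
  have hker : ∀ z ∈ f.ker, ∀ w : ↥H ⧸ Q.subgroupOf H, z * w = w * z := by
    intro z hz w
    obtain ⟨a, rfl⟩ := QuotientGroup.mk_surjective z
    obtain ⟨b, rfl⟩ := QuotientGroup.mk_surjective w
    have ha : (a : X) ∈ φ.ker := by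
      rw [MonoidHom.mem_ker] at hz ⊢
      rw [← hf]
      exact hz
    rw [← QuotientGroup.mk_mul, ← QuotientGroup.mk_mul, QuotientGroup.eq,
      Subgroup.mem_subgroupOf]
    have h1 := hcm (a : X)⁻¹ (inv_mem ha) (b : X)⁻¹ (inv_mem b.2)
    have h2 := Q.inv_mem h1
    have e : (((a * b)⁻¹ * (b * a) : ↥H) : X) =
        ((a : X)⁻¹ * (b : X)⁻¹ * (a : X)⁻¹⁻¹ * (b : X)⁻¹⁻¹)⁻¹ := by
      push_cast
      group
    rw [e]
    exact h2
  have hodd : Odd (Nat.card ↥f.ker) := by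
    by_contra hne
    rw [Nat.not_odd_iff_even, even_iff_two_dvd] at hne
    obtain ⟨z, hz⟩ := exists_prime_orderOf_dvd_card' 2 hne
    obtain ⟨a, ha⟩ := QuotientGroup.mk_surjective (z : ↥H ⧸ Q.subgroupOf H)
    have h1 : (a : X) ∈ φ.ker := by
      rw [MonoidHom.mem_ker, ← hf, ha]
      exact MonoidHom.mem_ker.mp z.2
    have hz2 : (z : ↥H ⧸ Q.subgroupOf H) ^ 2 = 1 := by
      have := pow_orderOf_eq_one z
      rw [hz] at this
      exact_mod_cast congrArg Subtype.val this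
    have h2 : (a : X) ^ 2 ∈ Q := by
      rw [← ha, ← QuotientGroup.mk_pow, QuotientGroup.eq_one_iff, Subgroup.mem_subgroupOf] at hz2
      exact_mod_cast hz2
    have h3 := htwo _ h1 h2
    have h4 : (z : ↥H ⧸ Q.subgroupOf H) = 1 := by
      rw [← ha, QuotientGroup.eq_one_iff, Subgroup.mem_subgroupOf]
      exact h3
    have h5 : z = 1 := Subtype.ext h4
    rw [h5, orderOf_one] at hz
    omega
  have hox : Odd (orderOf (QuotientGroup.mk (⟨x, hx⟩ : ↥H) : ↥H ⧸ Q.subgroupOf H)) := by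
    have h1 := orderOf_map_dvd (QuotientGroup.mk' (Q.subgroupOf H)) (⟨x, hx⟩ : ↥H)
    rw [Subgroup.orderOf_mk] at h1
    exact Odd.of_dvd_nat hxo h1
  have hoy : Odd (orderOf (QuotientGroup.mk (⟨y, hy⟩ : ↥H) : ↥H ⧸ Q.subgroupOf H)) := by
    have h1 := orderOf_map_dvd (QuotientGroup.mk' (Q.subgroupOf H)) (⟨y, hy⟩ : ↥H)
    rw [Subgroup.orderOf_mk] at h1
    exact Odd.of_dvd_nat hyo h1
  have hcomm := h f E hker hodd (by intro i; rw [hfr]; exact hE1 i) hE2 hE3
    (by rw [hfr]; exact hE4) _ _ hox hoy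
  have h1 : (QuotientGroup.mk ((⟨x, hx⟩ : ↥H) * ⟨y, hy⟩ * (⟨x, hx⟩ : ↥H)⁻¹ * (⟨y, hy⟩ : ↥H)⁻¹) :
      ↥H ⧸ Q.subgroupOf H) = 1 := by
    rw [QuotientGroup.mk_mul, QuotientGroup.mk_mul, QuotientGroup.mk_mul, QuotientGroup.mk_inv,
      QuotientGroup.mk_inv, hcomm]
    group
  rw [QuotientGroup.eq_one_iff, Subgroup.mem_subgroupOf] at h1
  exact h1

theorem glp (h : StGLPA.{u}) : StGLP.{u} := by
  intro X _ _ T V _ hV hsep hT hTi hQC hCT x hx y hy hxo hyo
  haveI : Fact (Nat.Prime 2) := ⟨Nat.prime_two⟩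
  obtain ⟨hO', hTC⟩ := Cfsg.Agent.H5.Sn.red T V hT hTi hQC hCT
  have hQn : (pCore 2 X).Normal := Cfsg.Agent.H13.pCore_normal 2 X
  have hQ2 : IsPGroup 2 ↥(pCore 2 X) := Cfsg.Agent.H13.pCore_isPGroup 2 X
  have hCn : (Subgroup.centralizer (V : Set X)).Normal := inferInstance
  have hcm := glp_cm T (Subgroup.centralizer (V : Set X)) (pCore 2 X) hT hTi hCn hQn hTC hCT
  have htwo : ∀ c ∈ Subgroup.centralizer (V : Set X), c ^ 2 ∈ pCore 2 X → c ∈ pCore 2 X := by
    intro c hc hc2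
    obtain ⟨k, hk⟩ := hQ2 ⟨c ^ 2, hc2⟩
    have hk1 : (c ^ 2) ^ 2 ^ k = 1 := by
      have := congrArg Subtype.val hk
      simpa using this
    have hk' : c ^ 2 ^ (k + 1) = 1 := by
      rw [pow_succ', pow_mul]
      exact hk1
    obtain ⟨j, -, hj⟩ := (Nat.dvd_prime_pow Nat.prime_two).mp (orderOf_dvd_of_pow_eq_one hk')
    have hP : IsPGroup 2 ↥(Subgroup.zpowers c) :=
      IsPGroup.of_card (n := j) (by rw [Nat.card_zpowers, hj])
    exact glp_two_le T _ _ hT hTi hTC hCT _ hP (Subgroup.zpowers_le.mpr hc)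
      (Subgroup.mem_zpowers c)
  haveI hJn := thompsonSubgroup_normal 2 X
  have hV' := Vh_elemAb V hV
  have hHV : (thompsonSubgroup 2 X).map (psi V) ≤
      Subgroup.normalizer ((Vh V : Subgroup (Hol V)) : Set (Hol V)) := by
    haveI := Vh_normal V
    rw [Subgroup.normalizer_eq_top]
    exact le_top
  have hHR : (thompsonSubgroup 2 X).map (psi V) ≤ (psi V).range := by
    rintro _ ⟨j, -, rfl⟩
    exact ⟨j, rfl⟩
  have hf : (thompsonSubgroup 2 X).map (psi V) ⊓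
      Subgroup.centralizer ((Vh V : Subgroup (Hol V)) : Set (Hol V)) = ⊥ := by
    rw [eq_bot_iff, ← range_faithful V]
    exact inf_le_inf_right _ hHR
  have hnorm : (psi V).range ≤
      Subgroup.normalizer (((thompsonSubgroup 2 X).map (psi V) : Subgroup (Hol V)) :
        Set (Hol V)) := by
    rintro _ ⟨g, rfl⟩
    rw [Subgroup.mem_normalizer_iff]
    intro h
    constructor
    · rintro ⟨j, hj, rfl⟩
      refine ⟨g * j * g⁻¹, hJn.conj_mem j hj g, ?_⟩
      simp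
    · rintro ⟨j, hj, hjh⟩
      refine ⟨g⁻¹ * j * g, ?_, ?_⟩
      · have := hJn.conj_mem j hj g⁻¹
        simpa using this
      · rw [map_mul, map_mul, hjh, map_inv]
        group
  have hS1 := hS1_of_normal (p := 2) (psi V).range ((thompsonSubgroup 2 X).map (psi V)) hHR hnorm
    (range_isPSolvable V hsep) (range_pCore_eq_bot V hO')
  have hS3 : (thompsonSubgroup 2 X).map (psi V) = ⨆ A : {A : Subgroup (Hol V) //
      A ≤ (thompsonSubgroup 2 X).map (psi V) ∧ IsBestOffenderOn 2 (Vh V) A},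
        (A : Subgroup (Hol V)) := by
    apply le_antisymm
    · conv_lhs => unfold Cfsg.thompsonSubgroup
      rw [Subgroup.map_le_iff_le_comap]
      apply sSup_le
      intro A hA
      rw [← Subgroup.map_le_iff_le_comap]
      exact le_iSup (fun A : {A : Subgroup (Hol V) //
        A ≤ (thompsonSubgroup 2 X).map (psi V) ∧ IsBestOffenderOn 2 (Vh V) A} =>
          (A : Subgroup (Hol V)))
        ⟨A.map (psi V), Subgroup.map_mono (le_sSup hA), bestOffender_map V hV hA⟩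
    · exact iSup_le fun A => A.2.1
  by_cases hH1 : (thompsonSubgroup 2 X).map (psi V) = ⊥
  · have h1 : x ∈ Subgroup.centralizer (V : Set X) := by
      rw [← psi_ker, MonoidHom.mem_ker]
      have : psi V x ∈ (thompsonSubgroup 2 X).map (psi V) := Subgroup.mem_map_of_mem _ hx
      rw [hH1, Subgroup.mem_bot] at this
      exact this
    exact hcm x h1 y hy
  · obtain ⟨-, hE, hind, hsup, -, -⟩ := Cfsg.Agent.S0617.result (Vh V)
      ((thompsonSubgroup 2 X).map (psi V)) hV' hHV hf hS1 hS3 hH1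
    have hker : (psi V).ker = Subgroup.centralizer (V : Set X) := psi_ker V
    exact glp_quot h (psi V) (thompsonSubgroup 2 X) (pCore 2 X) hQn (by rw [hker]; exact hQC)
      (by rw [hker]; exact hcm) (by rw [hker]; exact htwo) _ (fun E => (hE E).1)
      (fun E => (hE E).2.1) hind hsup x y hx hy hxo hyo

example (h : StGLPA.{u}) : StGLP.{u} := glp h

end Cfsg.Agent.H40.Sn
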