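import Mathlib
import Cfsg.Prelude.Def_OddOrderLocal
import Cfsg.Agent.S1453
import Cfsg.Agent.S0126

/-!
# BG10 piece L1: a `p`-group with a maximal elementary abelian subgroup of order `p ^ 2` is narrow
-/

set_option autoImplicit false
open Cfsg Subgroup

namespace Cfsg.Agent.H40.BG10

theorem l1_card_lt {R : Type*} [Group R] [Finite R] {s : ℕ} [Fact s.Prime] (hR : IsPGroup s R)
    {H K : Subgroup R} (hH : H ≠ ⊥) (hlt : H < K) : s ^ 2 ≤ Nat.card K := by
  have hs : s.Prime := Fact.out
  obtain ⟨n, hn⟩ := IsPGroup.iff_card.mp (hR.to_subgroup K)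
  obtain ⟨m, hm⟩ := IsPGroup.iff_card.mp (hR.to_subgroup H)
  have h1 : Nat.card H < Nat.card K := by
    by_contra hle
    push Not at hle
    exact hlt.ne (Subgroup.eq_of_le_of_card_ge hlt.le hle)
  have hm0 : m ≠ 0 := by
    intro h0
    rw [h0, pow_zero] at hm
    exact hH (Subgroup.eq_bot_of_card_eq H hm)
  rw [hn, hm] at h1
  have hmn : m < n := (Nat.pow_lt_pow_iff_right hs.one_lt).mp h1
  rw [hn]
  exact Nat.pow_le_pow_right hs.pos (by omega)

theorem l1_closure_elem {R : Type*} [Group R] (p : ℕ) (k : Set R)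
    (hcomm : ∀ a ∈ k, ∀ b ∈ k, a * b = b * a) (hexp : ∀ a ∈ k, a ^ p = 1) :
    IsElementaryAbelian p (closure k) := by
  have hcl : IsMulCommutative (closure k) := Subgroup.isMulCommutative_closure hcomm
  have hc : ∀ a ∈ closure k, ∀ b ∈ closure k, a * b = b * a :=
    fun a ha b hb => setLike_mul_comm ha hb
  refine ⟨hcl, ?_⟩
  intro a ha
  induction ha using Subgroup.closure_induction with
  | mem x hx => exact hexp x hx
  | one => exact one_pow _
  | mul x y hx hy ihx ihy =>
    have hxy : Commute x y := hc x hx y hy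
    rw [hxy.mul_pow, ihx, ihy, one_mul]
  | inv x hx ih => rw [inv_pow, ih, inv_one]

theorem narrow_of_max_elem {R : Type*} [Group R] [Finite R] (p : ℕ) [Fact p.Prime] (hp : p ≠ 2)
    (hR : IsPGroup p R) (hr : ¬ PRankLE p 2 R) (E : Subgroup R) (hE : IsElementaryAbelian p E)
    (hE2 : Nat.card E = p ^ 2)
    (hEmax : ∀ B : Subgroup R, IsElementaryAbelian p B → E ≤ B → B = E) : IsNarrow p R := by
  have hpp : p.Prime := Fact.out
  obtain ⟨hET, hZcard, -, hTchar, hTidx⟩ := Cfsg.Agent.S1453.result p hp hR hr E hE hE2 hEmax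
  obtain ⟨T, hT⟩ : ∃ T : Subgroup R, T = centralizer
      ((closure {x : R | x ∈ Subgroup.upperCentralSeries R 2 ∧ x ^ p = 1} : Subgroup R) : Set R) :=
    ⟨_, rfl⟩
  obtain ⟨Z, hZ⟩ : ∃ Z : Subgroup R, Z = closure {x : R | x ∈ center R ∧ x ^ p = 1} := ⟨_, rfl⟩
  rw [← hT] at hET hTchar hTidx
  rw [← hZ] at hZcard
  have hTn : T.Normal := inferInstance
  have hZmem : ∀ z ∈ Z, z ∈ center R ∧ z ^ p = 1 := by
    intro z hz
    rw [hZ] at hz
    induction hz using Subgroup.closure_induction with
    | mem x hx => exact hx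
    | one => exact ⟨one_mem _, one_pow _⟩
    | mul a b _ _ iha ihb =>
      refine ⟨mul_mem iha.1 ihb.1, ?_⟩
      have hc : Commute a b := mem_center_iff.mp ihb.1 a
      rw [hc.mul_pow, iha.2, ihb.2, one_mul]
    | inv a _ iha => exact ⟨inv_mem iha.1, by rw [inv_pow, iha.2, inv_one]⟩
  have hZT : Z ≤ T := fun z hz => by
    rw [hT]; exact Subgroup.center_le_centralizer _ (hZmem z hz).1
  have hZn : Z.Normal := ⟨fun z hz g => by
    have h1 := mem_center_iff.mp (hZmem z hz).1 g
    have e : g * z * g⁻¹ = z := by rw [h1]; group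
    rw [e]; exact hz⟩
  have hZE : Z ≤ E := by
    have hB : IsElementaryAbelian p (E ⊔ Z) := by
      have hmem : ∀ d ∈ E ⊔ Z, ∃ e ∈ E, ∃ z ∈ Z, e * z = d :=
        fun d hd => mem_sup_of_normal_right.mp hd
      refine ⟨IsMulCommutative.of_setLike_mul_comm ?_, ?_⟩
      · intro a ha b hb
        obtain ⟨e₁, he₁, z₁, hz₁, rfl⟩ := hmem a ha
        obtain ⟨e₂, he₂, z₂, hz₂, rfl⟩ := hmem b hb
        have h1 := mem_center_iff.mp (hZmem z₁ hz₁).1
        have h2 := mem_center_iff.mp (hZmem z₂ hz₂).1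
        have hv : e₁ * e₂ = e₂ * e₁ := by
          have := hE.1
          exact setLike_mul_comm he₁ he₂
        calc e₁ * z₁ * (e₂ * z₂) = e₁ * (z₁ * e₂) * z₂ := by simp only [mul_assoc]
          _ = e₁ * (e₂ * z₁) * z₂ := by rw [← h1 e₂]
          _ = (e₁ * e₂) * (z₁ * z₂) := by simp only [mul_assoc]
          _ = (e₂ * e₁) * (z₂ * z₁) := by rw [hv, h2 z₁]
          _ = e₂ * (e₁ * z₂) * z₁ := by simp only [mul_assoc]
          _ = e₂ * (z₂ * e₁) * z₁ := by rw [h2 e₁]
          _ = e₂ * z₂ * (e₁ * z₁) := by simp only [mul_assoc]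
      · intro d hd
        obtain ⟨e, he, z, hz, rfl⟩ := hmem d hd
        have hc : Commute e z := mem_center_iff.mp (hZmem z hz).1 e
        rw [hc.mul_pow, hE.2 e he, (hZmem z hz).2, one_mul]
    have h1 := hEmax (E ⊔ Z) hB le_sup_left
    rw [← h1]; exact le_sup_right
  obtain ⟨x, hxE, hxT⟩ := SetLike.not_le_iff_exists.mp hET
  have hx1 : x ≠ 1 := fun h => hxT (by rw [h]; exact one_mem T)
  have hxp : x ^ p = 1 := hE.2 x hxE
  have hox : orderOf x = p := orderOf_eq_prime hxp hx1
  have hR0card : Nat.card (zpowers x) = p := by rw [Nat.card_zpowers, hox]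
  have h4 : ∀ y ∈ zpowers x, y ∈ T → y = 1 := by
    intro y hy hyT
    by_contra hy1
    have hyE : y ∈ E := (zpowers_le.mpr hxE) hy
    have hoy : orderOf y = p := orderOf_eq_prime (hE.2 y hyE) hy1
    have hle : zpowers y ≤ zpowers x := zpowers_le.mpr hy
    have heq : zpowers y = zpowers x :=
      Subgroup.eq_of_le_of_card_ge hle (by rw [hR0card, Nat.card_zpowers, hoy])
    have hxy : x ∈ zpowers y := by rw [heq]; exact mem_zpowers x
    exact hxT (zpowers_le.mpr hyT hxy)
  have hZne : Z ≠ ⊥ := by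
    intro h
    rw [h, Subgroup.card_bot] at hZcard
    exact hpp.one_lt.ne hZcard
  have hEeq : zpowers x ⊔ Z = E := by
    have hle : zpowers x ⊔ Z ≤ E := sup_le (zpowers_le.mpr hxE) hZE
    have hlt : zpowers x < zpowers x ⊔ Z := by
      refine lt_of_le_of_ne le_sup_left ?_
      intro heq
      have hZle : Z ≤ zpowers x := by rw [heq]; exact le_sup_right
      apply hZne
      rw [eq_bot_iff]
      intro z hz
      rw [mem_bot]
      exact h4 z (hZle hz) (hZT hz)
    have hx0 : zpowers x ≠ ⊥ := by rw [Ne, zpowers_eq_bot]; exact hx1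
    have hcard := l1_card_lt hR hx0 hlt
    exact Subgroup.eq_of_le_of_card_ge hle (by rw [hE2]; exact hcard)
  obtain ⟨R₁, hR₁⟩ : ∃ R₁ : Subgroup R, R₁ = T ⊓ centralizer ({x} : Set R) := ⟨_, rfl⟩
  have hR₁T : R₁ ≤ T := by rw [hR₁]; exact inf_le_left
  have hR₁x : ∀ b ∈ R₁, x * b = b * x := fun b hb => by
    rw [hR₁] at hb
    exact (mem_centralizer_iff.mp hb.2) x (Set.mem_singleton x)
  have hcomm : ∀ a ∈ zpowers x, ∀ b ∈ R₁, a * b = b * a := by
    intro a ha b hb
    obtain ⟨k, rfl⟩ := mem_zpowers_iff.mp ha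
    have hc : Commute x b := hR₁x b hb
    exact hc.zpow_left k
  have hinf : zpowers x ⊓ R₁ = ⊥ := by
    rw [eq_bot_iff]
    intro y hy
    rw [mem_bot]
    exact h4 y hy.1 (hR₁T hy.2)
  have htop : zpowers x ⊔ T = ⊤ := by
    have hle : T ≤ zpowers x ⊔ T := le_sup_right
    have h1 := Subgroup.relIndex_mul_index hle
    rw [hTidx] at h1
    have h2 : (zpowers x ⊔ T).index ∣ p := Dvd.intro_left _ h1
    rcases (Nat.dvd_prime hpp).mp h2 with h3 | h3
    · exact Subgroup.index_eq_one.mp h3
    · exfalso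
      rw [h3] at h1
      have h4' : T.relIndex (zpowers x ⊔ T) = 1 :=
        Nat.eq_of_mul_eq_mul_right hpp.pos (by rw [one_mul]; exact h1)
      have h5 := Subgroup.relIndex_eq_one.mp h4'
      exact hxT (h5 (mem_sup_left (mem_zpowers x)))
  have hcent : zpowers x ⊔ R₁ = centralizer ((zpowers x : Subgroup R) : Set R) := by
    apply le_antisymm
    · refine sup_le ?_ ?_
      · intro a ha
        rw [mem_centralizer_iff]
        intro b hb
        obtain ⟨i, rfl⟩ := mem_zpowers_iff.mp ha
        obtain ⟨j, rfl⟩ := mem_zpowers_iff.mp hb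
        rw [← zpow_add, ← zpow_add, add_comm]
      · intro b hb
        rw [mem_centralizer_iff]
        intro a ha
        exact hcomm a ha b hb
    · intro c hc
      have hcx : x * c = c * x := (mem_centralizer_iff.mp hc) x (mem_zpowers x)
      have hc' : c ∈ zpowers x ⊔ T := by rw [htop]; exact mem_top c
      obtain ⟨y, hy, t, ht, rfl⟩ := mem_sup_of_normal_right.mp hc'
      refine mul_mem (mem_sup_left hy) (mem_sup_right ?_)
      rw [hR₁]
      refine ⟨ht, ?_⟩
      show t ∈ centralizer ({x} : Set R)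
      rw [mem_centralizer_iff]
      intro h hh
      rw [Set.mem_singleton_iff] at hh
      rw [hh]
      obtain ⟨i, rfl⟩ := mem_zpowers_iff.mp hy
      have hxy : x * x ^ i = x ^ i * x := (Commute.refl x).zpow_right i
      have e : x ^ i * (x * t) = x ^ i * (t * x) := by
        calc x ^ i * (x * t) = (x ^ i * x) * t := (mul_assoc _ _ _).symm
          _ = (x * x ^ i) * t := by rw [hxy]
          _ = x * (x ^ i * t) := mul_assoc _ _ _
          _ = x ^ i * t * x := hcx
          _ = x ^ i * (t * x) := mul_assoc _ _ _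
      exact mul_left_cancel e
  have hΩ : ∀ y ∈ R₁, y ^ p = 1 → y ∈ Z := by
    intro y hy hyp
    have hyE : ∀ e ∈ E, e * y = y * e := by
      intro e he
      rw [← hEeq] at he
      obtain ⟨a, ha, z, hz, rfl⟩ := mem_sup_of_normal_right.mp he
      have h1 := hcomm a ha y hy
      have h2 := mem_center_iff.mp (hZmem z hz).1 y
      calc a * z * y = a * (z * y) := mul_assoc _ _ _
        _ = a * (y * z) := by rw [h2]
        _ = (a * y) * z := (mul_assoc _ _ _).symm
        _ = (y * a) * z := by rw [h1]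
        _ = y * (a * z) := mul_assoc _ _ _
    have hB : IsElementaryAbelian p (closure ((E : Set R) ∪ {y})) := by
      apply l1_closure_elem
      · intro a ha b hb
        rcases ha with ha | ha <;> rcases hb with hb | hb
        · have := hE.1
          exact setLike_mul_comm ha hb
        · rw [Set.mem_singleton_iff] at hb; rw [hb]; exact hyE a ha
        · rw [Set.mem_singleton_iff] at ha; rw [ha]; exact (hyE b hb).symm
        · rw [Set.mem_singleton_iff] at ha hb; rw [ha, hb]
      · intro a ha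
        rcases ha with ha | ha
        · exact hE.2 a ha
        · rw [Set.mem_singleton_iff] at ha; rw [ha]; exact hyp
    have hEB : E ≤ closure ((E : Set R) ∪ {y}) := fun e he => subset_closure (Or.inl he)
    have hBE := hEmax _ hB hEB
    have hyE' : y ∈ E := by rw [← hBE]; exact subset_closure (Or.inr rfl)
    rw [← hEeq] at hyE'
    obtain ⟨a, ha, z, hz, hazy⟩ := mem_sup_of_normal_right.mp hyE'
    have haT : a ∈ T := by
      have e : a = y * z⁻¹ := by rw [← hazy]; group
      rw [e]; exact mul_mem (hR₁T hy) (inv_mem (hZT hz))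
    have ha1 := h4 a ha haT
    rw [ha1, one_mul] at hazy
    rw [← hazy]; exact hz
  have hcyc : IsCyclic R₁ := by
    by_contra hnc
    obtain ⟨A, -, hAe, hAc⟩ := Cfsg.Agent.S0126.result hp (hR.to_subgroup R₁) hnc
    have hle : A.map R₁.subtype ≤ Z := by
      rintro _ ⟨a, ha, rfl⟩
      apply hΩ _ a.2
      have h1 := hAe.2 a ha
      have h2 := congrArg Subtype.val h1
      simpa using h2
    have h1 : Nat.card (A.map R₁.subtype) = p ^ 2 := by rw [Subgroup.card_subtype, hAc]
    have h2 := Subgroup.card_le_of_le hle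
    rw [h1, hZcard] at h2
    nlinarith [hpp.one_lt]
  exact Or.inr ⟨zpowers x, R₁, hR0card, hcyc, hinf, hcomm, hcent⟩

end Cfsg.Agent.H40.BG10
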