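import Mathlib
import Cfsg.Agent.H29.BG117Defs
import Cfsg.Agent.H13.FitInt
import Cfsg.Agent.H38.PiCore
import Cfsg.Agent.H31.BG95W
import Cfsg.Agent.S0027
import Cfsg.Agent.H40.BG117Normal

set_option autoImplicit false
set_option linter.unusedSectionVars false

/-!
# B&G 11.7, piece NT (helper40 for helper29): a normal `t`-subgroup of `M` centralizing `M_σ`
and not centralized by `A`
-/

namespace Cfsg.Agent.H40.BG117T

open Cfsg Subgroup Cfsg.Agent.H58.BG10 Cfsg.Agent.H63.BG11 Cfsg.Agent.H29.BG117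
open Cfsg.Agent.H13.FitInt

universe u

/-- Abstract core: `D ⊴ H` solvable centralizing `S`, where `S` contains `O_t(D)` for all
`t ∈ σ`; `Y1 ≤ D` a nontrivial `s`-group, `s ∉ σ`, with `[Y1, A] = Y1`.  Then `A` does not
centralize `O_t(D)` for some prime `t ∉ σ`. -/
theorem exists_opInt_not_centralized {H : Type u} [Group H] [Finite H]
    (D A S Y1 : Subgroup H) [hDn : D.Normal] [hDs : Group.IsSolvable D] (σ : Set ℕ)
    (hDS : D ≤ centralizer (S : Set H))
    (hσ : ∀ t : ℕ, t.Prime → t ∈ σ → opInt t D ≤ S)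
    {s : ℕ} (hs : s.Prime) (hsσ : s ∉ σ) (hY1D : Y1 ≤ D) (hY1s : IsPGroup s Y1)
    (hY1A : ⁅Y1, A⁆ = Y1) (hY1 : Y1 ≠ ⊥) :
    ∃ t : ℕ, t.Prime ∧ t ∉ σ ∧ ¬ opInt t D ≤ centralizer (A : Set H) := by
  by_contra hcon
  push Not at hcon
  have hDA : ⁅D, A⁆ ≤ D := Subgroup.commutator_le_left D A
  have hcent : ∀ t : Nat.Primes, opInt (t : ℕ) D ≤ centralizer ((⁅D, A⁆ : Subgroup H) : Set H) := by
    intro t
    by_cases htσ : (t : ℕ) ∈ σ
    · have h1 : opInt (t : ℕ) D ≤ centralizer (D : Set H) := by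
        rw [Subgroup.le_centralizer_iff]
        exact hDS.trans (Subgroup.centralizer_le (hσ t t.2 htσ))
      exact h1.trans (Subgroup.centralizer_le hDA)
    · have hO := hcon t t.2 htσ
      have hOn : (opInt (t : ℕ) D).Normal := inferInstance
      have h1 : ⁅⁅D, opInt (t : ℕ) D⁆, A⁆ = ⊥ := by
        rw [Subgroup.commutator_eq_bot_iff_le_centralizer]
        exact (Subgroup.commutator_le_right D (opInt (t : ℕ) D)).trans hO
      have h2 : ⁅⁅opInt (t : ℕ) D, A⁆, D⁆ = ⊥ := by
        have : ⁅opInt (t : ℕ) D, A⁆ = ⊥ := Subgroup.commutator_eq_bot_iff_le_centralizer.mpr hO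
        rw [this]; exact Subgroup.commutator_bot_left D
      have h3 : ⁅⁅A, D⁆, opInt (t : ℕ) D⁆ = ⊥ :=
        Subgroup.commutator_commutator_eq_bot_of_rotate h1 h2
      rw [Subgroup.commutator_comm A D, Subgroup.commutator_eq_bot_iff_le_centralizer] at h3
      exact Subgroup.le_centralizer_iff.mp h3
  have hF : fittingOf D ≤ centralizer ((⁅D, A⁆ : Subgroup H) : Set H) := by
    rw [fittingOf_eq_iSup]; exact iSup_le hcent
  have hDAF : ⁅D, A⁆ ≤ fittingOf D := by
    refine le_trans ?_ (centralizer_fittingOf_le D)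
    exact le_inf hDA (Subgroup.le_centralizer_iff.mp hF)
  have hY1F : Y1 ≤ fittingOf D := by
    rw [← hY1A]
    exact (Subgroup.commutator_mono hY1D le_rfl).trans hDAF
  have hY1O : Y1 ≤ opInt s D := by
    intro y hy
    obtain ⟨d, hd, rfl⟩ := hY1F hy
    obtain ⟨k, hk⟩ := hY1s ⟨_, hy⟩
    have := Fact.mk hs
    refine ⟨d, Cfsg.Agent.H31.BG9.mem_pCore_of_mem_fitting s hd ⟨k, ?_⟩, rfl⟩
    apply Subtype.ext
    simpa using congrArg Subtype.val hk
  have hY1c : Y1 ≤ centralizer (A : Set H) := hY1O.trans (hcon s hs hsσ)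
  apply hY1
  rw [← hY1A]
  exact Subgroup.commutator_eq_bot_iff_le_centralizer.mpr hY1c

variable {G : Type u} [Group G] [Finite G]

/-- **BG117-NT**: if `A` does not centralize some `A`-invariant `s`-subgroup of `M`,
`s ∉ σ(M) ∪ {p}`, then there is a normal `t`-subgroup `T` of `M`, `t ∉ σ(M) ∪ {p}`, which
centralizes `M_σ` and is not centralized by `A`. -/
theorem excNT (hG : IsMinSimpleOddOrder G) (h350 : St1350 G) (hF : StExcFacts G)
    (hC : StExcComm G) : StExcNT G := by
  intro M A A₀ p _ hE s _ hsσ hsp Y hYM hYs hAY hYc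
  have hp := (Fact.out : p.Prime)
  have hs := (Fact.out : s.Prime)
  have hHall := (h350 M hE.coatom).1
  have hMsolv : Group.IsSolvable M := hG.2.2.2 M hE.coatom.1
  have hAsolv : Group.IsSolvable A := by
    have hc := hE.elem.1
    exact Group.isSolvable_of_comm (fun a b => hc.is_comm.comm a b)
  obtain ⟨n, hn⟩ := hYs.exists_card_eq
  have hcop : (Nat.card A).Coprime (Nat.card Y) := by
    rw [hE.card, hn]
    exact Nat.Coprime.pow _ _ ((Nat.coprime_primes hp hs).mpr (fun h => hsp h.symm))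
  -- `Y1 = [Y, A]`
  set Y1 : Subgroup G := ⁅Y, A⁆ with hY1def
  have hY1Y : Y1 ≤ Y := by
    rw [hY1def, Subgroup.commutator_le]
    intro y hy a ha
    rw [commutatorElement_def]
    have h1 : a * y⁻¹ * a⁻¹ ∈ Y := (Subgroup.mem_normalizer_iff.mp (hAY ha) _).mp (inv_mem hy)
    have e : y * a * y⁻¹ * a⁻¹ = y * (a * y⁻¹ * a⁻¹) := by group
    rw [e]
    exact mul_mem hy h1
  have hY1ne : Y1 ≠ ⊥ := fun h => hYc (Subgroup.commutator_eq_bot_iff_le_centralizer.mp h)
  have hY1A : ⁅Y1, A⁆ = Y1 := Cfsg.Agent.S0027.result A Y hAY hcop (Or.inl hAsolv)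
  have hY1σ : Y1 ≤ centralizer (sigmaCore M : Set G) := hC M A A₀ p hE s hsσ hsp Y hYM hYs hAY
  have hYK : Y ≤ piCoreOf (primesNotDvd (Nat.card A)) M := by
    rw [← (hF M A A₀ p hE).th.2.2 M hE.coatom.1 hE.le]
    apply le_sSup
    refine ⟨hYM, ?_, hAY⟩
    intro q hq hqd
    rw [hn] at hqd
    have hqs : q = s := (Nat.prime_dvd_prime_iff_eq hq hs).mp (hq.dvd_of_dvd_pow hqd)
    subst hqs
    refine ⟨hq, ?_⟩
    rw [hE.card]
    intro h
    exact hsp ((Nat.prime_dvd_prime_iff_eq hq hp).mp (hq.dvd_of_dvd_pow h))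
  -- inside `↥M`
  set S' : Subgroup M := piCore (sigma M) M with hS'
  set K₀ : Subgroup M := piCore (primesNotDvd (Nat.card A)) M with hK₀
  have hK₀p : ¬ p ∣ Nat.card K₀ := by
    intro h
    have h1 := Cfsg.Agent.H38.piNat_card_piCore (G := M) (primesNotDvd (Nat.card A)) p hp h
    apply h1.2
    rw [hE.card]
    exact dvd_pow_self p (by norm_num)
  set D : Subgroup M := K₀ ⊓ centralizer (S' : Set M) with hD
  have hDn : D.Normal := inferInstance
  have hDsolv : Group.IsSolvable D := inferInstance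
  have hidx : ∀ t : ℕ, t.Prime → t ∈ sigma M → ¬ t ∣ S'.index := by
    intro t ht htσ
    have h1 := hHall.2.2 t ht htσ
    have e : (sigmaCore M).subgroupOf M = S' :=
      Subgroup.comap_map_eq_self_of_injective M.subtype_injective _
    rw [Subgroup.relIndex, e] at h1
    exact h1
  have hY1M : Y1 ≤ M := hY1Y.trans hYM
  have hmapY1 : (Y1.subgroupOf M).map M.subtype = Y1 := Subgroup.map_subgroupOf_eq_of_le hY1M
  have hmapA : (A.subgroupOf M).map M.subtype = A := Subgroup.map_subgroupOf_eq_of_le hE.le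
  obtain ⟨t, ht, htσ, hnc⟩ := exists_opInt_not_centralized D (A.subgroupOf M) S'
    (Y1.subgroupOf M) (sigma M) inf_le_right
    (fun t ht htσ => Cfsg.Agent.H40.BG117N.le_normal_of_pgroup ht S' (opInt t D)
      (opInt_isPGroup t D) (hidx t ht htσ))
    hs hsσ
    (by
      intro y hy
      have hyG : (y : G) ∈ Y1 := hy
      refine ⟨?_, ?_⟩
      · obtain ⟨k, hk, hky⟩ := hYK (hY1Y hyG)
        have : k = y := Subtype.ext hky
        rw [← this]; exact hk
      · intro x hx
        apply Subtype.ext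
        have hxG : (x : G) ∈ sigmaCore M := ⟨x, hx, rfl⟩
        simpa using hY1σ hyG (x : G) hxG)
    ((hYs.to_le hY1Y).comap_subtype)
    (by
      apply Subgroup.map_injective M.subtype_injective
      rw [Subgroup.map_commutator, hmapY1, hmapA, hY1A])
    (by
      intro h
      apply hY1ne
      rw [← hmapY1, h, Subgroup.map_bot])
  have hOn : (opInt t D).Normal := inferInstance
  refine ⟨t, (opInt t D).map M.subtype, ht, htσ, ?_, Subgroup.map_subtype_le _,
    Cfsg.Agent.H40.BG117N.le_normalizer_map_subtype_aux M (opInt t D),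
    (opInt_isPGroup t D).map _, ?_, ?_⟩
  · -- `t ≠ p`
    rintro rfl
    apply hnc
    have hcard : Nat.card (opInt t D) = 1 := by
      obtain ⟨k, hk⟩ := (opInt_isPGroup t D).exists_card_eq
      have hdvd : Nat.card (opInt t D) ∣ Nat.card K₀ :=
        Subgroup.card_dvd_of_le ((opInt_le t D).trans inf_le_left)
      rcases Nat.eq_zero_or_pos k with h0 | hpos
      · rw [hk, h0, pow_zero]
      · exfalso
        apply hK₀p
        rw [hk] at hdvd
        exact (dvd_pow_self t hpos.ne').trans hdvd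
    rw [Subgroup.card_eq_one.mp hcard]
    exact bot_le
  · -- centralizes `M_σ`
    rintro _ ⟨d, hd, rfl⟩ z hz
    obtain ⟨z', hz', rfl⟩ := hz
    have hdD : d ∈ D := opInt_le t D hd
    have := hdD.2 z' hz'
    exact congrArg Subtype.val this
  · -- not centralized by `A`
    intro hle
    apply hnc
    intro d hd a ha
    apply Subtype.ext
    have haG : (a : G) ∈ A := ha
    have hdT : (d : G) ∈ (opInt t D).map M.subtype := ⟨d, hd, rfl⟩
    simpa using hle hdT (a : G) haG

end Cfsg.Agent.H40.BG117T
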