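import Mathlib
import Cfsg.Agent.S1398
import Cfsg.Agent.S1399
import Cfsg.Agent.S1400
import Cfsg.Agent.S1401

/-!
# Piece PG1 of the S1402 project (B&G Lemma 9.5): the subgroup `W = Ω₁(Z₂(T))`

For an `s`-subgroup `T` (`s` odd) of rank at least three, the subgroup
`W := {x ∈ T | x ^ s = 1 ∧ [x, T] ≤ Ω₁(Z(T))}` has order at least `s ^ 2`, is normalized
by `N(T)`, every non-identity element of it is centralized by an abelian subgroup of `T` of
rank at least three, and so is a noncyclic subgroup of each of its subgroups of order at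
least `s ^ 2`.
-/

set_option autoImplicit false
open Cfsg Subgroup

namespace Cfsg.Agent.H40.BG95

universe u

section Core

variable {R : Type u} [Group R]

theorem pg1_pow_mul_comm (x y c : R) (hc : c ∈ center R) (h : y * x = x * y * c) (n : ℕ) :
    y ^ n * x = x * y ^ n * c ^ n := by
  have hcc : ∀ (m : ℕ) (g : R), g * c ^ m = c ^ m * g := fun m g =>
    Subgroup.mem_center_iff.mp (Subgroup.pow_mem _ hc m) g
  induction n with
  | zero => simp
  | succ n ih =>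
    calc y ^ (n + 1) * x = y ^ n * (y * x) := by rw [pow_succ, mul_assoc]
      _ = y ^ n * (x * y * c) := by rw [h]
      _ = (y ^ n * x) * y * c := by simp only [mul_assoc]
      _ = x * y ^ n * c ^ n * y * c := by rw [ih]
      _ = x * y ^ n * (y * c ^ n) * c := by rw [hcc n y]; simp only [mul_assoc]
      _ = x * y ^ (n + 1) * c ^ (n + 1) := by simp only [pow_succ, mul_assoc]

theorem pg1_mul_pow (x y c : R) (hc : c ∈ center R) (h : y * x = x * y * c) (n : ℕ) :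
    (x * y) ^ n = x ^ n * y ^ n * c ^ (n.choose 2) := by
  have hcc : ∀ (m : ℕ) (g : R), g * c ^ m = c ^ m * g := fun m g =>
    Subgroup.mem_center_iff.mp (Subgroup.pow_mem _ hc m) g
  induction n with
  | zero => simp
  | succ n ih =>
    have h2 : (n + 1).choose 2 = n + n.choose 2 := by
      rw [Nat.choose_succ_succ, Nat.choose_one_right]
    calc (x * y) ^ (n + 1) = (x * y) ^ n * (x * y) := pow_succ _ _
      _ = x ^ n * y ^ n * c ^ (n.choose 2) * (x * y) := by rw [ih]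
      _ = x ^ n * (y ^ n * x) * y * c ^ (n.choose 2) := by
        rw [mul_assoc (x ^ n * y ^ n), ← hcc (n.choose 2) (x * y)]; simp only [mul_assoc]
      _ = x ^ n * (x * y ^ n * c ^ n) * y * c ^ (n.choose 2) := by
        rw [pg1_pow_mul_comm x y c hc h n]
      _ = x ^ n * x * y ^ n * (y * c ^ n) * c ^ (n.choose 2) := by
        rw [hcc n y]; simp only [mul_assoc]
      _ = x ^ (n + 1) * y ^ (n + 1) * c ^ ((n + 1).choose 2) := by
        rw [h2, pow_add c n]; simp only [pow_succ, mul_assoc]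

theorem pg1_mul_pow_prime {p : ℕ} (hp : p.Prime) (hp2 : p ≠ 2)
    (x y c : R) (hc : c ∈ center R) (hcp : c ^ p = 1)
    (h : y * x = x * y * c) : (x * y) ^ p = x ^ p * y ^ p := by
  rw [pg1_mul_pow x y c hc h p]
  have h2 : p ∣ p.choose 2 := hp.dvd_choose_self (by norm_num) (by
    have := hp.two_le; omega)
  obtain ⟨m, hm⟩ := h2
  rw [hm, pow_mul, hcp, one_pow, mul_one]

/-- `Ω₁(Z(R))`. -/
def pg1Z (s : ℕ) (R : Type u) [Group R] : Subgroup R where
  carrier := {z | z ^ s = 1 ∧ z ∈ center R}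
  one_mem' := ⟨one_pow _, one_mem _⟩
  mul_mem' := by
    rintro a b ⟨ha, hac⟩ ⟨hb, hbc⟩
    refine ⟨?_, mul_mem hac hbc⟩
    have hcomm : Commute a b := mem_center_iff.mp hbc a
    rw [hcomm.mul_pow, ha, hb, one_mul]
  inv_mem' := by
    rintro a ⟨ha, hac⟩
    exact ⟨by rw [inv_pow, ha, inv_one], inv_mem hac⟩

theorem pg1Z_comm {s : ℕ} {z : R} (hz : z ∈ pg1Z s R) (g : R) : g * z = z * g :=
  mem_center_iff.mp hz.2 g

/-- `Ω₁(Z₂(R))` for a group `R` of odd prime-power order. -/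
def pg1W (s : ℕ) [Fact s.Prime] (hs2 : s ≠ 2) (R : Type u) [Group R] : Subgroup R where
  carrier := {x | x ^ s = 1 ∧ ∀ t : R, x * t * x⁻¹ * t⁻¹ ∈ pg1Z s R}
  one_mem' := ⟨one_pow _, fun t => by simp⟩
  mul_mem' := by
    rintro x y ⟨hx, hxt⟩ ⟨hy, hyt⟩
    refine ⟨?_, fun t => ?_⟩
    · have hc := hyt x
      have hcomm := pg1Z_comm hc (x * y)
      have h : y * x = x * y * (y * x * y⁻¹ * x⁻¹) := by rw [hcomm]; group
      rw [pg1_mul_pow_prime (Fact.out : s.Prime) hs2 x y _ hc.2 hc.1 h, hx, hy, one_mul]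
    · have h1 := hyt t
      have h2 := hxt t
      have hcomm := pg1Z_comm h1 x
      have e : x * y * t * (x * y)⁻¹ * t⁻¹ = (y * t * y⁻¹ * t⁻¹) * (x * t * x⁻¹ * t⁻¹) := by
        calc x * y * t * (x * y)⁻¹ * t⁻¹ = x * (y * t * y⁻¹ * t⁻¹) * t * x⁻¹ * t⁻¹ := by group
          _ = (y * t * y⁻¹ * t⁻¹) * x * t * x⁻¹ * t⁻¹ := by rw [hcomm]
          _ = _ := by group
      rw [e]; exact mul_mem h1 h2
  inv_mem' := by
    rintro x ⟨hx, hxt⟩
    refine ⟨by rw [inv_pow, hx, inv_one], fun t => ?_⟩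
    have h1 := hxt t
    have hcomm' := pg1Z_comm (inv_mem h1) x⁻¹
    have e : x⁻¹ * t * x⁻¹⁻¹ * t⁻¹ = (x * t * x⁻¹ * t⁻¹)⁻¹ := by
      have e1 : x⁻¹ * t * x⁻¹⁻¹ * t⁻¹ = x⁻¹ * (x * t * x⁻¹ * t⁻¹)⁻¹ * x := by group
      rw [e1, hcomm']; group
    rw [e]; exact inv_mem h1

theorem pg1Z_map {s : ℕ} (φ : R ≃* R) {z : R} (hz : z ∈ pg1Z s R) : φ z ∈ pg1Z s R := by
  refine ⟨by rw [← map_pow, hz.1, map_one], ?_⟩
  rw [mem_center_iff]
  intro g
  have h1 := pg1Z_comm hz (φ.symm g)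
  have h2 := congrArg φ h1
  simpa using h2

theorem pg1W_map {s : ℕ} [Fact s.Prime] (hs2 : s ≠ 2) (φ : R ≃* R) {x : R}
    (hx : x ∈ pg1W s hs2 R) : φ x ∈ pg1W s hs2 R := by
  refine ⟨by rw [← map_pow, hx.1, map_one], fun t => ?_⟩
  have h1 := pg1Z_map φ (hx.2 (φ.symm t))
  simpa using h1

theorem pg1_comm_mem_center [Finite R] {s : ℕ} [Fact s.Prime] (hR : IsPGroup s R)
    (V : Subgroup R) [V.Normal] (hV : Nat.card V = s ^ 2) {x : R} (hx : x ∈ V) (t : R) :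
    x * t * x⁻¹ * t⁻¹ ∈ center R := by
  have hs : s.Prime := Fact.out
  have hVne : V ≠ ⊥ := by
    intro h
    rw [h, Subgroup.card_bot] at hV
    have := hs.one_lt
    nlinarith
  obtain ⟨z, hzV, hzZ, hz1⟩ := Cfsg.Agent.H3.normal_inf_center_ne_bot hR V hVne
  have key : ∀ y ∈ V, (QuotientGroup.mk' (V ⊓ center R)) y ∈ center (R ⧸ (V ⊓ center R)) := by
    set N : Subgroup R := V ⊓ center R with hN
    have hzN : z ∈ N := ⟨hzV, hzZ⟩
    set C : Subgroup R := V ⊓ (center (R ⧸ N)).comap (QuotientGroup.mk' N) with hC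
    have hNC : N ≤ C := by
      intro n hn
      refine ⟨hn.1, ?_⟩
      show (QuotientGroup.mk' N) n ∈ center (R ⧸ N)
      have : (QuotientGroup.mk' N) n = 1 := (QuotientGroup.eq_one_iff n).mpr hn
      rw [this]
      exact one_mem _
    have hCV : C ≤ V := inf_le_left
    have hCeq : C = V := by
      by_contra hne
      have hVbar : V.map (QuotientGroup.mk' N) ≠ ⊥ := by
        intro hbot
        apply hne
        refine le_antisymm hCV ?_
        intro y hy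
        apply hNC
        have h1 : (QuotientGroup.mk' N) y ∈ V.map (QuotientGroup.mk' N) := mem_map_of_mem _ hy
        rw [hbot, mem_bot] at h1
        exact (QuotientGroup.eq_one_iff y).mp h1
      have : (V.map (QuotientGroup.mk' N)).Normal :=
        Subgroup.Normal.map inferInstance _ (QuotientGroup.mk'_surjective N)
      obtain ⟨w', hw'V, hw'Z, hw'1⟩ :=
        Cfsg.Agent.H3.normal_inf_center_ne_bot (hR.to_quotient N) (V.map (QuotientGroup.mk' N)) hVbar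
      obtain ⟨w, hwV, rfl⟩ := hw'V
      have hwC : w ∈ C := ⟨hwV, hw'Z⟩
      have hwN : w ∉ N := fun h => hw'1 ((QuotientGroup.eq_one_iff w).mpr h)
      have hcN : Nat.card N ∣ Nat.card C := Subgroup.card_dvd_of_le hNC
      have hcC : Nat.card C ∣ s ^ 2 := hV ▸ Subgroup.card_dvd_of_le hCV
      have hN1 : Nat.card N ≠ 1 := by
        intro h1
        have := Subgroup.eq_bot_of_card_eq N h1
        rw [this, mem_bot] at hzN
        exact hz1 hzN
      have hNCne : Nat.card C ≠ Nat.card N := by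
        intro h
        have := Subgroup.eq_of_le_of_card_ge hNC (le_of_eq h)
        exact hwN (this ▸ hwC)
      have hCVne : Nat.card C ≠ s ^ 2 := by
        intro h
        exact hne (Subgroup.eq_of_le_of_card_ge hCV (by rw [hV, h]))
      obtain ⟨j, hj, hjC⟩ := (Nat.dvd_prime_pow hs).mp hcC
      rw [hjC] at hcN hNCne hCVne
      obtain ⟨i, hi, hiN⟩ := (Nat.dvd_prime_pow hs).mp hcN
      rw [hiN] at hN1 hNCne
      have hj2 : j ≠ 2 := fun h => hCVne (by rw [h])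
      have hi0 : i ≠ 0 := fun h => hN1 (by rw [h, pow_zero])
      have hij : i ≠ j := fun h => hNCne (by rw [h])
      omega
    intro y hy
    have : y ∈ C := hCeq ▸ hy
    exact this.2
  have hxc := key x hx
  rw [mem_center_iff] at hxc
  have h1 := hxc (QuotientGroup.mk' (V ⊓ center R) t)
  have h2 : (QuotientGroup.mk' (V ⊓ center R)) (x * t * x⁻¹ * t⁻¹) = 1 := by
    simp only [map_mul, map_inv]
    rw [← h1]; group
  have h3 : x * t * x⁻¹ * t⁻¹ ∈ V ⊓ center R := (QuotientGroup.eq_one_iff _).mp h2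
  exact h3.2

theorem pg1_exp_not_cyclic [Finite R] {s : ℕ} [Fact s.Prime] (A : Subgroup R)
    (hAe : ∀ a ∈ A, a ^ s = 1) (hc : IsCyclic A) : Nat.card A ≤ s := by
  have hs : s.Prime := Fact.out
  have h1 : Monoid.exponent A ∣ s :=
    Monoid.exponent_dvd_of_forall_pow_eq_one (fun a => Subtype.ext (by simpa using hAe a a.2))
  rw [IsCyclic.exponent_eq_card] at h1
  exact Nat.le_of_dvd hs.pos h1

theorem pg1_card_W [Finite R] {s : ℕ} [Fact s.Prime] (hs2 : s ≠ 2) (hR : IsPGroup s R)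
    (hr : ¬ PRankLE s 2 R) : s ^ 2 ≤ Nat.card (pg1W s hs2 R) := by
  have hs : s.Prime := Fact.out
  have hnc : ¬ IsCyclic R := by
    intro hcyc
    apply hr
    intro A hAc hAe
    have h1 := pg1_exp_not_cyclic A hAe inferInstance
    nlinarith [hs.one_lt]
  obtain ⟨V, hVn, hVe, hVc⟩ := Cfsg.Agent.S0126.result hs2 hR hnc
  have hVW : V ≤ pg1W s hs2 R := by
    intro x hx
    refine ⟨hVe.2 x hx, fun t => ⟨?_, pg1_comm_mem_center hR V hVc hx t⟩⟩
    have hmem : x * t * x⁻¹ * t⁻¹ ∈ V := by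
      have h1 : t * x⁻¹ * t⁻¹ ∈ V := hVn.conj_mem _ (inv_mem hx) t
      have e : x * t * x⁻¹ * t⁻¹ = x * (t * x⁻¹ * t⁻¹) := by group
      rw [e]; exact mul_mem hx h1
    exact hVe.2 _ hmem
  calc s ^ 2 = Nat.card V := hVc.symm
    _ ≤ _ := Subgroup.card_le_of_le hVW

theorem pg1_key [Finite R] {s : ℕ} [Fact s.Prime] (hs2 : s ≠ 2) (hR : IsPGroup s R)
    (hr : ¬ PRankLE s 2 R) (D : Subgroup R) [D.Normal] (hD : IsElementaryAbelian s D)
    (hD2 : s ^ 2 ≤ Nat.card D) :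
    ∃ A' : Subgroup R, D ≤ A' ∧ IsMulCommutative A' ∧ ¬ PRankLE s 2 ↥A' := by
  by_cases h : s ^ 2 < Nat.card D
  · exact ⟨D, le_rfl, hD.1, Cfsg.Agent.H31.BG8.not_pRankLE_of_le le_rfl hD h⟩
  · have hD2' : Nat.card D = s ^ 2 := by omega
    obtain ⟨A, hDA, hAn, hCA, hAr⟩ := Cfsg.Agent.S1452.result s hs2 hR hr D hD hD2'
    refine ⟨A, hDA, ?_, hAr⟩
    refine IsMulCommutative.of_setLike_mul_comm ?_
    intro a ha b hb
    have ha' : a ∈ centralizer (A : Set R) := by rw [hCA]; exact ha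
    exact ((mem_centralizer_iff.mp ha') b hb).symm

theorem pg1_sup [Finite R] {s : ℕ} [Fact s.Prime] (hs2 : s ≠ 2) (hR : IsPGroup s R)
    (hr : ¬ PRankLE s 2 R) (X : Subgroup R) (hXW : X ≤ pg1W s hs2 R)
    (hXc : IsMulCommutative X) (hcard : s ^ 2 ≤ Nat.card (pg1Z s R ⊔ X : Subgroup R)) :
    ∃ A' : Subgroup R, X ≤ A' ∧ IsMulCommutative A' ∧ ¬ PRankLE s 2 ↥A' := by
  have hZn : (pg1Z s R).Normal := ⟨fun n hn g => by
    have h1 := pg1Z_comm hn g
    have e : g * n * g⁻¹ = n := by rw [h1]; group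
    rw [e]; exact hn⟩
  have hmem : ∀ d ∈ pg1Z s R ⊔ X, ∃ z ∈ pg1Z s R, ∃ v ∈ X, z * v = d :=
    fun d hd => mem_sup_of_normal_left.mp hd
  have hDn : (pg1Z s R ⊔ X).Normal := ⟨fun d hd g => by
    obtain ⟨z, hz, v, hv, rfl⟩ := hmem d hd
    have hz' := pg1Z_comm hz g
    have e : g * (z * v) * g⁻¹ = (z * (v * g * v⁻¹ * g⁻¹)⁻¹) * v := by
      calc g * (z * v) * g⁻¹ = (g * z) * v * g⁻¹ := by group
        _ = z * g * v * g⁻¹ := by rw [hz']
        _ = _ := by group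
    rw [e]
    exact mul_mem (mem_sup_left (mul_mem hz (inv_mem ((hXW hv).2 g)))) (mem_sup_right hv)⟩
  have hDc : IsMulCommutative (pg1Z s R ⊔ X : Subgroup R) := by
    refine IsMulCommutative.of_setLike_mul_comm ?_
    intro a ha b hb
    obtain ⟨z₁, hz₁, v₁, hv₁, rfl⟩ := hmem a ha
    obtain ⟨z₂, hz₂, v₂, hv₂, rfl⟩ := hmem b hb
    have h1 := pg1Z_comm hz₁
    have h2 := pg1Z_comm hz₂
    have hv : v₁ * v₂ = v₂ * v₁ := setLike_mul_comm hv₁ hv₂
    calc z₁ * v₁ * (z₂ * v₂) = z₁ * (v₁ * z₂) * v₂ := by simp only [mul_assoc]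
      _ = z₁ * (z₂ * v₁) * v₂ := by rw [h2 v₁]
      _ = (z₁ * z₂) * (v₁ * v₂) := by simp only [mul_assoc]
      _ = (z₂ * z₁) * (v₂ * v₁) := by rw [hv, h2 z₁]
      _ = z₂ * (z₁ * v₂) * v₁ := by simp only [mul_assoc]
      _ = z₂ * (v₂ * z₁) * v₁ := by rw [← h1 v₂]
      _ = z₂ * v₂ * (z₁ * v₁) := by simp only [mul_assoc]
  have hDe : ∀ d ∈ pg1Z s R ⊔ X, d ^ s = 1 := by
    intro d hd
    obtain ⟨z, hz, v, hv, rfl⟩ := hmem d hd
    have hcomm : Commute z v := (pg1Z_comm hz v).symm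
    rw [hcomm.mul_pow, hz.1, (hXW hv).1, one_mul]
  obtain ⟨A', hDA, hAc, hAr⟩ := pg1_key hs2 hR hr (pg1Z s R ⊔ X) ⟨hDc, hDe⟩ hcard
  exact ⟨A', le_sup_right.trans hDA, hAc, hAr⟩

theorem pg1_card_lt [Finite R] {s : ℕ} [Fact s.Prime] (hR : IsPGroup s R) {H K : Subgroup R}
    (hH : H ≠ ⊥) (hlt : H < K) : s ^ 2 ≤ Nat.card K := by
  have hs : s.Prime := Fact.out
  obtain ⟨n, hn⟩ := IsPGroup.iff_card.mp (hR.to_subgroup K)
  obtain ⟨m, hm⟩ := IsPGroup.iff_card.mp (hR.to_subgroup H)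
  have h1 : Nat.card H < Nat.card K := by
    by_contra hle
    push Not at hle
    exact hlt.ne (Subgroup.eq_of_le_of_card_ge hlt.le hle)
  have hm0 : m ≠ 0 := by
    intro h0
    rw [h0, pow_zero] at hm
    exact hH (Subgroup.eq_bot_of_card_eq H hm)
  rw [hn, hm] at h1
  have hmn : m < n := (Nat.pow_lt_pow_iff_right hs.one_lt).mp h1
  rw [hn]
  exact Nat.pow_le_pow_right hs.pos (by omega)

theorem pg1_Z_ne_bot [Finite R] [Nontrivial R] {s : ℕ} [Fact s.Prime] (hR : IsPGroup s R) :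
    pg1Z s R ≠ ⊥ := by
  have hs : s.Prime := Fact.out
  have : Nontrivial (center R) := hR.center_nontrivial
  obtain ⟨n, hn0, hn⟩ := (hR.to_subgroup (center R)).nontrivial_iff_card.mp inferInstance
  have hdvd : s ∣ Nat.card (center R) := hn ▸ dvd_pow_self _ (ne_of_gt hn0)
  obtain ⟨x, hx⟩ := exists_prime_orderOf_dvd_card' s hdvd
  have hx1 : x ≠ 1 := by
    intro h
    rw [h, orderOf_one] at hx
    exact hs.one_lt.ne hx
  have hxs : x ^ s = 1 := by rw [← hx]; exact pow_orderOf_eq_one x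
  have hmem : (x : R) ∈ pg1Z s R := by
    refine ⟨?_, x.2⟩
    have := congrArg (Subtype.val) hxs
    simpa using this
  intro hbot
  rw [hbot, mem_bot] at hmem
  exact hx1 (Subtype.ext hmem)

theorem pg1_clause4 [Finite R] {s : ℕ} [Fact s.Prime] (hs2 : s ≠ 2) (hR : IsPGroup s R)
    (hr : ¬ PRankLE s 2 R) (u : R) (hu : u ∈ pg1W s hs2 R) (hu1 : u ≠ 1) :
    ∃ A' : Subgroup R, IsMulCommutative A' ∧ ¬ PRankLE s 2 ↥A' ∧
      A' ≤ centralizer ({u} : Set R) := by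
  by_cases hc : u ∈ center R
  · have hr' := hr
    unfold PRankLE at hr'
    push Not at hr'
    obtain ⟨B, hBc, hBe, hBcard⟩ := hr'
    refine ⟨B, hBc, Cfsg.Agent.H31.BG8.not_pRankLE_of_le le_rfl ⟨hBc, hBe⟩ hBcard, ?_⟩
    intro b _
    rw [mem_centralizer_iff]
    intro h hh
    rw [Set.mem_singleton_iff] at hh
    rw [hh]
    exact (mem_center_iff.mp hc b).symm
  · have : Nontrivial R := ⟨⟨u, 1, hu1⟩⟩
    have hX : zpowers u ≤ pg1W s hs2 R := (zpowers_le).mpr hu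
    have hlt : pg1Z s R < pg1Z s R ⊔ zpowers u := by
      refine lt_of_le_of_ne le_sup_left ?_
      intro heq
      have hmem : u ∈ pg1Z s R ⊔ zpowers u := mem_sup_right (mem_zpowers u)
      rw [← heq] at hmem
      exact hc hmem.2
    have hcard : s ^ 2 ≤ Nat.card (pg1Z s R ⊔ zpowers u : Subgroup R) :=
      pg1_card_lt hR (pg1_Z_ne_bot hR) hlt
    obtain ⟨A', hXA, hAc, hAr⟩ := pg1_sup hs2 hR hr (zpowers u) hX inferInstance hcard
    refine ⟨A', hAc, hAr, ?_⟩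
    intro a ha
    rw [mem_centralizer_iff]
    intro h hh
    rw [Set.mem_singleton_iff] at hh
    rw [hh]
    exact setLike_mul_comm (hXA (mem_zpowers u)) ha

theorem pg1_clause5 [Finite R] {s : ℕ} [Fact s.Prime] (hs2 : s ≠ 2) (hR : IsPGroup s R)
    (hr : ¬ PRankLE s 2 R) (U : Subgroup R) (hU : U ≤ pg1W s hs2 R)
    (hU2 : s ^ 2 ≤ Nat.card U) :
    ∃ U₂ : Subgroup R, U₂ ≤ U ∧ ¬ IsCyclic U₂ ∧ ∃ A' : Subgroup R, IsMulCommutative A' ∧
      ¬ PRankLE s 2 ↥A' ∧ A' ≤ centralizer (U₂ : Set R) := by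
  have hs : s.Prime := Fact.out
  obtain ⟨U₂, hU₂U, hU₂c⟩ := Sylow.exists_subgroup_le_card_pow_prime_of_le_card hs hR hU2
  have hexp : ∀ x ∈ U₂, x ^ s = 1 := fun x hx => (hU (hU₂U hx)).1
  have hnc : ¬ IsCyclic U₂ := by
    intro hcyc
    have h1 := pg1_exp_not_cyclic U₂ hexp hcyc
    rw [hU₂c] at h1
    nlinarith [hs.one_lt]
  have hcomm : IsMulCommutative U₂ := IsPGroup.isMulCommutative_of_card_eq_prime_sq hU₂c
  have hcard : s ^ 2 ≤ Nat.card (pg1Z s R ⊔ U₂ : Subgroup R) := by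
    calc s ^ 2 = Nat.card U₂ := hU₂c.symm
      _ ≤ _ := Subgroup.card_le_of_le le_sup_right
  obtain ⟨A', hXA, hAc, hAr⟩ := pg1_sup hs2 hR hr U₂ (hU₂U.trans hU) hcomm hcard
  refine ⟨U₂, hU₂U, hnc, A', hAc, hAr, ?_⟩
  intro a ha
  rw [mem_centralizer_iff]
  intro h hh
  exact setLike_mul_comm (hXA hh) ha

end Core

section Transfer

variable {G : Type u} [Group G]

/-- Conjugation by an element of `N(T)`, as an automorphism of `T`. -/
def pg1Conj (T : Subgroup G) (g : G) (hg : g ∈ normalizer (T : Set G)) : ↥T ≃* ↥T where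
  toFun t := ⟨g * t * g⁻¹, (Subgroup.mem_normalizer_iff.mp hg t).mp t.2⟩
  invFun t := ⟨g⁻¹ * t * g, by
    have := (Subgroup.mem_normalizer_iff.mp (inv_mem hg) t).mp t.2
    simpa using this⟩
  left_inv t := by ext; simp [mul_assoc]
  right_inv t := by ext; simp [mul_assoc]
  map_mul' a b := by ext; simp [mul_assoc]

theorem pg1_transfer {s : ℕ} {T : Subgroup G} {A' : Subgroup ↥T} (hc : IsMulCommutative A')
    (hr : ¬ PRankLE s 2 ↥A') :
    A'.map T.subtype ≤ T ∧ IsMulCommutative (A'.map T.subtype) ∧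
      ¬ PRankLE s 2 ↥(A'.map T.subtype) := by
  refine ⟨map_subtype_le _, inferInstance, ?_⟩
  obtain ⟨B, hBA, hBc, hBe, hBcard⟩ := Cfsg.Agent.H31.T2.exists_elementary_of_not_pRankLE hr
  refine Cfsg.Agent.H31.BG8.not_pRankLE_of_le (Subgroup.map_mono hBA) ⟨?_, ?_⟩ ?_
  · refine IsMulCommutative.of_setLike_mul_comm ?_
    rintro _ ⟨a, ha, rfl⟩ _ ⟨b, hb, rfl⟩
    rw [← map_mul, ← map_mul, hBc a ha b hb]
  · rintro _ ⟨a, ha, rfl⟩
    rw [← map_pow, hBe a ha, map_one]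
  · rw [Subgroup.card_subtype]; exact hBcard

theorem exists_W [Finite G] {s : ℕ} [Fact s.Prime] (hs2 : s ≠ 2) {T : Subgroup G}
    (hT : IsPGroup s T) (hTr : ¬ PRankLE s 2 ↥T) :
    ∃ W : Subgroup G, W ≤ T ∧ normalizer (T : Set G) ≤ normalizer (W : Set G) ∧
      s ^ 2 ≤ Nat.card W ∧
      (∀ u ∈ W, u ≠ 1 → ∃ A' : Subgroup G, A' ≤ T ∧ IsMulCommutative A' ∧ ¬ PRankLE s 2 ↥A' ∧
          A' ≤ centralizer ({u} : Set G)) ∧
      (∀ U : Subgroup G, U ≤ W → s ^ 2 ≤ Nat.card U →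
        ∃ U₂ : Subgroup G, U₂ ≤ U ∧ ¬ IsCyclic U₂ ∧
          ∃ A' : Subgroup G, A' ≤ T ∧ IsMulCommutative A' ∧ ¬ PRankLE s 2 ↥A' ∧
            A' ≤ centralizer (U₂ : Set G)) := by
  refine ⟨(pg1W s hs2 ↥T).map T.subtype, map_subtype_le _, ?_, ?_, ?_, ?_⟩
  · have key : ∀ g ∈ normalizer (T : Set G), ∀ x ∈ (pg1W s hs2 ↥T).map T.subtype,
        g * x * g⁻¹ ∈ (pg1W s hs2 ↥T).map T.subtype := by
      rintro g hg _ ⟨w, hw, rfl⟩
      exact ⟨pg1Conj T g hg w, pg1W_map hs2 (pg1Conj T g hg) hw, rfl⟩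
    intro g hg
    rw [Subgroup.mem_normalizer_iff]
    intro x
    refine ⟨key g hg x, fun hx => ?_⟩
    have h1 := key g⁻¹ (inv_mem hg) _ hx
    simpa [mul_assoc] using h1
  · rw [Subgroup.card_subtype]
    exact pg1_card_W hs2 hT hTr
  · rintro _ ⟨u, hu, rfl⟩ hu1
    have hu1' : u ≠ 1 := fun h => hu1 (by rw [h]; rfl)
    obtain ⟨A', hAc, hAr, hAu⟩ := pg1_clause4 hs2 hT hTr u hu hu1'
    obtain ⟨h1, h2, h3⟩ := pg1_transfer hAc hAr
    refine ⟨A'.map T.subtype, h1, h2, h3, ?_⟩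
    rintro _ ⟨a, ha, rfl⟩
    rw [mem_centralizer_iff]
    intro h hh
    rw [Set.mem_singleton_iff] at hh
    rw [hh]
    have e1 := (mem_centralizer_iff.mp (hAu ha)) u (Set.mem_singleton u)
    have e2 := congrArg T.subtype e1
    simpa using e2
  · intro U hUW hU2
    have hUT : U ≤ T := hUW.trans (map_subtype_le _)
    have hU' : U.subgroupOf T ≤ pg1W s hs2 ↥T := by
      intro x hx
      obtain ⟨w, hw, hwx⟩ := hUW (mem_subgroupOf.mp hx)
      have e : w = x := Subtype.ext hwx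
      rw [← e]; exact hw
    have hcard : Nat.card (U.subgroupOf T) = Nat.card U :=
      Nat.card_congr (Subgroup.subgroupOfEquivOfLe hUT).toEquiv
    obtain ⟨U₂, hU₂U, hnc, A', hAc, hAr, hAU⟩ :=
      pg1_clause5 hs2 hT hTr (U.subgroupOf T) hU' (by rw [hcard]; exact hU2)
    obtain ⟨h1, h2, h3⟩ := pg1_transfer hAc hAr
    refine ⟨U₂.map T.subtype, ?_, ?_, A'.map T.subtype, h1, h2, h3, ?_⟩
    · rintro _ ⟨x, hx, rfl⟩
      exact mem_subgroupOf.mp (hU₂U hx)
    · intro hcyc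
      apply hnc
      exact (MulEquiv.isCyclic (U₂.equivMapOfInjective T.subtype T.subtype_injective)).mpr hcyc
    · rintro _ ⟨a, ha, rfl⟩
      rw [mem_centralizer_iff]
      rintro _ ⟨x, hx, rfl⟩
      have e1 := (mem_centralizer_iff.mp (hAU ha)) x hx
      have e2 := congrArg T.subtype e1
      simpa using e2

end Transfer

end Cfsg.Agent.H40.BG95
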