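import Mathlib
import Cfsg.Agent.S3977

/-!
# Piece S3912-QS2G: a noncyclic 2-group with a unique involution whose elements of order 4
generate a subgroup with all squares in `{1, z}` has order 8
-/

set_option autoImplicit false

namespace Cfsg.Agent.H40.BQ

section
variable {P : Type*} [Group P]

/-- The working hypotheses: `z` a central involution, `N` a subgroup whose elements are `1`, `z`
or square roots of `z`, containing all square roots of `z`. -/
structure QCfg (z : P) (N : Subgroup P) : Prop where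
  z1 : z ≠ 1
  zz : z * z = 1
  zc : ∀ g : P, g * z = z * g
  k0 : ∀ x ∈ N, x = 1 ∨ x = z ∨ x ^ 2 = z
  k1 : ∀ x : P, x ^ 2 = z → x ∈ N
  zN : z ∈ N
  s1 : ∀ x : P, x ^ 2 = 1 → x = 1 ∨ x = z

variable {z : P} {N : Subgroup P}

theorem QCfg.inv_eq (h : QCfg z N) {x : P} (hx : x ^ 2 = z) : x⁻¹ = x * z := by
  apply inv_eq_of_mul_eq_one_right
  calc x * (x * z) = x ^ 2 * z := by rw [pow_two, mul_assoc]
    _ = 1 := by rw [hx, h.zz]

theorem QCfg.anti (h : QCfg z N) {u v : P} (hu : u ^ 2 = z) (hv : v ^ 2 = z) (h1 : v ≠ u)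
    (h2 : v ≠ u * z) : (u * v) ^ 2 = z ∧ v * u = u * v * z := by
  have huN := h.k1 u hu
  have hvN := h.k1 v hv
  have huv : (u * v) ^ 2 = z := by
    rcases h.k0 (u * v) (N.mul_mem huN hvN) with h3 | h3 | h3
    · exfalso; apply h2
      have h4 : v = u⁻¹ := eq_inv_of_mul_eq_one_right h3
      rw [h4, h.inv_eq hu]
    · exfalso; apply h1
      have h4 : v = u⁻¹ * z := by rw [← h3]; group
      rw [h4, h.inv_eq hu, mul_assoc, h.zz, mul_one]
    · exact h3
  refine ⟨huv, ?_⟩
  have h4 : v * u * (u * v) = 1 := by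
    calc v * u * (u * v) = v * u ^ 2 * v := by rw [pow_two]; simp only [mul_assoc]
      _ = v * z * v := by rw [hu]
      _ = z * v ^ 2 := by rw [h.zc v, pow_two, mul_assoc]
      _ = 1 := by rw [hv, h.zz]
  have h5 : v * u = (u * v)⁻¹ := eq_inv_of_mul_eq_one_left h4
  rw [h5, h.inv_eq huv]

theorem QCfg.small (h : QCfg z N) {u v : P} (hu : u ^ 2 = z) (hv : v ^ 2 = z) (h1 : v ≠ u)
    (h2 : v ≠ u * z) (w : P) (hw : w ∈ N) :
    w = 1 ∨ w = z ∨ w = u ∨ w = u * z ∨ w = v ∨ w = v * z ∨ w = u * v ∨ w = u * v * z := by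
  by_contra hcon
  push Not at hcon
  obtain ⟨n1, n2, n3, n4, n5, n6, n7, n8⟩ := hcon
  have hw2 : w ^ 2 = z := by
    rcases h.k0 w hw with h3 | h3 | h3
    · exact absurd h3 n1
    · exact absurd h3 n2
    · exact h3
  obtain ⟨huv, -⟩ := h.anti hu hv h1 h2
  have e1 := (h.anti hu hw2 n3 n4).2
  have e2 := (h.anti hv hw2 n5 n6).2
  have e3 := (h.anti huv hw2 n7 n8).2
  have e4 : w * (u * v) = u * v * w := by
    calc w * (u * v) = (w * u) * v := by rw [mul_assoc]
      _ = u * w * (z * v) := by rw [e1]; simp only [mul_assoc]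
      _ = u * w * (v * z) := by rw [h.zc v]
      _ = u * (w * v) * z := by simp only [mul_assoc]
      _ = u * (v * w * z) * z := by rw [e2]
      _ = u * v * w * (z * z) := by simp only [mul_assoc]
      _ = u * v * w := by rw [h.zz, mul_one]
  rw [e4] at e3
  exact h.z1 (mul_eq_left.mp e3.symm)

theorem QCfg.exists_other (h : QCfg z N) [Finite P] (hP : IsPGroup 2 P) (hnc : ¬ IsCyclic P)
    (huniq : ∀ x : P, orderOf x = 2 → x = z) (hord : ∀ x : P, orderOf x = 4 → x ^ 2 = z)
    (hord4 : ∀ x : P, x ^ 2 = z → orderOf x = 4)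
    (u : P) (hu : u ^ 2 = z) : ∃ v, v ^ 2 = z ∧ v ≠ u ∧ v ≠ u * z := by
  by_contra hcon
  push Not at hcon
  have hu4 : orderOf u = 4 := hord4 u hu
  apply hnc
  obtain ⟨m, hm⟩ := IsPGroup.iff_card.mp hP
  by_cases hm2 : 2 < m
  · refine Cfsg.Agent.S3977.result 2 m 2 Nat.prime_two hm (by norm_num) hm2 (Or.inr le_rfl) ?_
    have key : ∀ H : Subgroup P, Nat.card H = 2 ^ 2 → H = Subgroup.zpowers u := by
      intro H hH
      have hex : ∃ x ∈ H, orderOf x = 4 := by
        by_contra hno
        push Not at hno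
        have hsub : ∀ x ∈ H, x = 1 ∨ x = z := by
          intro x hx
          have hdvd : orderOf x ∣ 4 := by
            have h1 := orderOf_dvd_natCard (⟨x, hx⟩ : H)
            rw [Subgroup.orderOf_mk, hH] at h1
            exact h1
          have h3 : orderOf x = 1 ∨ orderOf x = 2 ∨ orderOf x = 4 := by
            have h4 : orderOf x ∈ Nat.divisors 4 := Nat.mem_divisors.mpr ⟨hdvd, by norm_num⟩
            have h5 : Nat.divisors 4 = {1, 2, 4} := by decide
            rw [h5] at h4
            simpa using h4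
          rcases h3 with h1 | h2 | h4
          · left; exact orderOf_eq_one_iff.mp h1
          · right; exact huniq x h2
          · exact absurd h4 (hno x hx)
        have hss : (H : Set P) ⊆ {1, z} := by
          intro x hx
          rcases hsub x hx with h1 | h1 <;> simp [h1]
        have hle : Nat.card H ≤ 2 := by
          calc Nat.card H = (H : Set P).ncard := rfl
            _ ≤ ({1, z} : Set P).ncard := Set.ncard_le_ncard hss (Set.toFinite _)
            _ ≤ ({z} : Set P).ncard + 1 := Set.ncard_insert_le _ _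
            _ = 2 := by rw [Set.ncard_singleton]
        rw [hH] at hle
        norm_num at hle
      obtain ⟨x, hx, hx4⟩ := hex
      have hxz := hord x hx4
      have hx' : x = u ∨ x = u * z := by
        by_cases hxu : x = u
        · left; exact hxu
        · right; exact hcon x hxz hxu
      have hzp : Subgroup.zpowers x = Subgroup.zpowers u := by
        rcases hx' with rfl | rfl
        · rfl
        · rw [← h.inv_eq hu, Subgroup.zpowers_inv]
      rw [← hzp]
      symm
      apply Subgroup.eq_of_le_of_card_ge (Subgroup.zpowers_le.mpr hx)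
      rw [hH, Nat.card_zpowers, hx4]
      norm_num
    intro H K hH hK
    rw [key H hH, key K hK]
  · have hdvd : orderOf u ∣ Nat.card P := orderOf_dvd_natCard u
    rw [hu4, hm] at hdvd
    have hm' : m = 2 := by
      have hmle : m ≤ 2 := by omega
      interval_cases m
      · norm_num at hdvd
      · norm_num at hdvd
      · rfl
    exact isCyclic_of_orderOf_eq_card u (by rw [hu4, hm, hm']; norm_num)

theorem QCfg.eq_top (h : QCfg z N) [N.Normal] (hP : IsPGroup 2 P)
    (hK5 : ∀ u : P, u ^ 2 = z → ∃ v, v ^ 2 = z ∧ v ≠ u ∧ v ≠ u * z) : N = ⊤ := by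
  classical
  by_contra hne
  obtain ⟨g, hg⟩ : ∃ g, g ∉ N := by
    by_contra hh
    push Not at hh
    exact hne (eq_top_iff.mpr fun x _ => hh x)
  obtain ⟨n, hn⟩ := hP g
  have hex : ∃ k, g ^ 2 ^ k ∈ N := ⟨n, by rw [hn]; exact N.one_mem⟩
  have hkN : g ^ 2 ^ Nat.find hex ∈ N := Nat.find_spec hex
  have hk0 : Nat.find hex ≠ 0 := by
    intro h0
    rw [h0, pow_zero, pow_one] at hkN
    exact hg hkN
  obtain ⟨j, hj⟩ := Nat.exists_eq_succ_of_ne_zero hk0
  have hjN : g ^ 2 ^ j ∉ N := Nat.find_min hex (by omega)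
  obtain ⟨w, hwdef⟩ : ∃ w, w = g ^ 2 ^ j := ⟨_, rfl⟩
  have hwN : w ∉ N := hwdef ▸ hjN
  have hw2N : w ^ 2 ∈ N := by
    rw [hwdef, ← pow_mul, ← pow_succ, ← Nat.succ_eq_add_one, ← hj]
    exact hkN
  obtain ⟨a, hadef⟩ : ∃ a, a = w ^ 2 := ⟨_, rfl⟩
  have haN : a ∈ N := hadef ▸ hw2N
  have ha : a ^ 2 = z := by
    rcases h.k0 a haN with h3 | h3 | h3
    · exfalso
      rw [hadef] at h3
      rcases h.s1 w h3 with h4 | h4
      · exact hwN (h4 ▸ N.one_mem)
      · exact hwN (h4 ▸ h.zN)
    · exfalso
      rw [hadef] at h3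
      exact hwN (h.k1 w h3)
    · exact h3
  have hwa : w * a = a * w := by rw [hadef, pow_two, mul_assoc]
  obtain ⟨b, hb, hba, hbaz⟩ := hK5 a ha
  obtain ⟨hab, hcomm⟩ := h.anti ha hb hba hbaz
  have hbN := h.k1 b hb
  have hcN : w * b * w⁻¹ ∈ N := Subgroup.Normal.conj_mem inferInstance b hbN w
  -- cancellation helper: `w * b = C * w` with `C` commuting with `w` gives `b = C`
  have hcancel : ∀ C : P, w * C = C * w → w * b * w⁻¹ = C → b = C := by
    intro C hC hc
    have h3 : w * b = w * C := by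
      rw [hC, ← hc]; group
    exact mul_left_cancel h3
  have hne' : a * b ≠ b * a := by
    intro h3
    rw [hcomm] at h3
    exact h.z1 (mul_eq_left.mp h3.symm)
  have hwbN : w * b ∉ N := by
    intro h3
    apply hwN
    have h4 : w = w * b * b⁻¹ := by group
    rw [h4]
    exact N.mul_mem h3 (N.inv_mem hbN)
  rcases h.small ha hb hba hbaz _ hcN with c1 | c1 | c1 | c1 | c1 | c1 | c1 | c1
  · have h3 := hcancel 1 (by rw [mul_one, one_mul]) c1
    rw [h3, one_pow] at hb
    exact h.z1 hb.symm
  · have h3 := hcancel z (h.zc w) c1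
    rw [h3, pow_two, h.zz] at hb
    exact h.z1 hb.symm
  · exact hba (hcancel a hwa c1)
  · refine hbaz (hcancel (a * z) ?_ c1)
    rw [← mul_assoc, hwa, mul_assoc, h.zc w, ← mul_assoc]
  · -- `w b w⁻¹ = b`
    have h3 : w * b = b * w := by
      calc w * b = w * b * w⁻¹ * w := by group
        _ = b * w := by rw [c1]
    apply hne'
    calc a * b = w * (w * b) := by rw [hadef, pow_two, mul_assoc]
      _ = (w * b) * w := by rw [h3, ← mul_assoc, h3]
      _ = b * a := by rw [h3, hadef, pow_two, mul_assoc]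
  · -- `w b w⁻¹ = b z`
    have h3 : w * b = b * w * z := by
      calc w * b = w * b * w⁻¹ * w := by group
        _ = b * z * w := by rw [c1]
        _ = b * w * z := by rw [mul_assoc, ← h.zc w, ← mul_assoc]
    apply hne'
    calc a * b = w * (w * b) := by rw [hadef, pow_two, mul_assoc]
      _ = w * (b * w * z) := by rw [h3]
      _ = (w * b) * w * z := by simp only [mul_assoc]
      _ = (b * w * z) * w * z := by rw [h3]
      _ = b * w * (z * w) * z := by simp only [mul_assoc]
      _ = b * w * (w * z) * z := by rw [h.zc w]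
      _ = b * (w * w) * (z * z) := by simp only [mul_assoc]
      _ = b * a := by rw [h.zz, mul_one, hadef, pow_two]
  · -- `w b w⁻¹ = a b`
    have h3 : w * b = a * b * w := by
      calc w * b = w * b * w⁻¹ * w := by group
        _ = a * b * w := by rw [c1]
    have h4 : (w * b) ^ 2 = z := by
      calc (w * b) ^ 2 = (w * b) * (w * b) := pow_two _
        _ = a * b * w * (w * b) := by rw [h3]
        _ = a * b * (w * w) * b := by simp only [mul_assoc]
        _ = (a * b) ^ 2 := by rw [← pow_two w, ← hadef, pow_two]; simp only [mul_assoc]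
        _ = z := hab
    exact hwbN (h.k1 _ h4)
  · -- `w b w⁻¹ = a b z`
    have h3 : w * b = a * b * z * w := by
      calc w * b = w * b * w⁻¹ * w := by group
        _ = a * b * z * w := by rw [c1]
    have h4 : (w * b) ^ 2 = 1 := by
      calc (w * b) ^ 2 = (w * b) * (w * b) := pow_two _
        _ = a * b * z * w * (w * b) := by rw [h3]
        _ = a * b * (z * (w * w)) * b := by simp only [mul_assoc]
        _ = a * b * ((w * w) * z) * b := by rw [h.zc (w * w)]
        _ = a * b * a * (z * b) := by rw [← pow_two w, ← hadef]; simp only [mul_assoc]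
        _ = a * b * a * (b * z) := by rw [h.zc b]
        _ = (a * b) ^ 2 * z := by rw [pow_two]; simp only [mul_assoc]
        _ = 1 := by rw [hab, h.zz]
    rcases h.s1 _ h4 with h5 | h5
    · exact hwbN (h5 ▸ N.one_mem)
    · exact hwbN (h5 ▸ h.zN)

end

theorem card_eq_eight_of_sq {P : Type*} [Group P] [Finite P] (hP : IsPGroup 2 P) (z : P)
    (hz : orderOf z = 2) (huniq : ∀ x : P, orderOf x = 2 → x = z) (hnc : ¬ IsCyclic P)
    (N : Subgroup P) [N.Normal] (hN4 : ∃ x ∈ N, orderOf x = 4)
    (hsq : ∀ x ∈ N, x ^ 2 = 1 ∨ x ^ 2 = z) (hall : ∀ x : P, orderOf x = 4 → x ∈ N) :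
    Nat.card P = 8 := by
  have hz1 : z ≠ 1 := by
    intro h
    rw [h, orderOf_one] at hz
    norm_num at hz
  have hzz : z * z = 1 := by
    rw [← pow_two, ← hz]; exact pow_orderOf_eq_one z
  have hzc : ∀ g : P, g * z = z * g := by
    intro g
    have h1 : orderOf (g * z * g⁻¹) = 2 := by
      have h2 := (MulAut.conj g).orderOf_eq z
      rw [MulAut.conj_apply] at h2
      rw [h2, hz]
    have h2 := huniq _ h1
    calc g * z = g * z * g⁻¹ * g := by group
      _ = z * g := by rw [h2]
  have hs1 : ∀ x : P, x ^ 2 = 1 → x = 1 ∨ x = z := by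
    intro x hx
    have hdvd : orderOf x ∣ 2 := orderOf_dvd_of_pow_eq_one hx
    rcases (Nat.dvd_prime Nat.prime_two).mp hdvd with h1 | h2
    · left; exact orderOf_eq_one_iff.mp h1
    · right; exact huniq x h2
  have hord4 : ∀ x : P, x ^ 2 = z → orderOf x = 4 := by
    intro x hx
    have h1 := orderOf_eq_prime_pow (p := 2) (n := 1) (x := x)
      (by rw [pow_one, hx]; exact hz1)
      (by rw [show 2 ^ (1 + 1) = 2 * 2 from rfl, pow_mul, hx, pow_two, hzz])
    simpa using h1
  have hord : ∀ x : P, orderOf x = 4 → x ^ 2 = z := by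
    intro x hx
    rcases hsq x (hall x hx) with h | h
    · exfalso
      have hdvd : orderOf x ∣ 2 := orderOf_dvd_of_pow_eq_one h
      rw [hx] at hdvd
      norm_num at hdvd
    · exact h
  obtain ⟨u, huN, hu4⟩ := hN4
  have hu := hord u hu4
  have hzN : z ∈ N := by rw [← hu]; exact N.pow_mem huN 2
  have hcfg : QCfg z N :=
    { z1 := hz1
      zz := hzz
      zc := hzc
      k0 := by
        intro x hx
        rcases hsq x hx with h | h
        · rcases hs1 x h with h1 | h1
          · exact Or.inl h1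
          · exact Or.inr (Or.inl h1)
        · exact Or.inr (Or.inr h)
      k1 := fun x hx => hall x (hord4 x hx)
      zN := hzN
      s1 := hs1 }
  have hK5 := hcfg.exists_other hP hnc huniq hord hord4
  have htop := hcfg.eq_top hP hK5
  obtain ⟨v, hv, hvu, hvuz⟩ := hK5 u hu
  have hle : Nat.card P ≤ 8 := by
    have hsurj : Function.Surjective
        (![1, z, u, u * z, v, v * z, u * v, u * v * z] : Fin 8 → P) := by
      intro x
      have hx : x ∈ N := by rw [htop]; trivial
      rcases hcfg.small hu hv hvu hvuz x hx with h | h | h | h | h | h | h | h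
      · exact ⟨0, h.symm⟩
      · exact ⟨1, h.symm⟩
      · exact ⟨2, h.symm⟩
      · exact ⟨3, h.symm⟩
      · exact ⟨4, h.symm⟩
      · exact ⟨5, h.symm⟩
      · exact ⟨6, h.symm⟩
      · exact ⟨7, h.symm⟩
    have h1 := Nat.card_le_card_of_surjective _ hsurj
    simpa using h1
  obtain ⟨m, hm⟩ := IsPGroup.iff_card.mp hP
  have hm3 : m ≤ 3 := by
    by_contra hcon
    have h1 : 2 ^ 4 ≤ 2 ^ m := Nat.pow_le_pow_right (by norm_num) (by omega)
    rw [hm] at hle
    omega
  have hdvd : orderOf u ∣ Nat.card P := orderOf_dvd_natCard u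
  rw [hu4, hm] at hdvd
  interval_cases m
  · norm_num at hdvd
  · norm_num at hdvd
  · exfalso
    exact hnc (isCyclic_of_orderOf_eq_card u (by rw [hu4, hm]; norm_num))
  · rw [hm]; norm_num

end Cfsg.Agent.H40.BQ
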