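import Mathlib
import Cfsg.Agent.H39.PConstr
import Cfsg.Agent.H39.CoreOf
import Cfsg.Agent.H40.KInfE
import Cfsg.Agent.H40.StrEmb

set_option autoImplicit false

namespace Cfsg.Agent.H40.CrMin

open Cfsg Cfsg.Agent.H39 Cfsg.Agent.H40 Cfsg.Agent.H40.KInf
open scoped commutatorElement Pointwise

local notation "cj(" g ", " Q ")" => Subgroup.map (MulEquiv.toMonoidHom (MulAut.conj g)) Q
local notation "N(" Q ")" => Subgroup.normalizer (SetLike.coe (Q : Subgroup _))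
local notation "C(" Q ")" => Subgroup.centralizer (SetLike.coe (Q : Subgroup _))

variable {G : Type*} [Group G]

/-- `N(Q)` controls strong fusion in `P`, elementwise form. -/
def Ctl (P Q : Subgroup G) : Prop :=
  ∀ A : Subgroup G, A ≤ P → ∀ g : G, cj(g, A) ≤ P → ∃ h ∈ N(Q), ∃ c ∈ C(A), g = h * c

/-- The centric-radical condition of S1953. -/
def CR (p : ℕ) (P Q : Subgroup G) : Prop :=
  Q ≤ P ∧
  (∃ R : Sylow p ↥(Subgroup.centralizer (Q : Set G)),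
    (R : Subgroup ↥(Subgroup.centralizer (Q : Set G))).map
      (Subgroup.centralizer (Q : Set G)).subtype = Q ⊓ Subgroup.centralizer (Q : Set G)) ∧
  ∀ X : Subgroup G, X ≤ Subgroup.normalizer (Q : Set G) →
    (∀ n ∈ Subgroup.normalizer (Q : Set G), X.map (MulAut.conj n).toMonoidHom = X) →
    Q ⊔ Subgroup.centralizer (Q : Set G) ≤ X →
    (∃ k : ℕ, (Q ⊔ Subgroup.centralizer (Q : Set G)).relIndex X = p ^ k) →
    X = Q ⊔ Subgroup.centralizer (Q : Set G)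

theorem conj_centralizer_eq {A : Subgroup G} {h c : G} (hc : c ∈ C(A)) {a : G} (ha : a ∈ A) :
    h * c * a * (h * c)⁻¹ = h * a * h⁻¹ := by
  have e : a * c = c * a := (Subgroup.mem_centralizer_iff.mp hc) a ha
  calc h * c * a * (h * c)⁻¹ = h * (c * a) * c⁻¹ * h⁻¹ := by group
    _ = h * (a * c) * c⁻¹ * h⁻¹ := by rw [e]
    _ = h * a * h⁻¹ := by group

theorem conjMap_mul_centralizer {A : Subgroup G} {h c : G} (hc : c ∈ C(A)) :
    cj(h * c, A) = cj(h, A) := by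
  ext x
  constructor
  · rintro ⟨a, ha, rfl⟩
    refine ⟨a, ha, ?_⟩
    simp only [MulEquiv.coe_toMonoidHom, MulAut.conj_apply]
    exact (conj_centralizer_eq hc ha).symm
  · rintro ⟨a, ha, rfl⟩
    refine ⟨a, ha, ?_⟩
    simp only [MulEquiv.coe_toMonoidHom, MulAut.conj_apply]
    exact conj_centralizer_eq hc ha

theorem Ctl.le_normalizer {P Q : Subgroup G} (h : Ctl P Q) (hQ : Q ≤ P) : P ≤ N(Q) := by
  intro x hx
  obtain ⟨h, hh, c, hc, rfl⟩ := h P le_rfl x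
    (conjMap_le_iff.mpr fun q hq => mul_mem (mul_mem hx hq) (inv_mem hx))
  exact mul_mem hh (Subgroup.centralizer_le_normalizer _ (Subgroup.centralizer_le hQ hc))

theorem Ctl.sup [Finite G] {P Q₁ Q₂ : Subgroup G} (h1 : Ctl P Q₁) (h2 : Ctl P Q₂) (hQ1 : Q₁ ≤ P) :
    Ctl P (Q₁ ⊔ Q₂) := by
  intro A hA g hg
  obtain ⟨h₁, hh₁, c₁, hc₁, rfl⟩ := h1 A hA g hg
  rw [conjMap_mul_centralizer hc₁] at hg
  have hg' : cj(h₁, A ⊔ Q₁) ≤ P := by
    rw [Subgroup.map_sup]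
    exact sup_le hg (by rw [conjMap_of_mem_normalizer hh₁]; exact hQ1)
  obtain ⟨h₂, hh₂, c₂, hc₂, e⟩ := h2 (A ⊔ Q₁) (sup_le hA hQ1) h₁ hg'
  subst e
  have hc₂Q : c₂ ∈ N(Q₁) :=
    Subgroup.centralizer_le_normalizer _ (Subgroup.centralizer_le (SetLike.coe_subset_coe.mpr le_sup_right) hc₂)
  have hh₂Q : h₂ ∈ N(Q₁) := by
    have := mul_mem hh₁ (inv_mem hc₂Q)
    simpa using this
  refine ⟨h₂, ?_, c₂ * c₁, ?_, by group⟩
  · apply mem_normalizer_of_conjMap_le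
    rw [Subgroup.map_sup, conjMap_of_mem_normalizer hh₂Q, conjMap_of_mem_normalizer hh₂]
  · exact mul_mem (Subgroup.centralizer_le (SetLike.coe_subset_coe.mpr le_sup_left) hc₂) hc₁

theorem exists_max_ctl [Finite G] {P W : Subgroup G} (hW : Ctl P W) (hWP : W ≤ P) :
    ∃ Q : Subgroup G, W ≤ Q ∧ Q ≤ P ∧ Ctl P Q ∧ ∀ Q' : Subgroup G, Q' ≤ P → Ctl P Q' → Q' ≤ Q := by
  obtain ⟨Q, hWQ, ⟨h1, h2⟩, hmax⟩ := Finite.exists_le_maximal
    (p := fun H : Subgroup G => H ≤ P ∧ Ctl P H) (a := W) ⟨hWP, hW⟩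
  refine ⟨Q, hWQ, h1, h2, fun Q' hQ' hc => ?_⟩
  have := hmax (y := Q ⊔ Q') ⟨sup_le h1 hQ', h2.sup hc h1⟩ le_sup_left
  exact le_sup_right.trans this

/-- Centricity: if `Z(R)` is a Sylow `p`-subgroup of `C(R)` and `R ≤ P` with `P` a `p`-group, then
`C_P(R) ≤ R`. -/
theorem inf_centralizer_le_of_sylow {p : ℕ} {P R : Subgroup G} (hP : IsPGroup p P) (hRP : R ≤ P)
    (hR : ∃ R₀ : Sylow p ↥(Subgroup.centralizer (R : Set G)),
      (R₀ : Subgroup ↥(Subgroup.centralizer (R : Set G))).map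
        (Subgroup.centralizer (R : Set G)).subtype = R ⊓ Subgroup.centralizer (R : Set G)) :
    P ⊓ C(R) ≤ R := by
  obtain ⟨R₀, hR₀⟩ := hR
  have hD : IsPGroup p ((P ⊓ C(R)).subgroupOf C(R)) :=
    (hP.to_le inf_le_left).comap_of_injective _ (Subgroup.subtype_injective _)
  have hle : (R₀ : Subgroup ↥(C(R))) ≤ (P ⊓ C(R)).subgroupOf C(R) := by
    intro x hx
    rw [Subgroup.mem_subgroupOf]
    have : (x : G) ∈ R ⊓ C(R) := by
      rw [← hR₀]; exact ⟨x, hx, rfl⟩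
    exact ⟨hRP this.1, this.2⟩
  have heq := R₀.is_maximal' hD hle
  intro x hx
  have h1 : (⟨x, hx.2⟩ : ↥(C(R))) ∈ (P ⊓ C(R)).subgroupOf C(R) := by
    rw [Subgroup.mem_subgroupOf]; exact hx
  rw [heq] at h1
  have h2 : x ∈ R ⊓ C(R) := by
    rw [← hR₀]; exact ⟨⟨x, hx.2⟩, h1, rfl⟩
  exact h2.1

/-- Decomposition of an element into commuting `p`- and `p'`-parts. -/
theorem exists_p_decomp [Finite G] (p : ℕ) [hp : Fact p.Prime] (x : G) :
    ∃ y z : G, x = y * z ∧ y ∈ Subgroup.zpowers x ∧ z ∈ Subgroup.zpowers x ∧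
      (∃ j : ℕ, y ^ p ^ j = 1) ∧ (orderOf z).Coprime p := by
  obtain ⟨a, m, hm, heq⟩ := Nat.exists_eq_pow_mul_and_not_dvd (orderOf_pos x).ne' p hp.out.ne_one
  have hcop : Nat.Coprime (p ^ a) m :=
    Nat.Coprime.pow_left a ((Nat.Prime.coprime_iff_not_dvd hp.out).mpr hm)
  have hb := Nat.Coprime.isCoprime hcop
  obtain ⟨u, v, huv⟩ := hb
  -- u * p^a + v * m = 1
  refine ⟨x ^ (v * (m : ℤ)), x ^ (u * ((p ^ a : ℕ) : ℤ)), ?_, ⟨_, rfl⟩, ⟨_, rfl⟩, ⟨a, ?_⟩, ?_⟩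
  · rw [← zpow_add, add_comm, huv, zpow_one]
  · rw [← zpow_natCast, ← zpow_mul]
    have : v * (m : ℤ) * ((p ^ a : ℕ) : ℤ) = ((orderOf x : ℕ) : ℤ) * v := by
      rw [heq]; push_cast; ring
    rw [this, zpow_mul, zpow_natCast, pow_orderOf_eq_one, one_zpow]
  · have h1 : (x ^ (u * ((p ^ a : ℕ) : ℤ))) ^ m = 1 := by
      rw [← zpow_natCast, ← zpow_mul]
      have : u * ((p ^ a : ℕ) : ℤ) * (m : ℤ) = ((orderOf x : ℕ) : ℤ) * u := by
        rw [heq]; push_cast; ring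
      rw [this, zpow_mul, zpow_natCast, pow_orderOf_eq_one, one_zpow]
    have h2 : orderOf (x ^ (u * ((p ^ a : ℕ) : ℤ))) ∣ m := orderOf_dvd_of_pow_eq_one h1
    exact Nat.Coprime.coprime_dvd_left h2
      (Nat.Coprime.symm ((Nat.Prime.coprime_iff_not_dvd hp.out).mpr hm))

theorem isPGroup_zpowers_of_pow {p : ℕ} {y : G} {j : ℕ} (hy : y ^ p ^ j = 1) :
    IsPGroup p (Subgroup.zpowers y) := by
  rintro ⟨g, hg⟩
  obtain ⟨k, rfl⟩ := Subgroup.mem_zpowers_iff.mp hg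
  refine ⟨j, Subtype.ext ?_⟩
  simp only [Subgroup.coe_pow, Subgroup.coe_one]
  rw [← zpow_natCast, ← zpow_mul, mul_comm, zpow_mul, zpow_natCast, hy, one_zpow]

theorem mem_mul_of_mem_sup_left {H K : Subgroup G} (hLE : H ≤ N(K)) {y : G} (hy : y ∈ H ⊔ K) :
    ∃ h ∈ H, ∃ k ∈ K, y = h * k := by
  have : y ∈ ((H ⊔ K : Subgroup G) : Set G) := hy
  rw [Subgroup.coe_mul_of_left_le_normalizer_right H K hLE] at this
  obtain ⟨h, hh, k, hk, rfl⟩ := Set.mem_mul.mp this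
  exact ⟨h, hh, k, hk, rfl⟩

theorem mem_mul_of_mem_sup_right {H K : Subgroup G} (hLE : K ≤ N(H)) {y : G} (hy : y ∈ H ⊔ K) :
    ∃ h ∈ H, ∃ k ∈ K, y = h * k := by
  have : y ∈ ((H ⊔ K : Subgroup G) : Set G) := hy
  rw [Subgroup.coe_mul_of_right_le_normalizer_left H K hLE] at this
  obtain ⟨h, hh, k, hk, rfl⟩ := Set.mem_mul.mp this
  exact ⟨h, hh, k, hk, rfl⟩

/-- The controlling subgroup `Q` lies in every centric-radical subgroup. -/
theorem le_of_cr [Finite G] {p : ℕ} [hp : Fact p.Prime] {P Q R : Subgroup G} (hP : IsPGroup p P)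
    (hQP : Q ≤ P) (hctl : Ctl P Q) (hR : CR p P R) : Q ≤ R := by
  obtain ⟨hRP, hsyl, hrad⟩ := hR
  have hPN : P ≤ N(Q) := hctl.le_normalizer hQP
  have hRN : R ≤ N(R) := Subgroup.le_normalizer
  have hCN : C(R) ≤ N(R) := Subgroup.centralizer_le_normalizer _
  have hKN : R ⊔ C(R) ≤ N(R) := sup_le hRN hCN
  have hX1 : (Q ⊓ N(R)) ⊔ (R ⊔ C(R)) ≤ N(R) := sup_le inf_le_right hKN
  have hconjK : ∀ n ∈ N(R), cj(n, R ⊔ C(R)) ≤ R ⊔ C(R) := by
    intro n hn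
    rw [Subgroup.map_sup]
    refine sup_le_sup (conjMap_of_mem_normalizer hn).le ?_
    exact (conjMap_of_mem_normalizer (normalizer_le_normalizer_centralizer R hn)).le
  have hX2 : ∀ n ∈ N(R), cj(n, (Q ⊓ N(R)) ⊔ (R ⊔ C(R))) = (Q ⊓ N(R)) ⊔ (R ⊔ C(R)) := by
    intro n hn
    apply conjMap_eq_of_le
    obtain ⟨h, hh, c, hc, rfl⟩ := hctl R hRP n (by rw [conjMap_of_mem_normalizer hn]; exact hRP)
    have hcN : c ∈ N(R) := hCN hc
    have hhN : h ∈ N(R) := by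
      have := mul_mem hn (inv_mem hcN)
      simpa using this
    have hcX : c ∈ (Q ⊓ N(R)) ⊔ (R ⊔ C(R)) :=
      (le_sup_right : R ⊔ C(R) ≤ _) ((le_sup_right : C(R) ≤ R ⊔ C(R)) hc)
    have hhX : cj(h, (Q ⊓ N(R)) ⊔ (R ⊔ C(R))) ≤ (Q ⊓ N(R)) ⊔ (R ⊔ C(R)) := by
      rw [Subgroup.map_sup]
      refine sup_le_sup ?_ (hconjK h hhN)
      rw [conjMap_le_iff]
      intro q hq
      have hq2 : q ∈ N(R) := hq.2
      exact Subgroup.mem_inf.mpr ⟨(Subgroup.mem_normalizer_iff.mp hh q).mp hq.1,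
        mul_mem (mul_mem hhN hq2) (inv_mem hhN)⟩
    rw [conjMap_le_iff]
    intro x hx
    have h1 := hhX (conj_mem_conjMap (g := h) (mul_mem (mul_mem hcX hx) (inv_mem hcX)))
    have e : h * (c * x * c⁻¹) * h⁻¹ = h * c * x * (h * c)⁻¹ := by group
    rwa [e] at h1
  have hX4 : ∃ k : ℕ, (R ⊔ C(R)).relIndex ((Q ⊓ N(R)) ⊔ (R ⊔ C(R))) = p ^ k := by
    have hnorm : ((R ⊔ C(R)).subgroupOf N(R)).Normal := by
      rw [Subgroup.normal_subgroupOf_iff_le_normalizer hKN]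
      intro n hn
      exact mem_normalizer_of_conjMap_le (hconjK n hn)
    rw [← Subgroup.relIndex_subgroupOf hX1, Subgroup.subgroupOf_sup inf_le_right hKN,
      Subgroup.relIndex_sup_right]
    have hpg : IsPGroup p ((Q ⊓ N(R)).subgroupOf N(R)) :=
      (hP.to_le (inf_le_left.trans hQP)).comap_of_injective _ (Subgroup.subtype_injective _)
    obtain ⟨n, hn⟩ := IsPGroup.iff_card.mp hpg
    have hdvd := Subgroup.relIndex_dvd_card ((R ⊔ C(R)).subgroupOf N(R))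
      ((Q ⊓ N(R)).subgroupOf N(R))
    rw [hn] at hdvd
    obtain ⟨k, -, hk⟩ := (Nat.dvd_prime_pow hp.out).mp hdvd
    exact ⟨k, hk⟩
  have hXeq := hrad _ hX1 hX2 le_sup_right hX4
  have hQN : Q ⊓ N(R) ≤ R ⊔ C(R) := le_sup_left.trans hXeq.le
  have hPC : P ⊓ C(R) ≤ R := inf_centralizer_le_of_sylow hP hRP hsyl
  have hQNR : Q ⊓ N(R) ≤ R := by
    intro x hx
    obtain ⟨r, hr, c, hc, rfl⟩ := mem_mul_of_mem_sup_right hCN (hQN hx)
    have hcP : c ∈ P := by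
      have := mul_mem (inv_mem (hRP hr)) (hQP hx.1)
      simpa using this
    exact mul_mem hr (hPC ⟨hcP, hc⟩)
  have hD : IsPGroup p ↥(Q ⊔ R) := hP.to_le (sup_le hQP hRP)
  have hDR : R = Q ⊔ R := by
    apply eq_of_normalizer_inf_le (Q ⊔ R) R hD le_sup_right
    intro y hy
    have hy1 : y ∈ Q ⊔ R := hy.1
    obtain ⟨q, hq, r, hr, rfl⟩ := mem_mul_of_mem_sup_right (hRP.trans hPN) hy1
    have hy2 : q * r ∈ N(R) := hy.2
    have hqN : q ∈ N(R) := by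
      have := mul_mem hy2 (inv_mem (hRN hr))
      simpa using this
    exact mul_mem (hQNR ⟨hq, hqN⟩) hr
  rw [hDR]
  exact le_sup_left

/-- Every `p`-subgroup of `C(Q)` lies in `P ⊓ C(Q)` when the latter is a Sylow subgroup of `C(Q)`
contained in `Q`. -/
theorem le_of_isPGroup_centralizer [Finite G] {p : ℕ} [Fact p.Prime] {P Q D : Subgroup G}
    (hS2 : SylIn p (P ⊓ C(Q)) C(Q)) (hcen : P ⊓ C(Q) ≤ Q) (hD : IsPGroup p D) (hDC : D ≤ C(Q)) :
    D ≤ P ⊓ C(Q) := by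
  obtain ⟨x, hx, hxD⟩ := exists_conj_mem_of_isPGroup hS2.1 hS2.2.1 hS2.2.2 hDC hD
  intro d hd
  have h1 := hxD d hd
  have h2 : (x * d * x⁻¹) * x = x * (x * d * x⁻¹) :=
    (Subgroup.mem_centralizer_iff.mp hx) _ (hcen h1)
  have e : x * d * x⁻¹ = d := by
    have : x * d = x * (x * d * x⁻¹) := by rw [← h2]; group
    exact (mul_left_cancel this).symm
  rwa [e] at h1

/-- Key step: if `X` is an `N(Q)`-invariant subgroup with `Q C(Q) ≤ X = (P ⊓ X) C(Q)`, then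
`P ⊓ X` again controls strong fusion in `P`. -/
theorem ctl_inf [Finite G] {p : ℕ} [Fact p.Prime] (P : Sylow p G) {Q X : Subgroup G}
    (hQP : Q ≤ P) (hctl : Ctl (P : Subgroup G) Q) (hcen : (P : Subgroup G) ⊓ C(Q) ≤ Q)
    (hXN : X ≤ N(Q)) (hXinv : ∀ n ∈ N(Q), cj(n, X) = X) (hCX : C(Q) ≤ X)
    (hXle : X ≤ ((P : Subgroup G) ⊓ X) ⊔ C(Q)) :
    Ctl (P : Subgroup G) ((P : Subgroup G) ⊓ X) := by
  have hPN : (P : Subgroup G) ≤ N(Q) := hctl.le_normalizer hQP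
  have hS1 : SylIn p (P : Subgroup G) N(Q) := (sylIn_top P).of_le_right hPN le_top
  have hNC : N(Q) ≤ N(C(Q)) := normalizer_le_normalizer_centralizer Q
  have hS2 : SylIn p ((P : Subgroup G) ⊓ C(Q)) C(Q) :=
    sylIn_inf_of_normal hS1 (Subgroup.centralizer_le_normalizer _) hNC
  have hNX : N(Q) ≤ N(X) := fun n hn => conjMap_eq_self_iff.mp (hXinv n hn)
  have hS3 : SylIn p ((P : Subgroup G) ⊓ X) X := sylIn_inf_of_normal hS1 hXN hNX
  intro A hA g hg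
  obtain ⟨h, hh, c, hc, rfl⟩ := hctl A hA g hg
  rw [conjMap_mul_centralizer hc] at hg
  have hQ₃X : cj(h, (P : Subgroup G) ⊓ X) ≤ X := by
    have := conjMap_mono (g := h) (inf_le_right : (P : Subgroup G) ⊓ X ≤ X)
    rwa [hXinv h hh] at this
  have hTp : IsPGroup p ↥(cj(h, (P : Subgroup G) ⊓ X) ⊔ cj(h, A)) := by
    rw [← Subgroup.map_sup]
    exact isPGroup_conjMap (P.isPGroup'.to_le (sup_le inf_le_left hA))
  have hTY : cj(h, (P : Subgroup G) ⊓ X) ⊔ cj(h, A) ≤ X ⊔ cj(h, A) := sup_le_sup_right hQ₃X _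
  have hSp : IsPGroup p ↥(((P : Subgroup G) ⊓ X) ⊔ cj(h, A)) :=
    P.isPGroup'.to_le (sup_le inf_le_left hg)
  have hSY : ((P : Subgroup G) ⊓ X) ⊔ cj(h, A) ≤ X ⊔ cj(h, A) := sup_le_sup_right inf_le_right _
  obtain ⟨S₁, hS₁, hSS₁⟩ := exists_sylIn_ge hSp hSY
  obtain ⟨y, hy, hyT⟩ := exists_conj_mem_of_isPGroup hS₁.1 hS₁.2.1 hS₁.2.2 hTY hTp
  have hA₁N : cj(h, A) ≤ N(X) := hg.trans (hPN.trans hNX)
  rw [sup_comm] at hy
  obtain ⟨a, ha, x, hx, rfl⟩ := mem_mul_of_mem_sup_left hA₁N hy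
  obtain ⟨q, hq, c₀, hc₀, rfl⟩ :=
    mem_mul_of_mem_sup_left ((inf_le_left.trans hPN).trans hNC) (hXle hx)
  have haS : a ∈ S₁ := hSS₁ ((le_sup_right : cj(h, A) ≤ _) ha)
  have hqS : q ∈ S₁ := hSS₁ ((le_sup_left : (P : Subgroup G) ⊓ X ≤ _) hq)
  have hc₀T : ∀ t ∈ cj(h, (P : Subgroup G) ⊓ X) ⊔ cj(h, A), c₀ * t * c₀⁻¹ ∈ S₁ := by
    intro t ht
    have h1 := hyT t ht
    have h2 := mul_mem (mul_mem (inv_mem (mul_mem haS hqS)) h1) (mul_mem haS hqS)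
    have e : (a * q)⁻¹ * (a * (q * c₀) * t * (a * (q * c₀))⁻¹) * (a * q) = c₀ * t * c₀⁻¹ := by
      group
    rwa [e] at h2
  obtain ⟨cp, c₁, hdec, hcp, hc₁z, ⟨j, hj⟩, hcop⟩ := exists_p_decomp p c₀
  have hzC : Subgroup.zpowers c₀ ≤ C(Q) := by
    rw [Subgroup.zpowers_le]; exact hc₀
  have hcpC : cp ∈ C(Q) := hzC hcp
  have hc₁C : c₁ ∈ C(Q) := hzC hc₁z
  have hcpZ : cp ∈ (P : Subgroup G) ⊓ C(Q) :=
    le_of_isPGroup_centralizer hS2 hcen (isPGroup_zpowers_of_pow hj)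
      (by rw [Subgroup.zpowers_le]; exact hcpC) (Subgroup.mem_zpowers cp)
  have hcpS : cp ∈ S₁ :=
    hSS₁ ((le_sup_left : (P : Subgroup G) ⊓ X ≤ _) ⟨hcpZ.1, hCX hcpZ.2⟩)
  have hc₁T : ∀ t ∈ cj(h, (P : Subgroup G) ⊓ X) ⊔ cj(h, A), c₁ * t * c₁⁻¹ ∈ S₁ := by
    intro t ht
    have h1 := hc₀T t ht
    have h2 := mul_mem (mul_mem (inv_mem hcpS) h1) hcpS
    have e : cp⁻¹ * (c₀ * t * c₀⁻¹) * cp = c₁ * t * c₁⁻¹ := by
      rw [hdec]; group
    rwa [e] at h2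
  have hSC : S₁ ⊓ C(Q) ≤ (P : Subgroup G) ⊓ C(Q) :=
    le_of_isPGroup_centralizer hS2 hcen (hS₁.2.1.to_le inf_le_left) inf_le_right
  have hcomm : ∀ a ∈ cj(h, A), ⁅a, c₁⁆ = 1 := by
    refine comm_eq_one_of_coprime (X := cj(h, A)) (R := (P : Subgroup G) ⊓ C(Q)) hS2.2.1 c₁ hcop
      ?_ ?_
    · intro a ha
      apply hSC
      refine Subgroup.mem_inf.mpr ⟨?_, ?_⟩
      · have h1 := hc₁T a⁻¹ ((le_sup_right : cj(h, A) ≤ _) (inv_mem ha))
        have h2 := mul_mem (hSS₁ ((le_sup_right : cj(h, A) ≤ _) ha)) h1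
        have e : a * (c₁ * a⁻¹ * c₁⁻¹) = ⁅a, c₁⁆ := by rw [commutatorElement_def]; group
        rwa [e] at h2
      · have haN : a ∈ N(C(Q)) := hNC (hPN (hg ha))
        have h1 : a * c₁ * a⁻¹ ∈ C(Q) := (Subgroup.mem_normalizer_iff.mp haN c₁).mp hc₁C
        have h2 := mul_mem h1 (inv_mem hc₁C)
        rwa [← commutatorElement_def] at h2
    · intro r hr
      rw [commutatorElement_eq_one_iff_commute]
      exact (Subgroup.mem_centralizer_iff.mp hc₁C) r (hcen hr)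
  have hS₁X : S₁ ⊓ X = (P : Subgroup G) ⊓ X :=
    hS3.eq_of_le (le_inf (le_sup_left.trans hSS₁) inf_le_right) inf_le_right
      (hS₁.2.1.to_le inf_le_left)
  have hc₁Q : ∀ t ∈ cj(h, (P : Subgroup G) ⊓ X), c₁ * t * c₁⁻¹ ∈ (P : Subgroup G) ⊓ X := by
    intro t ht
    rw [← hS₁X]
    exact Subgroup.mem_inf.mpr ⟨hc₁T t ((le_sup_left : cj(h, (P : Subgroup G) ⊓ X) ≤ _) ht),
      mul_mem (mul_mem (hCX hc₁C) (hQ₃X ht)) (inv_mem (hCX hc₁C))⟩
  refine ⟨c₁ * h, ?_, (h⁻¹ * c₁⁻¹ * h) * c, ?_, by group⟩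
  · apply mem_normalizer_of_conjMap_le
    rw [conjMap_le_iff]
    intro q hq
    have := hc₁Q _ (conj_mem_conjMap (g := h) hq)
    have e : c₁ * (h * q * h⁻¹) * c₁⁻¹ = c₁ * h * q * (c₁ * h)⁻¹ := by group
    rwa [e] at this
  · refine mul_mem ?_ hc
    rw [Subgroup.mem_centralizer_iff]
    intro a ha
    have h1 : ⁅h * a * h⁻¹, c₁⁆ = 1 := hcomm _ (conj_mem_conjMap ha)
    have h2 : (h * a * h⁻¹) * c₁ = c₁ * (h * a * h⁻¹) :=
      commutatorElement_eq_one_iff_mul_comm.mp h1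
    calc a * (h⁻¹ * c₁⁻¹ * h) = h⁻¹ * c₁⁻¹ * (c₁ * (h * a * h⁻¹)) * c₁⁻¹ * h := by group
      _ = h⁻¹ * c₁⁻¹ * ((h * a * h⁻¹) * c₁) * c₁⁻¹ * h := by rw [h2]
      _ = h⁻¹ * c₁⁻¹ * h * a := by group

/-- The largest controlling subgroup is centric-radical. -/
theorem cr_of_max [Finite G] {p : ℕ} [hp : Fact p.Prime] (P : Sylow p G) {Q : Subgroup G}
    (hQP : Q ≤ P) (hctl : Ctl (P : Subgroup G) Q) (hcen : (P : Subgroup G) ⊓ C(Q) ≤ Q)
    (hmax : ∀ Q' : Subgroup G, Q' ≤ P → Ctl (P : Subgroup G) Q' → Q' ≤ Q) :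
    CR p (P : Subgroup G) Q := by
  have hPN := hctl.le_normalizer hQP
  have hS1 : SylIn p (P : Subgroup G) N(Q) := (sylIn_top P).of_le_right hPN le_top
  have hNC : N(Q) ≤ N(C(Q)) := normalizer_le_normalizer_centralizer Q
  have hS2 : SylIn p ((P : Subgroup G) ⊓ C(Q)) C(Q) :=
    sylIn_inf_of_normal hS1 (Subgroup.centralizer_le_normalizer _) hNC
  have hZ : (P : Subgroup G) ⊓ C(Q) = Q ⊓ C(Q) :=
    le_antisymm (le_inf hcen inf_le_right) (inf_le_inf_right _ hQP)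
  refine ⟨hQP, ?_, ?_⟩
  · rw [← hZ]
    have hpg : IsPGroup p (((P : Subgroup G) ⊓ C(Q)).subgroupOf C(Q)) :=
      hS2.2.1.comap_of_injective _ (Subgroup.subtype_injective _)
    have hidx : ¬ p ∣ (((P : Subgroup G) ⊓ C(Q)).subgroupOf C(Q)).index := hS2.2.2
    refine ⟨hpg.toSylow hidx, ?_⟩
    rw [IsPGroup.toSylow_coe]
    exact Subgroup.map_subgroupOf_eq_of_le inf_le_right
  · intro X hXN hXinv hQCX ⟨k, hk⟩
    have hNX : N(Q) ≤ N(X) := fun n hn => conjMap_eq_self_iff.mp (hXinv n hn)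
    have hS3 : SylIn p ((P : Subgroup G) ⊓ X) X := sylIn_inf_of_normal hS1 hXN hNX
    have hQQ₂ : Q ≤ (P : Subgroup G) ⊓ X := le_inf hQP (le_sup_left.trans hQCX)
    have hXle : X ≤ ((P : Subgroup G) ⊓ X) ⊔ C(Q) := by
      rw [← Subgroup.relIndex_eq_one]
      have d1 : (((P : Subgroup G) ⊓ X) ⊔ C(Q)).relIndex X ∣ (Q ⊔ C(Q)).relIndex X :=
        Subgroup.relIndex_dvd_of_le_left X (sup_le_sup_right hQQ₂ _)
      have d2 : (((P : Subgroup G) ⊓ X) ⊔ C(Q)).relIndex X ∣ ((P : Subgroup G) ⊓ X).relIndex X :=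
        Subgroup.relIndex_dvd_of_le_left X le_sup_left
      rw [hk] at d1
      obtain ⟨m, -, hm⟩ := (Nat.dvd_prime_pow hp.out).mp d1
      rcases Nat.eq_zero_or_pos m with rfl | hmpos
      · simpa using hm
      · exfalso
        apply hS3.2.2
        refine dvd_trans ?_ d2
        rw [hm]; exact dvd_pow_self p hmpos.ne'
    have hctl2 := ctl_inf P hQP hctl hcen hXN hXinv (le_sup_right.trans hQCX) hXle
    have hQ₂Q := hmax _ inf_le_left hctl2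
    exact le_antisymm (hXle.trans (sup_le_sup_right hQ₂Q _)) hQCX

/-- **End game of S1953.** If `W ≤ P` is self-centralizing in `P` and `N(W)` controls strong fusion
in the Sylow `p`-subgroup `P`, then there is a least centric-radical subgroup of `P`; it is normal
in `P` and its normalizer controls strong fusion in `P`. -/
theorem cr_min_of_control [Finite G] {p : ℕ} [Fact p.Prime] (P : Sylow p G) (W : Subgroup G)
    (hWP : W ≤ (P : Subgroup G))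
    (hWc : (P : Subgroup G) ⊓ Subgroup.centralizer (W : Set G) ≤ W)
    (hW : ∀ A : Subgroup G, A ≤ (P : Subgroup G) → ∀ g : G,
      A.map (MulAut.conj g).toMonoidHom ≤ (P : Subgroup G) →
        ∃ h ∈ Subgroup.normalizer (W : Set G), ∃ c ∈ Subgroup.centralizer (A : Set G), g = h * c)
    (cr : Subgroup G → Prop) (hcr : ∀ Q : Subgroup G, cr Q ↔ CR p (P : Subgroup G) Q) :
    ∃ Q : Subgroup G, cr Q ∧ (∀ R : Subgroup G, cr R → Q ≤ R) ∧
      (∀ x ∈ (P : Subgroup G), Q.map (MulAut.conj x).toMonoidHom = Q) ∧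
      ∀ A : Subgroup G, A ≤ (P : Subgroup G) → ∀ g : G,
        A.map (MulAut.conj g).toMonoidHom ≤ (P : Subgroup G) →
        ∃ h ∈ Subgroup.normalizer (Q : Set G), ∃ c ∈ Subgroup.centralizer (A : Set G),
          g = h * c := by
  obtain ⟨Q, hWQ, hQP, hctl, hmax⟩ := exists_max_ctl (P := (P : Subgroup G)) hW hWP
  have hcen : (P : Subgroup G) ⊓ C(Q) ≤ Q := fun x hx =>
    hWQ (hWc ⟨hx.1, Subgroup.centralizer_le (SetLike.coe_subset_coe.mpr hWQ) hx.2⟩)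
  exact ⟨Q, (hcr Q).mpr (cr_of_max P hQP hctl hcen hmax),
    fun R hR => le_of_cr P.isPGroup' hQP hctl ((hcr R).mp hR),
    fun x hx => conjMap_of_mem_normalizer (hctl.le_normalizer hQP hx), hctl⟩

end Cfsg.Agent.H40.CrMin
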