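import Mathlib
import Cfsg.Agent.H40.CrMin
import Cfsg.Agent.H40.KInfF

set_option autoImplicit false

/-!
# S1953 from stability of sections (helper40)

`s1953_of_secNStab`: the conclusion of S1953 for every finite group `G` with `SecNStab p G`
(every section `Z` of `G` and every normal `p`-subgroup `V` of `Z` admit a normal subgroup `D` of
`Z` whose `p'`-elements centralize `V` and which contains all elements acting quadratically
on `V`).  The controlling subgroup is obtained from `W = K_∞(P)` (lower), which is
self-centralizing in `P` and whose normalizer controls strong fusion.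
-/

namespace Cfsg.Agent.H40.CrMin

open Cfsg Cfsg.Agent.H39 Cfsg.Agent.H40 Cfsg.Agent.H40.KInf Cfsg.Agent.H40.Sec
open scoped commutatorElement

universe u

local notation "cj(" g ", " Q ")" => Subgroup.map (MulEquiv.toMonoidHom (MulAut.conj g)) Q
local notation "N(" Q ")" => Subgroup.normalizer (SetLike.coe (Q : Subgroup _))
local notation "C(" Q ")" => Subgroup.centralizer (SetLike.coe (Q : Subgroup _))

section ctl

variable {G : Type u} [Group G]

/-- Control of strong fusion by a single functor, in elementwise form. -/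
theorem ctl_of_fsf {W : ∀ (Q : Type u) [Group Q], Subgroup Q} {S : Subgroup G}
    (h : FSF (IndFam {W} G) ⊤ S) : Ctl S (inducedFunctor W S) := by
  intro A hA g hg
  obtain ⟨g', d, hg'⟩ := h A hA g (Subgroup.mem_top _) hg
  refine ⟨g', fchain_single_mem d, g'⁻¹ * g, ?_, by group⟩
  rw [Subgroup.mem_centralizer_iff]
  intro a ha
  have h1 := hg' a ha
  calc a * (g'⁻¹ * g) = g'⁻¹ * (g' * a * g'⁻¹) * g := by group
    _ = g'⁻¹ * (g * a * g⁻¹) * g := by rw [h1]
    _ = g'⁻¹ * g * a := by group

variable [Finite G] {p : ℕ} [Fact p.Prime]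

/-- A functor whose values on Sylow subgroups are normal in the constrained sections of `G`
controls strong fusion in the given Sylow subgroup, elementwise form. -/
theorem ctl_of_normal_in_sections (W : ∀ (Q : Type u) [Group Q], Subgroup Q)
    (hW : IsCharPFunctor.{u} p W)
    (hloc : ∀ (Y : Type u) [Group Y] [Finite Y], IsSec Y G → Constr p Y →
      ∀ T : Sylow p Y, (inducedFunctor (G := Y) W (T : Subgroup Y)).Normal)
    (S : Sylow p G) : Ctl (S : Subgroup G) (inducedFunctor W (S : Subgroup G)) := by
  classical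
  have h𝓦 : ∀ W' ∈ ({W} : Set (∀ (Q : Type u) [Group Q], Subgroup Q)),
      IsCharPFunctor.{u} p W' := by
    rintro W' rfl
    exact hW
  have hyp : Hyp (fun (Y : Type u) [Group Y] =>
      FamilyControlsStrongFusionIn p (IndFam {W} Y) ⊤) p G := by
    intro Y _ _ hY hcon
    obtain ⟨T⟩ : Nonempty (Sylow p Y) := inferInstance
    exact familyControlsStrongFusionIn_iff.mpr
      ⟨T, sylIn_top T, fsf_of_normal (Set.mem_singleton W) _ (hloc Y hY hcon T)⟩
  exact ctl_of_fsf (fsf_of_hyp h𝓦 _ G rfl hyp S)

end ctl

section selfcent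

/-- Abelian normal subgroups lie in the lower K-infinity subgroup. -/
theorem abelian_normal_le_kInfLower {P : Type u} [Group P] (A : Subgroup P) [A.Normal]
    (hA : IsMulCommutative ↥A) : A ≤ kInfLower P := by
  have h1 : A ≤ kSeqEven P 0 := le_sSup (abelian_normal_mem_lower A hA _)
  exact h1.trans (le_iSup (fun n => kSeqEven P n) 0)

theorem kInfLower_normal (P : Type u) [Group P] : (kInfLower P).Normal := by
  constructor
  intro x hx g
  have h1 := kInfLower_map_equiv (MulAut.conj g)
  have h2 : g * x * g⁻¹ ∈ (kInfLower P).map (MulAut.conj g).toMonoidHom := ⟨x, hx, rfl⟩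
  rwa [h1] at h2

/-- The lower K-infinity subgroup of a finite `p`-group is self-centralizing. -/
theorem centralizer_kInfLower_le {P : Type u} [Group P] [Finite P] {p : ℕ} [Fact p.Prime]
    (hP : IsPGroup p P) : Subgroup.centralizer (kInfLower P : Set P) ≤ kInfLower P := by
  have hKn : (kInfLower P).Normal := kInfLower_normal P
  have hRn : (Subgroup.centralizer (kInfLower P : Set P)).Normal := inferInstance
  by_contra hcon
  have hTp : IsPGroup p (⊤ : Subgroup P) := hP.to_subgroup _
  obtain ⟨x, hxR, hxK, hxT⟩ := exists_central_mod (⊤ : Subgroup P) hTp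
    (Subgroup.centralizer (kInfLower P : Set P)) (kInfLower P) hcon le_top
  -- the abelian normal subgroup `Z(K) ⊔ ⟨x⟩`
  have hZn : (kInfLower P ⊓ Subgroup.centralizer (kInfLower P : Set P)).Normal := inferInstance
  have hcomm : ∀ g : P, ⁅x, g⁆ ∈ kInfLower P ⊓ Subgroup.centralizer (kInfLower P : Set P) := by
    intro g
    refine Subgroup.mem_inf.mpr ⟨hxT g (Subgroup.mem_top g), ?_⟩
    have h1 : g * x⁻¹ * g⁻¹ ∈ Subgroup.centralizer (kInfLower P : Set P) :=
      hRn.conj_mem _ (inv_mem hxR) g
    have h2 := mul_mem hxR h1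
    have e : x * (g * x⁻¹ * g⁻¹) = ⁅x, g⁆ := by rw [commutatorElement_def]; group
    rwa [e] at h2
  have hxconj : ∀ g : P, g * x * g⁻¹ ∈ (kInfLower P ⊓ Subgroup.centralizer (kInfLower P : Set P)) ⊔
      Subgroup.zpowers x := by
    intro g
    have e : g * x * g⁻¹ = (⁅x, g⁆)⁻¹ * x := by rw [commutatorElement_def]; group
    rw [e]
    exact mul_mem ((le_sup_left : kInfLower P ⊓ Subgroup.centralizer (kInfLower P : Set P) ≤ _)
      (inv_mem (hcomm g))) ((le_sup_right : Subgroup.zpowers x ≤ _) (Subgroup.mem_zpowers x))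
  have hHn : ((kInfLower P ⊓ Subgroup.centralizer (kInfLower P : Set P)) ⊔
      Subgroup.zpowers x).Normal := by
    rw [← Subgroup.normalizer_eq_top_iff, eq_top_iff]
    intro g _
    apply mem_normalizer_of_conjMap_le
    rw [Subgroup.map_sup]
    refine sup_le ?_ ?_
    · rw [conjMap_le_iff]
      intro z hz
      exact (le_sup_left : kInfLower P ⊓ Subgroup.centralizer (kInfLower P : Set P) ≤ _)
        (hZn.conj_mem z hz g)
    · rw [MonoidHom.map_zpowers, Subgroup.zpowers_le]
      exact hxconj g
  have hxZ : Subgroup.zpowers x ≤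
      Subgroup.centralizer ((kInfLower P ⊓ Subgroup.centralizer (kInfLower P : Set P) :
        Subgroup P) : Set P) := by
    rw [Subgroup.zpowers_le]
    exact Subgroup.centralizer_le (SetLike.coe_subset_coe.mpr inf_le_left) hxR
  have hZZ : kInfLower P ⊓ Subgroup.centralizer (kInfLower P : Set P) ≤
      Subgroup.centralizer ((kInfLower P ⊓ Subgroup.centralizer (kInfLower P : Set P) :
        Subgroup P) : Set P) :=
    inf_le_right.trans (Subgroup.centralizer_le (SetLike.coe_subset_coe.mpr inf_le_left))
  have hxx : Subgroup.zpowers x ≤ Subgroup.centralizer ((Subgroup.zpowers x : Subgroup P) : Set P) := by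
    rw [Subgroup.zpowers_le, Subgroup.mem_centralizer_iff]
    intro h hh
    obtain ⟨k, rfl⟩ := Subgroup.mem_zpowers_iff.mp hh
    exact (Commute.zpow_left (Commute.refl x) k).eq
  have hHab : IsMulCommutative ↥((kInfLower P ⊓ Subgroup.centralizer (kInfLower P : Set P)) ⊔
      Subgroup.zpowers x) := by
    rw [← Subgroup.le_centralizer_iff_isMulCommutative]
    refine sup_le ?_ ?_
    · rw [Subgroup.le_centralizer_iff]
      exact sup_le hZZ hxZ
    · rw [Subgroup.le_centralizer_iff]
      exact sup_le (Subgroup.le_centralizer_iff.mp hxZ) hxx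
  have hle := abelian_normal_le_kInfLower _ hHab
  exact hxK (hle ((le_sup_right : Subgroup.zpowers x ≤ _) (Subgroup.mem_zpowers x)))

/-- The induced lower K-infinity subgroup of a `p`-subgroup is self-centralizing in it. -/
theorem inf_centralizer_induced_kInfLower_le {G : Type u} [Group G] [Finite G] {p : ℕ}
    [Fact p.Prime] {P : Subgroup G} (hP : IsPGroup p P) :
    P ⊓ C(inducedFunctor kInfLower P) ≤ inducedFunctor kInfLower P := by
  intro x hx
  have hxP : x ∈ P := hx.1
  have hxC : x ∈ C(inducedFunctor kInfLower P) := hx.2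
  have h1 : (⟨x, hxP⟩ : ↥P) ∈ Subgroup.centralizer (kInfLower ↥P : Set ↥P) := by
    rw [Subgroup.mem_centralizer_iff]
    intro y hy
    apply Subtype.ext
    have := (Subgroup.mem_centralizer_iff.mp hxC) (y : G) ⟨y, hy, rfl⟩
    simpa using this
  exact ⟨⟨x, hxP⟩, centralizer_kInfLower_le hP h1, rfl⟩

end selfcent

section final

variable {G : Type u} [Group G] [Finite G] {p : ℕ} [Fact p.Prime]

/-- **S1953 from stability of sections**: if every section of `G` satisfies `NStab` (a weak form
of `p`-stability), then `P` has a least centric-radical subgroup; it is normal in `P` and its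
normalizer controls strong fusion in `P`. -/
theorem s1953_of_secNStab (hst : SecNStab p G) (P : Sylow p G)
    (cr : Subgroup G → Prop) (hcr : ∀ Q : Subgroup G, cr Q ↔ CR p (P : Subgroup G) Q) :
    ∃ Q : Subgroup G, cr Q ∧ (∀ R : Subgroup G, cr R → Q ≤ R) ∧
      (∀ x ∈ (P : Subgroup G), Q.map (MulAut.conj x).toMonoidHom = Q) ∧
      ∀ A : Subgroup G, A ≤ (P : Subgroup G) → ∀ g : G,
        A.map (MulAut.conj g).toMonoidHom ≤ (P : Subgroup G) →
        ∃ h ∈ Subgroup.normalizer (Q : Set G), ∃ c ∈ Subgroup.centralizer (A : Set G),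
          g = h * c := by
  have hctl : Ctl (P : Subgroup G) (inducedFunctor kInfLower (P : Subgroup G)) :=
    ctl_of_normal_in_sections kInfLower isCharPFunctor_kInfLower
      (fun _ _ _ hY hcon T => (kInf_normal_of_secNStab (hst.of_isSec hY) hcon T).1) P
  exact cr_min_of_control P (inducedFunctor kInfLower (P : Subgroup G))
    (cf_le (isConjugacyFunctor_induced isCharPFunctor_kInfLower) P.isPGroup')
    (inf_centralizer_induced_kInfLower_le P.isPGroup') hctl cr hcr

end final

end Cfsg.Agent.H40.CrMin
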