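import Mathlib

set_option autoImplicit false

namespace Cfsg.Agent.H40

/-- Core of the criterion: every proper normal subgroup is trivial. -/
theorem crit19_core {H : Type*} [Group H] [Finite H] (z : H) (hz : orderOf z = 2)
    (hN : ∀ N : Subgroup H, N.Normal → N ≠ ⊤ → N ⊓ Subgroup.centralizer ({z} : Set H) = ⊥)
    (E : Subgroup H) (hE : IsKleinFour ↥E) (hzE : z ∈ E) (hc : ∀ e ∈ E, e ≠ 1 → IsConj z e)
    (N : Subgroup H) (hNn : N.Normal) (hNt : N ≠ ⊤) : N = ⊥ := by
  have hz1 : z ≠ 1 := by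
    intro h
    rw [h, orderOf_one] at hz
    norm_num at hz
  have hzz : z * z = 1 := by
    have := pow_orderOf_eq_one z
    rw [hz, pow_two] at this
    exact this
  -- each nonidentity e ∈ E: N ∩ C(e) = 1
  have h1 : ∀ e ∈ E, e ≠ 1 → ∀ n ∈ N, e * n = n * e → n = 1 := by
    intro e he he1 n hn hcomm
    obtain ⟨g, hg⟩ := isConj_iff.mp (hc e he he1)
    have hmem : g⁻¹ * n * g ∈ N ⊓ Subgroup.centralizer ({z} : Set H) := by
      refine Subgroup.mem_inf.mpr ⟨?_, ?_⟩
      · have := hNn.conj_mem n hn g⁻¹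
        simpa using this
      · rw [Subgroup.mem_centralizer_iff]
        intro y hy
        rw [Set.mem_singleton_iff] at hy
        subst hy
        have he' : e = g * y * g⁻¹ := hg.symm
        rw [he'] at hcomm
        have h2 : g⁻¹ * (g * y * g⁻¹ * n) * g = g⁻¹ * (n * (g * y * g⁻¹)) * g := by rw [hcomm]
        simp only [mul_assoc, inv_mul_cancel_left, inv_mul_cancel, mul_one] at h2
        simpa [mul_assoc] using h2
    rw [hN N hNn hNt, Subgroup.mem_bot] at hmem
    have : n = g * (g⁻¹ * n * g) * g⁻¹ := by group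
    rw [this, hmem]; group
  -- every e ∈ E has e * e = 1
  have hsq : ∀ e ∈ E, e * e = 1 := by
    intro e he
    have h := hE.exponent_two
    have := Monoid.pow_exponent_eq_one (⟨e, he⟩ : E)
    rw [h, pow_two] at this
    exact congrArg Subtype.val this
  -- each nonidentity e ∈ E inverts N
  have h2 : ∀ e ∈ E, e ≠ 1 → ∀ x ∈ N, e * x * e⁻¹ = x⁻¹ := by
    intro e he he1
    have einv : e⁻¹ = e := inv_eq_of_mul_eq_one_left (hsq e he)
    let f : N → N := fun n => ⟨(n : H)⁻¹ * (e * n * e⁻¹), N.mul_mem (N.inv_mem n.2) (hNn.conj_mem n n.2 e)⟩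
    have hf : Function.Injective f := by
      intro n m hnm
      have hnm' : (n : H)⁻¹ * (e * n * e⁻¹) = (m : H)⁻¹ * (e * m * e⁻¹) := congrArg Subtype.val hnm
      have hmn : (m : H) * (n : H)⁻¹ ∈ N := N.mul_mem m.2 (N.inv_mem n.2)
      have hcomm : e * ((m : H) * (n : H)⁻¹) = ((m : H) * (n : H)⁻¹) * e := by
        have h3 : (m : H) * ((n : H)⁻¹ * (e * n * e⁻¹)) * e * (n : H)⁻¹ = (m : H) * ((m : H)⁻¹ * (e * m * e⁻¹)) * e * (n : H)⁻¹ := by
          rw [hnm']
        have h4 : (m : H) * ((n : H)⁻¹ * (e * n * e⁻¹)) * e * (n : H)⁻¹ = (m : H) * (n : H)⁻¹ * e := by group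
        have h5 : (m : H) * ((m : H)⁻¹ * (e * m * e⁻¹)) * e * (n : H)⁻¹ = e * ((m : H) * (n : H)⁻¹) := by group
        rw [← h4, ← h5, h3]
      have := h1 e he he1 _ hmn hcomm
      have hmn2 : (m : H) = n := by
        have := mul_inv_eq_one.mp this
        exact this
      exact Subtype.ext hmn2.symm
    have hsurj : Function.Surjective f := Finite.surjective_of_injective hf
    intro x hx
    obtain ⟨n, hn⟩ := hsurj ⟨x, hx⟩
    have hx' : x = (n : H)⁻¹ * (e * n * e⁻¹) := (congrArg Subtype.val hn).symm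
    rw [hx', einv]
    have : e * ((n : H)⁻¹ * (e * ↑n * e)) * e = e * (n : H)⁻¹ * e * ↑n * (e * e) := by group
    rw [this, hsq e he]
    have h6 : ((n : H)⁻¹ * (e * ↑n * e))⁻¹ = e⁻¹ * (n : H)⁻¹ * e⁻¹ * ↑n := by group
    rw [h6, einv]; group
  -- pick b ∈ E with b ≠ 1, b ≠ z
  have hcard : Nat.card E = 4 := hE.card_four
  obtain ⟨b, hb1, hbz⟩ : ∃ b : E, b ≠ 1 ∧ b ≠ ⟨z, hzE⟩ := by
    by_contra hcon
    push Not at hcon
    have hsub : (Set.univ : Set E) ⊆ {1, ⟨z, hzE⟩} := by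
      intro b _
      by_cases hb : b = 1
      · left; exact hb
      · right; exact hcon b hb
    have hle : Nat.card E ≤ 2 := by
      have h7 := Set.ncard_le_ncard hsub (Set.toFinite _)
      rw [Set.ncard_univ] at h7
      exact h7.trans (Set.ncard_insert_le _ _ |>.trans (by simp))
    omega
  have hbE : (b : H) ∈ E := b.2
  have hb1' : (b : H) ≠ 1 := fun h => hb1 (Subtype.ext h)
  have hbz' : (b : H) ≠ z := fun h => hbz (Subtype.ext h)
  have hzbE : z * (b : H) ∈ E := E.mul_mem hzE hbE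
  have hzb1 : z * (b : H) ≠ 1 := by
    intro h
    apply hbz'
    have : (b : H) = z⁻¹ := (inv_eq_of_mul_eq_one_right h).symm
    rw [this]
    exact inv_eq_of_mul_eq_one_left hzz
  rw [Subgroup.eq_bot_iff_forall]
  intro x hx
  have e1 := h2 (b : H) hbE hb1' x hx
  have e2 := h2 z hzE hz1 x⁻¹ (N.inv_mem hx)
  have e3 := h2 (z * (b : H)) hzbE hzb1 x hx
  have e4 : z * (b : H) * x * (z * (b : H))⁻¹ = x := by
    have : z * (b : H) * x * (z * (b : H))⁻¹ = z * ((b : H) * x * (b : H)⁻¹) * z⁻¹ := by group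
    rw [this, e1, e2, inv_inv]
  apply h1 (z * (b : H)) hzbE hzb1 x hx
  have : z * (b : H) * x = (z * (b : H) * x * (z * (b : H))⁻¹) * (z * (b : H)) := by group
  rw [this, e4]

end Cfsg.Agent.H40
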