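import Mathlib
import Cfsg.Agent.H45.D4Defs
import Cfsg.Agent.H86.D4Hom
import Cfsg.Agent.H23.Sound2

set_option autoImplicit false

namespace Cfsg.Agent.H40.D4

open Matrix Cfsg.Agent.H49 Cfsg.Agent.H45.D4

variable {F : Type*} [Field F]

section generic
variable {R : Type*} [CommRing R] {n : Type*} [Fintype n] [DecidableEq n]

theorem trace_mul_single_mul (A B : Matrix n n R) (i j : n) (c : R) :
    Matrix.trace (A * Matrix.single i j c * B) = c * (B * A) j i := by
  rw [Matrix.mul_assoc, Matrix.trace_mul_comm, Matrix.mul_assoc, Matrix.trace_single_mul]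
  simp

theorem trace_expand (X M : Matrix n n R) (a b a' b' : n) (s t : R) :
    Matrix.trace (Xᵀ * (1 + t • (Matrix.single a b' s - Matrix.single b a' s))ᵀ * M
        * (1 + t • (Matrix.single a b' s - Matrix.single b a' s)))
    = Matrix.trace (Xᵀ * M)
      + t * (s * ((∑ j, (M a j * X b' j - M b j * X a' j))
          + ∑ i, (X i b' * M i a - X i a' * M i b)))
      + t ^ 2 * (s * s * (X b' b' * M a a - X b' a' * M a b - X a' b' * M b a
          + X a' a' * M b b)) := by
  have e : Xᵀ * (1 + t • (Matrix.single a b' s - Matrix.single b a' s))ᵀ * M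
        * (1 + t • (Matrix.single a b' s - Matrix.single b a' s))
      = Xᵀ * M
        + t • (Xᵀ * Matrix.single b' a s * M - Xᵀ * Matrix.single a' b s * M
            + (Xᵀ * M * Matrix.single a b' s - Xᵀ * M * Matrix.single b a' s))
        + t ^ 2 • (Xᵀ * (Matrix.single b' a s * M * Matrix.single a b' s) 
            - Xᵀ * (Matrix.single b' a s * M * Matrix.single b a' s)
            - Xᵀ * (Matrix.single a' b s * M * Matrix.single a b' s)
            + Xᵀ * (Matrix.single a' b s * M * Matrix.single b a' s)) := by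
    simp only [Matrix.transpose_add, Matrix.transpose_one, Matrix.transpose_smul,
      Matrix.transpose_sub, Matrix.transpose_single, Matrix.mul_add, Matrix.add_mul,
      Matrix.mul_one, Matrix.mul_smul, Matrix.smul_mul, Matrix.mul_sub,
      Matrix.sub_mul, smul_add, smul_sub, smul_smul, Matrix.mul_assoc, pow_two]
    abel
  rw [e]
  simp only [Matrix.trace_add, Matrix.trace_smul, Matrix.trace_sub, trace_mul_single_mul,
    Matrix.single_mul_mul_single, Matrix.trace_mul_single, smul_eq_mul, Matrix.mul_apply,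
    Matrix.transpose_apply, Finset.sum_sub_distrib, op_smul_eq_mul]
  ring

end generic

/-- The basis index at position `n`. -/
def unp (n : ℕ) : I8 :=
  if h : n < 4 then Sum.inl ⟨n, h⟩ else Sum.inr ⟨(n - 4) % 4, Nat.mod_lt _ (by norm_num)⟩

/-- first index of the pair of the root `r` -/
def ia (r : Fin 24) : I8 := unp (pairTab r).1
/-- second index of the pair of the root `r` -/
def ib (r : Fin 24) : I8 := unp (pairTab r).2
/-- hyperbolic partner of the first index -/
def ia' (r : Fin 24) : I8 := unp (par (pairTab r).1)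
/-- hyperbolic partner of the second index -/
def ib' (r : Fin 24) : I8 := unp (par (pairTab r).2)

theorem Ntab_entry_aux : ∀ (r : Fin 24) (i j : I8), Ntab r i j -
    ((if ia r = i ∧ ib' r = j then sgnTab r else 0)
      - (if ib r = i ∧ ia' r = j then sgnTab r else 0)) = 0 := by
  decide +kernel

theorem Ntab_entry (r : Fin 24) (i j : I8) : Ntab r i j =
    (if ia r = i ∧ ib' r = j then sgnTab r else 0)
      - (if ib r = i ∧ ia' r = j then sgnTab r else 0) :=
  sub_eq_zero.mp (Ntab_entry_aux r i j)

theorem Ntab_cast (r : Fin 24) : (Ntab r).map (Int.cast : ℤ → F)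
    = Matrix.single (ia r) (ib' r) ((sgnTab r : ℤ) : F)
      - Matrix.single (ib r) (ia' r) ((sgnTab r : ℤ) : F) := by
  ext i j
  simp only [Matrix.map_apply, Ntab_entry, Matrix.sub_apply, Matrix.single_apply, Int.cast_sub]
  congr 1 <;> split_ifs <;> simp

/-- coefficient of `t` in the entry `(row, col)` of `rho (x_r(t))` -/
def E1 (r : Fin 24) (row col : Idx) : ℤ :=
  sgnTab r * ((∑ j, (Mtab row (ia r) j * Xtab col (ib' r) j - Mtab row (ib r) j * Xtab col (ia' r) j))
    + ∑ i, (Xtab col i (ib' r) * Mtab row i (ia r) - Xtab col i (ia' r) * Mtab row i (ib r)))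

/-- coefficient of `t ^ 2` in the entry `(row, col)` of `rho (x_r(t))` -/
def E2 (r : Fin 24) (row col : Idx) : ℤ :=
  sgnTab r * sgnTab r * (Xtab col (ib' r) (ib' r) * Mtab row (ia r) (ia r)
    - Xtab col (ib' r) (ia' r) * Mtab row (ia r) (ib r)
    - Xtab col (ia' r) (ib' r) * Mtab row (ib r) (ia r)
    + Xtab col (ia' r) (ia' r) * Mtab row (ib r) (ib r))

theorem lhs_entry (r : Fin 24) (t : F) (row col : Idx) :
    rho F (gmat F r t) row col = (if row = col then 1 else 0) + t * ((E1 r row col : ℤ) : F)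
      + t ^ 2 * ((E2 r row col : ℤ) : F) := by
  have h0 : ((c0 col * cc row : ℤ) : F)
      + Matrix.trace (((Xtab col).map (Int.cast : ℤ → F))ᵀ * (Mtab row).map (Int.cast : ℤ → F))
      = if row = col then 1 else 0 := Cfsg.Agent.H86.D4.pair_cast row col
  simp only [rho, Matrix.of_apply, gmat, Ntab_cast]
  rw [trace_expand, ← h0]
  simp only [E1, E2, Matrix.map_apply]
  push_cast
  ring

open Cfsg.Agent.H23 Cfsg.Lie

/-- coefficient of `t ^ k` at the row code `c` in an entry list -/
def coefE (l : Ent) (c k : ℕ) : ℤ := (l.map fun x => if c = x.1 ∧ x.2.2 = k then x.2.1 else 0).sum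

theorem sum_coefE (a : F) (l : Ent) (c : ℕ) (h : ∀ x ∈ l, x.2.2 ≤ 2) :
    (l.map fun x => ((x.2.1 : ℤ) : F) * a ^ x.2.2 * (if c = x.1 then 1 else 0)).sum
      = ((coefE l c 0 : ℤ) : F) + a * ((coefE l c 1 : ℤ) : F) + a ^ 2 * ((coefE l c 2 : ℤ) : F) := by
  induction l with
  | nil => simp [coefE]
  | cons x l ih =>
    have hx := h x (List.mem_cons_self ..)
    have ih' := ih (fun y hy => h y (List.mem_cons_of_mem _ hy))
    simp only [List.map_cons, List.sum_cons, coefE] at ih' ⊢
    rw [ih']
    obtain ⟨c', q, k⟩ := x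
    simp only at hx ⊢
    interval_cases k <;> by_cases hc : c = c' <;> simp [hc] <;> ring

theorem rhs_entry_aux (r : Fin chevD4.nroots) (t : F) (row col : chevD4.Idx)
    (h : ∀ x ∈ xEntries chevD4 r.val (ix chevD4 col), x.2.2 ≤ 2) :
    chevD4.xMat F r t row col
      = ((coefE (xEntries chevD4 r.val (ix chevD4 col)) (ix chevD4 row) 0 : ℤ) : F)
        + t * ((coefE (xEntries chevD4 r.val (ix chevD4 col)) (ix chevD4 row) 1 : ℤ) : F)
        + t ^ 2 * ((coefE (xEntries chevD4 r.val (ix chevD4 col)) (ix chevD4 row) 2 : ℤ) : F) := by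
  have e : chevD4.xMat F r t row col
      = evalE chevD4 t (xEntries chevD4 r.val (ix chevD4 col)) row := by
    rw [xEntries_sound, basisV_ix]
    simp
  rw [e, evalE_apply, sum_coefE t _ _ h]

theorem pow_ok : ∀ (r : Fin 24) (col : Idx),
    ∀ x ∈ xEntries chevD4 r.val (ix chevD4 col), x.2.2 ≤ 2 := by
  decide +kernel

theorem tab_match : ∀ (r : Fin 24) (row col : Idx),
    coefE (xEntries chevD4 r.val (ix chevD4 col)) (ix chevD4 row) 0
        = (if row = col then 1 else 0) ∧
    coefE (xEntries chevD4 r.val (ix chevD4 col)) (ix chevD4 row) 1 = E1 r row col ∧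
    coefE (xEntries chevD4 r.val (ix chevD4 col)) (ix chevD4 row) 2 = E2 r row col := by
  decide +kernel

theorem rhs_entry (r : Fin 24) (t : F) (row col : Idx) :
    (Cfsg.Lie.chevD4.xMat F r t : Matrix Idx Idx F) row col
      = (if row = col then 1 else 0) + t * ((E1 r row col : ℤ) : F)
        + t ^ 2 * ((E2 r row col : ℤ) : F) := by
  obtain ⟨h0, h1, h2⟩ := tab_match r row col
  refine (rhs_entry_aux r t row col (pow_ok r col)).trans ?_
  rw [h0, h1, h2]
  split_ifs <;> simp

/-- **S1082, piece P-MATCH**: `rho` sends the root element `x_r(t)` of the natural module to the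
Chevalley generator `x_r(t)` of the adjoint module. -/
theorem rho_gmat (r : Fin 24) (t : F) :
    rho F (gmat F r t) = (Cfsg.Lie.chevD4.xMat F r t : Matrix Idx Idx F) := by
  ext row col
  rw [lhs_entry, rhs_entry]

end Cfsg.Agent.H40.D4
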