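import Mathlib
import Cfsg.Agent.H75.ESDefs

/-!
helper40: S6002 piece GRP (team project of helper75): for a group of order 32 with the
hypotheses `GHyp`, the central quotient is abelian (case split on the order of the second
centre).
-/

set_option autoImplicit false

namespace Cfsg.Agent.H40.ES

open Cfsg.Agent.H75.ES

universe u

theorem comm_one_iff {K : Type u} [Group K] (a b : K) :
    a * b * a⁻¹ * b⁻¹ = 1 ↔ b * a = a * b := by
  rw [mul_inv_eq_one, mul_inv_eq_iff_eq_mul, eq_comm]

theorem mem_ucs_two_iff {G : Type u} [Group G] (g : G) :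
    g ∈ Subgroup.upperCentralSeries G 2 ↔
      (QuotientGroup.mk g : G ⧸ Subgroup.center G) ∈ Subgroup.center (G ⧸ Subgroup.center G) := by
  rw [show (2 : ℕ) = 1 + 1 from rfl, Subgroup.mem_upperCentralSeries_succ_iff,
    Subgroup.upperCentralSeries_one, Subgroup.mem_center_iff]
  constructor
  · intro h X
    obtain ⟨y, rfl⟩ := QuotientGroup.mk_surjective X
    rw [← comm_one_iff]
    have h1 := (QuotientGroup.eq_one_iff (N := Subgroup.center G) _).mpr (h y)
    exact h1
  · intro h y
    have h1 := h (QuotientGroup.mk y)
    rw [← comm_one_iff] at h1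
    apply (QuotientGroup.eq_one_iff (N := Subgroup.center G) _).mp
    exact h1

theorem grp (h1 : StGrp1.{u}) (h2 : StGrp2.{u}) (h3 : StGrp3.{u}) : StGrp.{u} := by
  intro G _ _ hG
  have hK : Nat.card (G ⧸ Subgroup.center G) = 16 := by
    have h := Subgroup.card_eq_card_quotient_mul_card_subgroup (Subgroup.center G)
    rw [hG.card, hG.center] at h
    omega
  have hcomap : Subgroup.upperCentralSeries G 2 =
      (Subgroup.center (G ⧸ Subgroup.center G)).comap (QuotientGroup.mk' (Subgroup.center G)) := by
    ext g
    rw [mem_ucs_two_iff, Subgroup.mem_comap]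
    rfl
  have hidx : (Subgroup.upperCentralSeries G 2).index =
      (Subgroup.center (G ⧸ Subgroup.center G)).index := by
    rw [hcomap]
    exact Subgroup.index_comap_of_surjective _ (QuotientGroup.mk'_surjective _)
  have hc1 := Subgroup.card_mul_index (Subgroup.upperCentralSeries G 2)
  have hc2 := Subgroup.card_mul_index (Subgroup.center (G ⧸ Subgroup.center G))
  rw [hG.card] at hc1
  rw [hK, ← hidx] at hc2
  -- the centre of the 2-group `G / Z(G)` is non-trivial
  have hp : IsPGroup 2 (G ⧸ Subgroup.center G) := by
    apply IsPGroup.of_card (n := 4)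
    rw [hK]
    norm_num
  haveI : Fact (Nat.Prime 2) := ⟨Nat.prime_two⟩
  haveI : Nontrivial (G ⧸ Subgroup.center G) := by
    apply (Finite.one_lt_card_iff_nontrivial).mp
    rw [hK]
    norm_num
  have hcn : 1 < Nat.card (Subgroup.center (G ⧸ Subgroup.center G)) := by
    haveI := hp.center_nontrivial
    exact Finite.one_lt_card
  -- the order of the second centre
  have hdvd : Nat.card (Subgroup.upperCentralSeries G 2) ∣ 32 := Dvd.intro _ hc1
  have hmem : Nat.card (Subgroup.upperCentralSeries G 2) ∈ Nat.divisors 32 := by
    rw [Nat.mem_divisors]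
    exact ⟨hdvd, by norm_num⟩
  have hdiv : Nat.divisors 32 = {1, 2, 4, 8, 16, 32} := by decide
  rw [hdiv] at hmem
  simp only [Finset.mem_insert, Finset.mem_singleton] at hmem
  by_cases h8 : 8 ≤ Nat.card (Subgroup.upperCentralSeries G 2)
  · exact h1 G hG h8
  · have h4 : Nat.card (Subgroup.upperCentralSeries G 2) = 4 := by
      rcases hmem with h | h | h | h | h | h
      · exfalso
        rw [h] at hc1
        have : (Subgroup.upperCentralSeries G 2).index = 32 := by omega
        rw [this] at hc2
        omega
      · exfalso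
        rw [h] at hc1
        have : (Subgroup.upperCentralSeries G 2).index = 16 := by omega
        rw [this] at hc2
        omega
      · exact h
      · omega
      · omega
      · omega
    have hcK : Nat.card (Subgroup.center (G ⧸ Subgroup.center G)) = 2 := by
      rw [h4] at hc1
      have : (Subgroup.upperCentralSeries G 2).index = 8 := by omega
      rw [this] at hc2
      omega
    exfalso
    by_cases hab : ∀ x y : G ⧸ Subgroup.center G,
        x * y * x⁻¹ * y⁻¹ ∈ Subgroup.center (G ⧸ Subgroup.center G)
    · exact h2 (G ⧸ Subgroup.center G) hK hcK hab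
    · apply h3 G hG h4
      intro hall
      apply hab
      intro X Y
      obtain ⟨x, rfl⟩ := QuotientGroup.mk_surjective X
      obtain ⟨y, rfl⟩ := QuotientGroup.mk_surjective Y
      exact (mem_ucs_two_iff _).mp (hall x y)

example : Cfsg.Agent.H75.ES.StGrp1.{u} → Cfsg.Agent.H75.ES.StGrp2.{u} →
    Cfsg.Agent.H75.ES.StGrp3.{u} → Cfsg.Agent.H75.ES.StGrp.{u} := grp

end Cfsg.Agent.H40.ES

#print axioms Cfsg.Agent.H40.ES.grp
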