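import Mathlib
import Cfsg.Agent.H75.ESDefs

/-!
helper40: S6002 piece IRR5 (team project of helper75): an element of order five of `GL_4(p)`,
`p ≡ ±2 (mod 5)`, acts irreducibly (fixed-point counting on vectors).
-/

set_option autoImplicit false

namespace Cfsg.Agent.H40.ES

open Cfsg.Agent.H75.ES Module

universe u v

theorem arith5 (p d f : ℕ) (hp : p % 5 = 2 ∨ p % 5 = 3) (hfd : f ≤ d) (hd : d ≤ 4)
    (h : p ^ d ≡ p ^ f [MOD 5]) : f = d ∨ (d = 4 ∧ f = 0) := by
  unfold Nat.ModEq at h
  rw [Nat.pow_mod, Nat.pow_mod p f] at h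
  rcases hp with hp | hp <;> rw [hp] at h <;> interval_cases d <;> interval_cases f <;>
    simp_all

/-- A function as an element of the monoid of self-maps. -/
def endFn {U : Type v} (f : U → U) : Function.End U := f

theorem end_pow_apply {U : Type v} [AddCommGroup U] {F : Type u} [Field F] [Module F U]
    (S : Module.End F U) (n : ℕ) (u : U) :
    (endFn (fun x => S x) ^ n) u = (S ^ n) u := by
  induction n generalizing u with
  | zero => rfl
  | succ n ih =>
    rw [pow_succ, pow_succ]
    show (endFn (fun x => S x) ^ n) (S u) = (S ^ n) (S u)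
    exact ih (S u)

/-- Fixed-point counting for a linear map of order dividing five. -/
theorem fix5 {F : Type u} [Field F] [Fintype F] (p : ℕ) (hF : Fintype.card F = p)
    (hp : p % 5 = 2 ∨ p % 5 = 3) {U : Type v} [AddCommGroup U] [Module F U]
    [FiniteDimensional F U] (hU : finrank F U ≤ 4) (S : Module.End F U) (hS : S ^ 5 = 1) :
    finrank F ↥(LinearMap.ker (S - 1)) = finrank F U ∨
      (finrank F U = 4 ∧ finrank F ↥(LinearMap.ker (S - 1)) = 0) := by
  classical
  haveI : Fact (Nat.Prime 5) := ⟨by norm_num⟩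
  haveI : Finite U := Module.finite_of_finite F
  haveI : Fintype U := Fintype.ofFinite U
  have hf : endFn (fun x => S x) ^ 5 ^ 1 = 1 := by
    funext u
    rw [pow_one, end_pow_apply, hS]
    rfl
  have h1 := Equiv.Perm.card_fixedPoints_modEq hf
  rw [← Nat.card_eq_fintype_card, ← Nat.card_eq_fintype_card] at h1
  have h2 : Nat.card ↥(Function.fixedPoints (endFn (fun x => S x)))
      = Nat.card ↥(LinearMap.ker (S - 1)) := by
    apply Nat.card_congr
    apply Equiv.subtypeEquivRight
    intro u
    show S u = u ↔ u ∈ LinearMap.ker (S - 1)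
    rw [LinearMap.mem_ker, LinearMap.sub_apply, sub_eq_zero]
    rfl
  rw [h2, Module.natCard_eq_pow_finrank (K := F) (V := U),
    Module.natCard_eq_pow_finrank (K := F) (V := ↥(LinearMap.ker (S - 1))),
    Nat.card_eq_fintype_card, hF] at h1
  have h3 : finrank F ↥(LinearMap.ker (S - 1)) ≤ finrank F U := Submodule.finrank_le _
  rcases arith5 p _ _ hp h3 hU h1 with h | ⟨h, h'⟩
  · exact Or.inl h
  · exact Or.inr ⟨h, h'⟩

theorem irr5 : StIrr5.{u} := by
  intro F _ _ p _ hF hp w hw W hW
  have hw5 : w ^ 5 = 1 := by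
    rw [← hw]
    exact pow_orderOf_eq_one w
  have hT5 : (Matrix.toLin' (w : M4 F)) ^ 5 = 1 := by
    have h1 : (Matrix.toLin' (w : M4 F)) ^ 5 = Matrix.toLin' ((w : M4 F) ^ 5) := by
      simp only [pow_succ, pow_zero, one_mul, Matrix.toLin'_mul]
      rfl
    rw [h1, ← Units.val_pow_eq_pow_val, hw5, Units.val_one, Matrix.toLin'_one]
    rfl
  have hT1 : Matrix.toLin' (w : M4 F) ≠ 1 := by
    intro h
    have h1 : Matrix.toLin' (w : M4 F) = Matrix.toLin' (1 : M4 F) := by
      rw [h, Matrix.toLin'_one]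
      rfl
    have h2 : (w : M4 F) = 1 := Matrix.toLin'.injective h1
    have h3 : w = 1 := Units.ext h2
    rw [h3, orderOf_one] at hw
    omega
  have hV : finrank F (I4 → F) = 4 := by
    rw [Module.finrank_fintype_fun_eq_card]
    rfl
  -- no nonzero fixed vector
  have hker : LinearMap.ker (Matrix.toLin' (w : M4 F) - 1) = ⊥ := by
    rcases fix5 p hF hp (le_of_eq hV) (Matrix.toLin' (w : M4 F)) hT5 with h | ⟨-, h⟩
    · exfalso
      apply hT1
      have h1 : LinearMap.ker (Matrix.toLin' (w : M4 F) - 1) = ⊤ :=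
        Submodule.eq_top_of_finrank_eq h
      apply LinearMap.ext
      intro v
      have h2 : v ∈ LinearMap.ker (Matrix.toLin' (w : M4 F) - 1) := by
        rw [h1]
        exact Submodule.mem_top
      rw [LinearMap.mem_ker, LinearMap.sub_apply, sub_eq_zero] at h2
      exact h2
    · exact Submodule.finrank_eq_zero.mp h
  -- the restriction to `W`
  have hW' : ∀ x ∈ W, Matrix.toLin' (w : M4 F) x ∈ W := fun x hx =>
    hW (Submodule.mem_map_of_mem hx)
  have hS5 : ((Matrix.toLin' (w : M4 F)).restrict hW') ^ 5 = 1 := by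
    rw [Module.End.pow_restrict 5 hW']
    apply LinearMap.ext
    intro u
    apply Subtype.ext
    rw [LinearMap.restrict_apply]
    show ((Matrix.toLin' (w : M4 F)) ^ 5) (u : I4 → F) = u
    rw [hT5]
    rfl
  have hWle : finrank F ↥W ≤ 4 := by
    rw [← hV]
    exact Submodule.finrank_le W
  rcases fix5 p hF hp hWle ((Matrix.toLin' (w : M4 F)).restrict hW') hS5 with h | ⟨h, -⟩
  · left
    have h1 : LinearMap.ker ((Matrix.toLin' (w : M4 F)).restrict hW' - 1) = ⊤ :=
      Submodule.eq_top_of_finrank_eq h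
    rw [eq_bot_iff]
    intro x hx
    have h2 : (⟨x, hx⟩ : ↥W) ∈ LinearMap.ker ((Matrix.toLin' (w : M4 F)).restrict hW' - 1) := by
      rw [h1]
      exact Submodule.mem_top
    rw [LinearMap.mem_ker, LinearMap.sub_apply, sub_eq_zero] at h2
    have h3 := congrArg Subtype.val h2
    rw [LinearMap.restrict_apply] at h3
    have h4 : x ∈ LinearMap.ker (Matrix.toLin' (w : M4 F) - 1) := by
      rw [LinearMap.mem_ker, LinearMap.sub_apply, sub_eq_zero]
      exact h3
    rw [hker] at h4
    exact h4
  · right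
    apply Submodule.eq_top_of_finrank_eq
    rw [h, hV]

example : Cfsg.Agent.H75.ES.StIrr5.{u} := irr5

end Cfsg.Agent.H40.ES

#print axioms Cfsg.Agent.H40.ES.irr5
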