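import Mathlib
import Cfsg.Agent.H83.ESDefs

/-!
# S3084, piece ES-KER (helper40): a matrix normalizing every `± P u` is itself `± P v`.
-/

set_option autoImplicit false

namespace Cfsg.Agent.H40.ES3

open Cfsg.Agent.H83.ES Matrix

theorem sgn_mul_self (t : ZMod 2) : sgn t * sgn t = 1 := by
  revert t
  decide

theorem zmod3_pm (c : ZMod 3) (hc : c ≠ 0) : c = 1 ∨ c = -1 := by
  revert c
  decide

theorem zmod3_pm_mul_self (c : ZMod 3) (hc : c = 1 ∨ c = -1) : c * c = 1 := by
  rcases hc with rfl | rfl <;> decide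

theorem zmod2_cases (t : ZMod 2) : t = 0 ∨ t = 1 := by
  revert t
  decide

theorem sgn_ite (ε : ZMod 3) (hε : ε = 1 ∨ ε = -1) : sgn (if ε = 1 then 0 else 1) = ε := by
  rcases hε with rfl | rfl
  · simp [sgn]
  · have h : ¬ ((-1 : ZMod 3) = 1) := by decide
    rw [if_neg h]
    decide

/-- **ES-KER.** -/
theorem ker (hPB : StPB) (hC : StComm) : StKer := by
  intro n M hMu hε
  classical
  obtain ⟨hP0, hPmul, hPsq, hPcomm, hPgen, hb0q, hsgn, hb0nd⟩ := hPB n
  choose ε hε1 hεM using hε
  set v : Idx n × Idx n :=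
    (fun i => if ε (0, Pi.single i 1) = 1 then 0 else 1,
      fun i => if ε (Pi.single i 1, 0) = 1 then 0 else 1) with hv
  set M' : Matrix (Idx n) (Idx n) (ZMod 3) := M * P v with hM'
  have hcomm_of : ∀ u, sgn (b0 v u) * ε u = 1 → M' * P u = P u * M' := by
    intro u hu
    calc M' * P u = M * (P v * P u) := by rw [hM', Matrix.mul_assoc]
      _ = M * (sgn (b0 v u) • (P u * P v)) := by rw [hPcomm v u]
      _ = sgn (b0 v u) • (M * P u * P v) := by rw [Matrix.mul_smul, Matrix.mul_assoc]
      _ = sgn (b0 v u) • ((ε u • (P u * M)) * P v) := by rw [hεM u]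
      _ = (sgn (b0 v u) * ε u) • (P u * M * P v) := by rw [Matrix.smul_mul, smul_smul]
      _ = P u * M' := by rw [hu, one_smul, hM', Matrix.mul_assoc]
  let S : AddSubmonoid (Idx n × Idx n) :=
    { carrier := {u | M' * P u = P u * M'}
      zero_mem' := by
        show M' * P 0 = P 0 * M'
        rw [hP0, Matrix.mul_one, Matrix.one_mul]
      add_mem' := by
        intro a b ha hb
        have ha' : M' * P a = P a * M' := ha
        have hb' : M' * P b = P b * M' := hb
        show M' * P (a + b) = P (a + b) * M'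
        have hab : P (a + b) = sgn (dot a.2 b.1) • (P a * P b) := by
          rw [hPmul a b, smul_smul, sgn_mul_self, one_smul]
        rw [hab, Matrix.mul_smul, Matrix.smul_mul, ← Matrix.mul_assoc, ha', Matrix.mul_assoc, hb',
          Matrix.mul_assoc] }
  have hmemS : ∀ u, u ∈ S ↔ M' * P u = P u * M' := fun u => Iff.rfl
  have hgen1 : ∀ i : Fin n, ((Pi.single i 1, 0) : Idx n × Idx n) ∈ S := by
    intro i
    rw [hmemS]
    apply hcomm_of
    have hb : b0 v ((Pi.single i 1, 0) : Idx n × Idx n) = v.2 i := by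
      simp [b0, dot, Pi.single_apply]
    rw [hb]
    show sgn (if ε (Pi.single i 1, 0) = 1 then 0 else 1) * ε (Pi.single i 1, 0) = 1
    rw [sgn_ite _ (hε1 _)]
    exact zmod3_pm_mul_self _ (hε1 _)
  have hgen2 : ∀ i : Fin n, ((0, Pi.single i 1) : Idx n × Idx n) ∈ S := by
    intro i
    rw [hmemS]
    apply hcomm_of
    have hb : b0 v ((0, Pi.single i 1) : Idx n × Idx n) = v.1 i := by
      simp [b0, dot, Pi.single_apply]
    rw [hb]
    show sgn (if ε (0, Pi.single i 1) = 1 then 0 else 1) * ε (0, Pi.single i 1) = 1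
    rw [sgn_ite _ (hε1 _)]
    exact zmod3_pm_mul_self _ (hε1 _)
  have hall : ∀ u : Idx n × Idx n, u ∈ S := by
    intro u
    have hu : u = (∑ i, ((Pi.single i (u.1 i), 0) : Idx n × Idx n)) +
        ∑ i, ((0, Pi.single i (u.2 i)) : Idx n × Idx n) := by
      apply Prod.ext
      · simp [Prod.fst_sum, Finset.univ_sum_single]
      · simp [Prod.snd_sum, Finset.univ_sum_single]
    rw [hu]
    apply S.add_mem
    · apply S.sum_mem
      intro i _
      rcases zmod2_cases (u.1 i) with h | h
      · rw [h]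
        have : ((Pi.single i 0, 0) : Idx n × Idx n) = 0 := by simp
        rw [this]
        exact S.zero_mem
      · rw [h]
        exact hgen1 i
    · apply S.sum_mem
      intro i _
      rcases zmod2_cases (u.2 i) with h | h
      · rw [h]
        have : ((0, Pi.single i 0) : Idx n × Idx n) = 0 := by simp
        rw [this]
        exact S.zero_mem
      · rw [h]
        exact hgen2 i
  obtain ⟨c, hc⟩ := hC n M' (fun u => (hmemS u).mp (hall u))
  have hM : M = (sgn (q0 v) * c) • P v := by
    have h1 : M' * P v = sgn (q0 v) • M := by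
      rw [hM', Matrix.mul_assoc, hPsq v, Matrix.mul_smul, Matrix.mul_one]
    rw [hc, Matrix.smul_mul, Matrix.one_mul] at h1
    calc M = (sgn (q0 v) * sgn (q0 v)) • M := by rw [sgn_mul_self, one_smul]
      _ = sgn (q0 v) • (sgn (q0 v) • M) := by rw [smul_smul]
      _ = sgn (q0 v) • (c • P v) := by rw [h1]
      _ = (sgn (q0 v) * c) • P v := by rw [smul_smul]
  refine ⟨v, sgn (q0 v) * c, ?_, hM⟩
  apply zmod3_pm
  intro h0
  rw [h0, zero_smul] at hM
  rw [hM, Matrix.det_zero] at hMu
  exact not_isUnit_zero hMu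

example (hPB : StPB) (hC : StComm) : StKer := ker hPB hC

end Cfsg.Agent.H40.ES3
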