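import Mathlib
import Cfsg.Agent.H48.EpDefs2
import Cfsg.Agent.H49.NDTrans
import Cfsg.Agent.H49.PtExTransP

/-!
# S5974, piece EP-ORBP (helper40): two nondegenerate plus-type subspaces of the same dimension,
both orthogonal to a nondegenerate subspace `R`, are conjugate under an isometry fixing `R`
pointwise (Witt).  Port of helper48's `H48/OhOrbTrans.lean` to the plus-type quadratic form in
all characteristics.
-/

set_option autoImplicit false

namespace Cfsg.Agent.H40.Ep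

open Cfsg.Agent.H45 Cfsg.Agent.H42.Spd Cfsg.Agent.H42.Ti Cfsg.Agent.H48.Ep Module

universe u

/-- A nondegenerate plus-type subspace of dimension `2 t` is isometric to the standard plus-type
space. -/
theorem plus_model {F : Type u} [Field F] [Fintype F] {V : Type u} [AddCommGroup V] [Module F V]
    [FiniteDimensional F V] (Q : QuadraticForm F V) (W : Submodule F V) (t : ℕ)
    (hW : QNd Q W) (hP : QPlus Q W) (ht : finrank F ↥W = 2 * t) :
    ∃ e : ↥W ≃ₗ[F] (Fin t ⊕ Fin t → F), ∀ w : ↥W, Cfsg.quadFormPlus t F (e w) = Q (w : V) := by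
  obtain ⟨U, hUW, hUts, hUdim⟩ := hP
  have hQW : ∀ w : ↥W, (Q.comp W.subtype) w = Q (w : V) := fun w => rfl
  have hpol : ∀ x y : ↥W, QuadraticMap.polar ⇑(Q.comp W.subtype) x y =
      QuadraticMap.polar ⇑Q (x : V) (y : V) := by
    intro x y
    simp only [QuadraticMap.polar, hQW, Submodule.coe_add]
  refine Cfsg.Agent.H49.PtEx.transP F ↥W (Q.comp W.subtype) t ?_ ht ?_
  · intro x hx
    have h1 : (x : V) ∈ W ⊓ perp (QuadraticMap.polarBilin Q) W := by
      refine ⟨x.2, fun u hu => ?_⟩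
      have := hx ⟨u, hu⟩
      rw [hpol] at this
      show QuadraticMap.polar ⇑Q u (x : V) = 0
      rw [QuadraticMap.polar_comm]
      exact this
    have hW' : W ⊓ perp (QuadraticMap.polarBilin Q) W = ⊥ := hW
    rw [hW'] at h1
    exact Subtype.ext ((Submodule.mem_bot F).mp h1)
  · refine ⟨U.comap W.subtype, ?_, ?_⟩
    · intro m hm
      exact hUts (m : V) hm
    · have := (Submodule.comapSubtypeEquivOfLe hUW).finrank_eq
      omega

/-- **EP-ORBP.** -/
theorem orbP : StOrbP.{u} := by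
  intro F _ _ d hd R W W' hR hW hW' hWR hW'R hdim hP hP'
  classical
  have hQcoe : ∀ y, Cfsg.Agent.H49.QP d F y = Cfsg.quadFormPlus d F y := fun y => rfl
  obtain ⟨U, hUW, hUts, hUdim⟩ := hP
  have ht : finrank F ↥W = 2 * finrank F ↥U := hUdim.symm
  have ht' : finrank F ↥W' = 2 * finrank F ↥U := by rw [← hdim]; exact ht
  obtain ⟨e1, he1⟩ := plus_model (Cfsg.Agent.H49.QP d F) W (finrank F ↥U) hW
    ⟨U, hUW, hUts, hUdim⟩ ht
  obtain ⟨e2, he2⟩ := plus_model (Cfsg.Agent.H49.QP d F) W' (finrank F ↥U) hW' hP' ht'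
  set e₀ : ↥W ≃ₗ[F] ↥W' := e1 ≪≫ₗ e2.symm with he₀def
  have hQe₀ : ∀ w : ↥W, Cfsg.quadFormPlus d F ((e₀ w : ↥W') : Fin d ⊕ Fin d → F) =
      Cfsg.quadFormPlus d F (w : Fin d ⊕ Fin d → F) := by
    intro w
    have h1 := he2 (e₀ w)
    have h2 := he1 w
    rw [hQcoe] at h1 h2
    rw [← h1, ← h2, he₀def]
    simp
  set B : (Fin d ⊕ Fin d → F) →ₗ[F] (Fin d ⊕ Fin d → F) →ₗ[F] F :=
    QuadraticMap.polarBilin (Cfsg.Agent.H49.QP d F) with hB
  have hBpol : ∀ x y, B x y = QuadraticMap.polar (Cfsg.quadFormPlus d F) x y := fun x y => rfl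
  have hBsymm : ∀ x y, B x y = B y x := fun x y => QuadraticMap.polar_comm _ x y
  have hRnd : R ⊓ perp B R = ⊥ := hR
  have hWnd : W ⊓ perp B W = ⊥ := hW
  -- the linear map: `e₀` on `W`, identity on `perp B W ⊇ R`
  have hcompl : IsCompl W (perp B W) := isCompl_perp B W hWnd
  let π : (Fin d ⊕ Fin d → F) →ₗ[F] W := Submodule.linearProjOfIsCompl W (perp B W) hcompl
  let e : (Fin d ⊕ Fin d → F) →ₗ[F] (Fin d ⊕ Fin d → F) :=
    W'.subtype ∘ₗ e₀.toLinearMap ∘ₗ π + (LinearMap.id - W.subtype ∘ₗ π)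
  have hRperp : R ≤ perp B W := by
    intro x hx u hu
    rw [hBpol]
    exact hWR u hu x hx
  have heW : ∀ w : W, e (w : Fin d ⊕ Fin d → F) = (e₀ w : W') := by
    intro w
    have h1 : π (w : Fin d ⊕ Fin d → F) = w :=
      Submodule.linearProjOfIsCompl_apply_left hcompl w
    simp only [e, LinearMap.add_apply, LinearMap.comp_apply, LinearMap.sub_apply,
      LinearMap.id_apply, Submodule.subtype_apply, LinearEquiv.coe_coe]
    rw [h1, sub_self, add_zero]
  have heR : ∀ x ∈ R, e x = x := by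
    intro x hx
    have h1 : π x = 0 := Submodule.linearProjOfIsCompl_apply_right' hcompl (hRperp hx)
    simp only [e, LinearMap.add_apply, LinearMap.comp_apply, LinearMap.sub_apply,
      LinearMap.id_apply, Submodule.subtype_apply, LinearEquiv.coe_coe]
    rw [h1, map_zero]
    simp
  -- `W ⊔ R` is nondegenerate
  have hU : (W ⊔ R) ⊓ LinearMap.BilinForm.orthogonal
      (QuadraticMap.polarBilin (Cfsg.Agent.H49.QP d F)) (W ⊔ R) = ⊥ := by
    rw [eq_bot_iff]
    rintro x ⟨hx1, hx2⟩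
    rw [Submodule.mem_bot]
    have hx2' : ∀ n ∈ W ⊔ R, B n x = 0 := fun n hn =>
      (LinearMap.BilinForm.mem_orthogonal_iff.mp hx2) n hn
    obtain ⟨w, hw, r, hr, rfl⟩ := Submodule.mem_sup.mp hx1
    have hw0 : w = 0 := by
      have h1 : w ∈ W ⊓ perp B W := by
        refine ⟨hw, fun u hu => ?_⟩
        have h3 := hx2' u (Submodule.mem_sup_left hu)
        rw [map_add, hRperp hr u hu, add_zero] at h3
        exact h3
      rw [hWnd] at h1
      exact (Submodule.mem_bot F).mp h1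
    have hr0 : r = 0 := by
      have h1 : r ∈ R ⊓ perp B R := by
        refine ⟨hr, fun u hu => ?_⟩
        have h3 := hx2' u (Submodule.mem_sup_right hu)
        rw [map_add, hBsymm u w, hRperp hu w hw, zero_add] at h3
        exact h3
      rw [hRnd] at h1
      exact (Submodule.mem_bot F).mp h1
    rw [hw0, hr0, add_zero]
  have he : ∀ u ∈ W ⊔ R, Cfsg.Agent.H49.QP d F (e u) = Cfsg.Agent.H49.QP d F u := by
    intro u hu
    obtain ⟨w, hw, r, hr, rfl⟩ := Submodule.mem_sup.mp hu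
    rw [map_add, heW ⟨w, hw⟩, heR r hr]
    rw [hQcoe, hQcoe]
    have h1 : QuadraticMap.polar (Cfsg.quadFormPlus d F)
        ((e₀ ⟨w, hw⟩ : W') : Fin d ⊕ Fin d → F) r = 0 :=
      hW'R _ (e₀ ⟨w, hw⟩).2 r hr
    have h3 : QuadraticMap.polar (Cfsg.quadFormPlus d F) w r = 0 := hWR w hw r hr
    rw [QuadraticMap.polar] at h1 h3
    have h4 := hQe₀ ⟨w, hw⟩
    simp only at h4
    linear_combination h1 - h3 + h4
  have hex : Fintype.card F ≠ 2 ∨ finrank F (Fin d ⊕ Fin d → F) ≠ 4 := by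
    right
    rw [Cfsg.Agent.H49.finrank_plus]
    omega
  obtain ⟨g, hg⟩ := Cfsg.Agent.H49.witt_nondeg (Cfsg.Agent.H49.QP d F)
    (Cfsg.Agent.H49.QP_nondeg d F) hex (W ⊔ R) hU e he
  refine ⟨(g : Matrix.GeneralLinearGroup (Fin d ⊕ Fin d) F), g.2, ?_, ?_⟩
  · intro v hv
    rw [Matrix.toLin'_apply, hg v (Submodule.mem_sup_right hv), heR v hv]
  · apply le_antisymm
    · rintro y ⟨w, hw, rfl⟩
      rw [Matrix.toLin'_apply, hg w (Submodule.mem_sup_left hw), heW ⟨w, hw⟩]
      exact (e₀ ⟨w, hw⟩).2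
    · intro y hy
      refine ⟨(e₀.symm ⟨y, hy⟩ : W), (e₀.symm ⟨y, hy⟩).2, ?_⟩
      rw [Matrix.toLin'_apply, hg _ (Submodule.mem_sup_left (e₀.symm ⟨y, hy⟩).2),
        heW (e₀.symm ⟨y, hy⟩), LinearEquiv.apply_symm_apply]

example : StOrbP.{u} := orbP

end Cfsg.Agent.H40.Ep
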