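import Mathlib
import Cfsg.Agent.H48.EpDefs2
import Cfsg.Agent.H49.StdBasis
import Cfsg.Agent.H49.Similar
import Cfsg.Agent.H49.Omega2

/-!
# S5974, piece EP-QBOTH2 (helper40): in characteristic `2`, a nondegenerate subspace `K` of
dimension at least `e + 2` contains nondegenerate subspaces of even dimension `e ≥ 2` of both
types.
-/

set_option autoImplicit false

namespace Cfsg.Agent.H40.Ep

open Cfsg.Agent.H45 Cfsg.Agent.H42.Spd Cfsg.Agent.H42.Ti Cfsg.Agent.H48.Ep Module

universe u v

section Generic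

variable {F : Type u} [Field F] {V : Type v} [AddCommGroup V] [Module F V]

/-- The span of pairwise orthogonal singular vectors is totally singular. -/
theorem ts_span_range (Q : QuadraticForm F V) {ι : Type*} (g : ι → V) (h0 : ∀ i, Q (g i) = 0)
    (h1 : ∀ i j, QuadraticMap.polar ⇑Q (g i) (g j) = 0) :
    ∀ x ∈ Submodule.span F (Set.range g), Q x = 0 := by
  have P1 : ∀ j, Submodule.span F (Set.range g) ≤ LinearMap.ker (QuadraticMap.polarBilin Q (g j)) := by
    intro j
    rw [Submodule.span_le]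
    rintro _ ⟨i, rfl⟩
    exact LinearMap.mem_ker.mpr (h1 j i)
  have P2 : ∀ y ∈ Submodule.span F (Set.range g),
      Submodule.span F (Set.range g) ≤ LinearMap.ker ((QuadraticMap.polarBilin Q).flip y) := by
    intro y hy
    rw [Submodule.span_le]
    rintro _ ⟨i, rfl⟩
    apply LinearMap.mem_ker.mpr
    rw [LinearMap.flip_apply]
    exact LinearMap.mem_ker.mp (P1 i hy)
  intro x hx
  induction hx using Submodule.span_induction with
  | mem x hx =>
    obtain ⟨i, rfl⟩ := hx
    exact h0 i
  | zero => exact QuadraticMap.map_zero Q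
  | add x y hx hy ihx ihy =>
    have hxy : QuadraticMap.polar ⇑Q x y = 0 := by
      have := LinearMap.mem_ker.mp (P2 y hy hx)
      rwa [LinearMap.flip_apply] at this
    have : Q (x + y) = Q x + Q y + QuadraticMap.polar ⇑Q x y := by
      simp only [QuadraticMap.polar]; ring
    rw [this, ihx, ihy, hxy]; simp
  | smul a x hx ihx =>
    rw [QuadraticMap.map_smul, ihx, smul_zero]

/-- A vector orthogonal to a family is orthogonal to its span. -/
theorem polar_span_range (Q : QuadraticForm F V) {ι : Type*} (g : ι → V) (p : V)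
    (h : ∀ i, QuadraticMap.polar ⇑Q p (g i) = 0) :
    ∀ y ∈ Submodule.span F (Set.range g), QuadraticMap.polar ⇑Q p y = 0 := by
  have P1 : Submodule.span F (Set.range g) ≤ LinearMap.ker (QuadraticMap.polarBilin Q p) := by
    rw [Submodule.span_le]
    rintro _ ⟨i, rfl⟩
    exact LinearMap.mem_ker.mpr (h i)
  intro y hy
  exact LinearMap.mem_ker.mp (P1 hy)

/-- The span of `n` hyperbolic pairs is nondegenerate of dimension `2 n` and of plus type. -/
theorem hyp_span [FiniteDimensional F V] (Q : QuadraticForm F V) (n : ℕ) (a b : Fin n → V)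
    (ha : ∀ i, Q (a i) = 0) (_hb : ∀ i, Q (b i) = 0)
    (hab : ∀ i j, QuadraticMap.polar ⇑Q (a i) (b j) = if i = j then 1 else 0)
    (haa : ∀ i j, QuadraticMap.polar ⇑Q (a i) (a j) = 0)
    (hbb : ∀ i j, QuadraticMap.polar ⇑Q (b i) (b j) = 0) :
    QNd Q (Submodule.span F (Set.range (Sum.elim a b))) ∧
      finrank F ↥(Submodule.span F (Set.range (Sum.elim a b))) = 2 * n ∧
      QPlus Q (Submodule.span F (Set.range (Sum.elim a b))) := by
  classical
  set g : Fin n ⊕ Fin n → V := Sum.elim a b with hg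
  set g' : Fin n ⊕ Fin n → V := Sum.elim b a with hg'
  have hdual : ∀ i j, QuadraticMap.polar ⇑Q (g i) (g' j) = if i = j then 1 else 0 := by
    intro i j
    rcases i with i | i <;> rcases j with j | j
    · simp [hg, hg', hab]
    · simp [hg, hg', haa]
    · simp [hg, hg', hbb]
    · simp only [hg, hg', Sum.elim_inr, Sum.inr.injEq]
      rw [QuadraticMap.polar_comm, hab]
      simp [eq_comm]
  have hli : LinearIndependent F g := Cfsg.Agent.H49.linearIndependent_of_dual Q g g' hdual
  have hg'mem : ∀ j, g' j ∈ Submodule.span F (Set.range g) := by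
    intro j
    rcases j with j | j
    · exact Submodule.subset_span ⟨Sum.inr j, rfl⟩
    · exact Submodule.subset_span ⟨Sum.inl j, rfl⟩
  refine ⟨?_, ?_, ?_⟩
  · show Submodule.span F (Set.range g) ⊓ perp (QuadraticMap.polarBilin Q)
      (Submodule.span F (Set.range g)) = ⊥
    rw [eq_bot_iff]
    rintro x ⟨hx1, hx2⟩
    rw [Submodule.mem_bot]
    obtain ⟨c, rfl⟩ := (Submodule.mem_span_range_iff_exists_fun F).mp hx1
    have hc : ∀ j, c j = 0 := by
      intro j
      have h : QuadraticMap.polar ⇑Q (g' j) (∑ i, c i • g i) = 0 := hx2 (g' j) (hg'mem j)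
      have h' : QuadraticMap.polarBilin Q (g' j) (∑ i, c i • g i) = 0 := h
      rw [map_sum] at h'
      have h3 : ∀ i ∈ Finset.univ, QuadraticMap.polarBilin Q (g' j) (c i • g i)
          = if i = j then c i else 0 := by
        intro i _
        rw [map_smul]
        show c i • QuadraticMap.polar ⇑Q (g' j) (g i) = _
        rw [QuadraticMap.polar_comm, hdual i j]
        split_ifs <;> simp
      rw [Finset.sum_congr rfl h3, Finset.sum_ite_eq' Finset.univ j, if_pos (Finset.mem_univ j)]
        at h'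
      exact h'
    apply Finset.sum_eq_zero
    intro i _
    rw [hc i, zero_smul]
  · rw [finrank_span_eq_card hli, Fintype.card_sum, Fintype.card_fin]
    ring
  · refine ⟨Submodule.span F (Set.range a), ?_, ts_span_range Q a ha haa, ?_⟩
    · rw [Submodule.span_le]
      rintro _ ⟨i, rfl⟩
      exact Submodule.subset_span ⟨Sum.inl i, rfl⟩
    · have hla : LinearIndependent F a := hli.comp Sum.inl Sum.inl_injective
      rw [finrank_span_eq_card hla, finrank_span_eq_card hli, Fintype.card_sum, Fintype.card_fin]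
      ring

/-- A plane with form `α x² + x y + β y²` anisotropic is nondegenerate and not of plus type
(characteristic `2`). -/
theorem aniso_plane [FiniteDimensional F V] (Q : QuadraticForm F V) (h2 : (2 : F) = 0)
    (p1 p2 : V) (α β : F) (h1 : Q p1 = α) (h2' : Q p2 = β)
    (h12 : QuadraticMap.polar ⇑Q p1 p2 = 1)
    (han : ∀ x y : F, α * x ^ 2 + x * y + β * y ^ 2 = 0 → x = 0 ∧ y = 0) :
    QNd Q (Submodule.span F (Set.range ![p1, p2])) ∧
      finrank F ↥(Submodule.span F (Set.range ![p1, p2])) = 2 ∧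
      ¬ QPlus Q (Submodule.span F (Set.range ![p1, p2])) := by
  classical
  have hQ : ∀ x y : F, Q (x • p1 + y • p2) = α * x ^ 2 + x * y + β * y ^ 2 := by
    intro x y
    rw [Cfsg.Agent.H49.Q_lin2, h1, h2', h12]
    ring
  have hzero : ∀ x y : F, x • p1 + y • p2 = 0 → x = 0 ∧ y = 0 := by
    intro x y h
    apply han
    rw [← hQ, h, QuadraticMap.map_zero]
  have hli : LinearIndependent F ![p1, p2] := LinearIndependent.pair_iff.mpr hzero
  have hmem : ∀ x, x ∈ Submodule.span F (Set.range ![p1, p2]) ↔ ∃ a b : F, x = a • p1 + b • p2 := by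
    intro x
    rw [Submodule.mem_span_range_iff_exists_fun]
    constructor
    · rintro ⟨c, rfl⟩
      exact ⟨c 0, c 1, by simp [Fin.sum_univ_two]⟩
    · rintro ⟨a, b, rfl⟩
      exact ⟨![a, b], by simp [Fin.sum_univ_two]⟩
  have hp1 : p1 ∈ Submodule.span F (Set.range ![p1, p2]) := Submodule.subset_span ⟨0, rfl⟩
  have hp2 : p2 ∈ Submodule.span F (Set.range ![p1, p2]) := Submodule.subset_span ⟨1, rfl⟩
  refine ⟨?_, ?_, ?_⟩
  · show Submodule.span F (Set.range ![p1, p2]) ⊓ perp (QuadraticMap.polarBilin Q)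
      (Submodule.span F (Set.range ![p1, p2])) = ⊥
    rw [eq_bot_iff]
    rintro x ⟨hx1, hx2⟩
    rw [Submodule.mem_bot]
    obtain ⟨a, b, rfl⟩ := (hmem x).mp hx1
    have e1 : QuadraticMap.polar ⇑Q p1 (a • p1 + b • p2) = 0 := hx2 p1 hp1
    have e2 : QuadraticMap.polar ⇑Q p2 (a • p1 + b • p2) = 0 := hx2 p2 hp2
    have f1 := Cfsg.Agent.H49.polar_lin2 Q p1 p2 1 0 a b
    have f2 := Cfsg.Agent.H49.polar_lin2 Q p1 p2 0 1 a b
    rw [one_smul, zero_smul, add_zero, e1, h12] at f1
    rw [one_smul, zero_smul, zero_add, e2, h12] at f2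
    have hb : b = 0 := by linear_combination -f1 - (a * Q p1) * h2
    have ha : a = 0 := by linear_combination -f2 - (b * Q p2) * h2
    rw [ha, hb]
    simp
  · rw [finrank_span_eq_card hli, Fintype.card_fin]
  · rintro ⟨U, hUP, hUts, hUdim⟩
    rw [finrank_span_eq_card hli, Fintype.card_fin] at hUdim
    have hU1 : finrank F ↥U = 1 := by omega
    have hUne : U ≠ ⊥ := by
      intro h
      rw [h, finrank_bot] at hU1
      exact zero_ne_one hU1
    obtain ⟨u, hu, hu0⟩ := Submodule.exists_mem_ne_zero_of_ne_bot hUne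
    obtain ⟨a, b, rfl⟩ := (hmem u).mp (hUP hu)
    have := hUts _ hu
    rw [hQ] at this
    obtain ⟨ha, hb⟩ := han a b this
    apply hu0
    rw [ha, hb]
    simp

/-- From two further hyperbolic pairs `(u, v)`, `(e', f')` one gets an anisotropic plane
`⟨u + ζ v, e' + f' + v⟩` with form `ζ x² + x y + y²`, orthogonal to everything the four vectors
are orthogonal to. -/
theorem mix_of_hyp (Q : QuadraticForm F V) (n : ℕ) (a b : Fin n → V)
    (u w e' f' : V) (ζ : F)
    (hu : Q u = 0) (hw : Q w = 0) (he : Q e' = 0) (hf : Q f' = 0)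
    (huw : QuadraticMap.polar ⇑Q u w = 1) (hef : QuadraticMap.polar ⇑Q e' f' = 1)
    (hue : QuadraticMap.polar ⇑Q u e' = 0) (huf : QuadraticMap.polar ⇑Q u f' = 0)
    (hwe : QuadraticMap.polar ⇑Q w e' = 0) (hwf : QuadraticMap.polar ⇑Q w f' = 0)
    (hua : ∀ i, QuadraticMap.polar ⇑Q u (a i) = 0) (hub : ∀ i, QuadraticMap.polar ⇑Q u (b i) = 0)
    (hwa : ∀ i, QuadraticMap.polar ⇑Q w (a i) = 0) (hwb : ∀ i, QuadraticMap.polar ⇑Q w (b i) = 0)
    (hea : ∀ i, QuadraticMap.polar ⇑Q e' (a i) = 0)
    (heb : ∀ i, QuadraticMap.polar ⇑Q e' (b i) = 0)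
    (hfa : ∀ i, QuadraticMap.polar ⇑Q f' (a i) = 0)
    (hfb : ∀ i, QuadraticMap.polar ⇑Q f' (b i) = 0)
    (hζ : ∀ t : F, t ^ 2 + t + ζ ≠ 0) :
    Q (u + ζ • w) = ζ ∧ Q (e' + f' + w) = 1 ∧
      QuadraticMap.polar ⇑Q (u + ζ • w) (e' + f' + w) = 1 ∧
      (∀ x y : F, ζ * x ^ 2 + x * y + 1 * y ^ 2 = 0 → x = 0 ∧ y = 0) ∧
      (∀ i, QuadraticMap.polar ⇑Q (u + ζ • w) (a i) = 0 ∧
        QuadraticMap.polar ⇑Q (u + ζ • w) (b i) = 0 ∧
        QuadraticMap.polar ⇑Q (e' + f' + w) (a i) = 0 ∧
        QuadraticMap.polar ⇑Q (e' + f' + w) (b i) = 0) := by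
  have hQadd : ∀ x y : V, Q (x + y) = Q x + Q y + QuadraticMap.polar ⇑Q x y := by
    intro x y
    simp only [QuadraticMap.polar]
    ring
  have hww : QuadraticMap.polar ⇑Q w w = 0 := by
    rw [Cfsg.Agent.H49.quad_polar_self, hw, mul_zero]
  have hew : QuadraticMap.polar ⇑Q e' w = 0 := by rw [QuadraticMap.polar_comm]; exact hwe
  have hfw : QuadraticMap.polar ⇑Q f' w = 0 := by rw [QuadraticMap.polar_comm]; exact hwf
  refine ⟨?_, ?_, ?_, ?_, ?_⟩
  · rw [hQadd, QuadraticMap.map_smul, QuadraticMap.polar_smul_right, hu, hw, huw]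
    simp
  · rw [hQadd, hQadd, QuadraticMap.polar_add_left, he, hf, hef, hw, hew, hfw]
    ring
  · simp only [QuadraticMap.polar_add_left, QuadraticMap.polar_add_right,
      QuadraticMap.polar_smul_left, hue, huf, huw, hwe, hwf, hww]
    simp
  · intro x y h
    by_cases hx : x = 0
    · subst hx
      refine ⟨rfl, ?_⟩
      have : y ^ 2 = 0 := by simpa using h
      exact pow_eq_zero_iff (by norm_num) |>.mp this
    · exfalso
      apply hζ (y / x)
      field_simp
      linear_combination h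
  · intro i
    refine ⟨?_, ?_, ?_, ?_⟩
    · simp only [QuadraticMap.polar_add_left, QuadraticMap.polar_smul_left, hua, hwa]
      simp
    · simp only [QuadraticMap.polar_add_left, QuadraticMap.polar_smul_left, hub, hwb]
      simp
    · simp only [QuadraticMap.polar_add_left, hea, hfa, hwa]
      simp
    · simp only [QuadraticMap.polar_add_left, heb, hfb, hwb]
      simp

end Generic

/-- The final assembly from `s` hyperbolic pairs, resp. `s - 1` hyperbolic pairs and an
orthogonal anisotropic plane, inside `K`. -/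
theorem qBoth2_of_data (hQS : StQSum.{u, v}) {F : Type u} [Field F] [Fintype F] {V : Type v}
    [AddCommGroup V] [Module F V] [FiniteDimensional F V]
    (Q : QuadraticForm F V) (K : Submodule F V) (s : ℕ) (hs : 1 ≤ s) (h2 : (2 : F) = 0)
    (hHyp : ∃ a b : Fin s → V, (∀ i, a i ∈ K ∧ b i ∈ K) ∧ (∀ i, Q (a i) = 0) ∧
      (∀ i, Q (b i) = 0) ∧
      (∀ i j, QuadraticMap.polar ⇑Q (a i) (b j) = if i = j then 1 else 0) ∧
      (∀ i j, QuadraticMap.polar ⇑Q (a i) (a j) = 0) ∧
      (∀ i j, QuadraticMap.polar ⇑Q (b i) (b j) = 0))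
    (hMix : ∃ (a b : Fin (s - 1) → V) (p1 p2 : V) (α β : F), (∀ i, a i ∈ K ∧ b i ∈ K) ∧
      p1 ∈ K ∧ p2 ∈ K ∧ (∀ i, Q (a i) = 0) ∧ (∀ i, Q (b i) = 0) ∧
      (∀ i j, QuadraticMap.polar ⇑Q (a i) (b j) = if i = j then 1 else 0) ∧
      (∀ i j, QuadraticMap.polar ⇑Q (a i) (a j) = 0) ∧
      (∀ i j, QuadraticMap.polar ⇑Q (b i) (b j) = 0) ∧
      Q p1 = α ∧ Q p2 = β ∧ QuadraticMap.polar ⇑Q p1 p2 = 1 ∧
      (∀ x y : F, α * x ^ 2 + x * y + β * y ^ 2 = 0 → x = 0 ∧ y = 0) ∧
      (∀ i, QuadraticMap.polar ⇑Q p1 (a i) = 0 ∧ QuadraticMap.polar ⇑Q p1 (b i) = 0 ∧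
        QuadraticMap.polar ⇑Q p2 (a i) = 0 ∧ QuadraticMap.polar ⇑Q p2 (b i) = 0))
    (pl : Prop) :
    ∃ W : Submodule F V, W ≤ K ∧ QNd Q W ∧ finrank F ↥W = 2 * s ∧ (QPlus Q W ↔ pl) := by
  classical
  by_cases hpl : pl
  · obtain ⟨a, b, hK, ha, hb, hab, haa, hbb⟩ := hHyp
    obtain ⟨h1, h3, h4⟩ := hyp_span Q s a b ha hb hab haa hbb
    refine ⟨_, ?_, h1, h3, iff_of_true h4 hpl⟩
    rw [Submodule.span_le]
    rintro _ ⟨i | i, rfl⟩
    · exact (hK i).1
    · exact (hK i).2
  · obtain ⟨a, b, p1, p2, α, β, hK, hp1, hp2, ha, hb, hab, haa, hbb, hq1, hq2, h12, han, horth⟩ :=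
      hMix
    obtain ⟨hH1, hH2, hH3⟩ := hyp_span Q (s - 1) a b ha hb hab haa hbb
    obtain ⟨hP1, hP2, hP3⟩ := aniso_plane Q h2 p1 p2 α β hq1 hq2 h12 han
    have horth' : ∀ x ∈ Submodule.span F (Set.range ![p1, p2]),
        ∀ y ∈ Submodule.span F (Set.range (Sum.elim a b)), QuadraticMap.polar ⇑Q x y = 0 := by
      intro x hx y hy
      obtain ⟨c, rfl⟩ := (Submodule.mem_span_range_iff_exists_fun F).mp hx
      have e1 := polar_span_range Q (Sum.elim a b) p1 (by
        rintro (i | i)
        · exact (horth i).1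
        · exact (horth i).2.1) y hy
      have e2 := polar_span_range Q (Sum.elim a b) p2 (by
        rintro (i | i)
        · exact (horth i).2.2.1
        · exact (horth i).2.2.2) y hy
      simp [Fin.sum_univ_two, QuadraticMap.polar_add_left, QuadraticMap.polar_smul_left, e1, e2]
    obtain ⟨hW1, hW2, hW3⟩ := hQS F V Q _ _ hP1 hH1 horth' (by rw [hP2]; exact even_two)
      (by rw [hH2]; exact even_two_mul _)
    refine ⟨_, ?_, hW1, ?_, iff_of_false ?_ hpl⟩
    · apply sup_le
      · rw [Submodule.span_le]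
        rintro _ ⟨i, rfl⟩
        fin_cases i
        · exact hp1
        · exact hp2
      · rw [Submodule.span_le]
        rintro _ ⟨i | i, rfl⟩
        · exact (hK i).1
        · exact (hK i).2
    · rw [hW2, hP2, hH2]
      omega
    · intro h
      exact hP3 ((hW3.mp h).mpr hH3)

/-- In characteristic `2` there is `ζ` with `t² + t + ζ` without roots. -/
theorem exists_noroot {F : Type u} [Field F] [Fintype F] (h2 : (2 : F) = 0) :
    ∃ ζ : F, ∀ t : F, t ^ 2 + t + ζ ≠ 0 := by
  classical
  have hni : ¬ Function.Injective (fun t : F => t ^ 2 + t) := by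
    intro hinj
    have h01 : (0 : F) = 1 := by
      apply hinj
      show (0 : F) ^ 2 + 0 = 1 ^ 2 + 1
      linear_combination -h2
    exact zero_ne_one h01
  have hns : ¬ Function.Surjective (fun t : F => t ^ 2 + t) :=
    fun hs => hni (Finite.injective_iff_surjective.mpr hs)
  rw [Function.Surjective] at hns
  push Not at hns
  obtain ⟨ζ, hζ⟩ := hns
  refine ⟨ζ, fun t ht => hζ t ?_⟩
  show t ^ 2 + t = ζ
  linear_combination ht - ζ * h2

/-- **EP-QBOTH2.** -/
theorem qBoth2 (hQS : StQSum.{u, v}) : StQBoth2.{u, v} := by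
  intro F _ _ V _ _ _ Q K e pl h2 hK hev he2 heK
  classical
  -- the restricted form
  set QK : QuadraticForm F ↥K := Q.comp K.subtype with hQKdef
  have hQK : ∀ w : ↥K, QK w = Q (w : V) := fun w => rfl
  have hpol : ∀ x y : ↥K, QuadraticMap.polar ⇑QK x y =
      QuadraticMap.polar ⇑Q (x : V) (y : V) := by
    intro x y
    simp only [QuadraticMap.polar, hQK, Submodule.coe_add]
  have key : ∀ x : ↥K, (∀ y : ↥K, QuadraticMap.polar ⇑QK x y = 0) → x = 0 := by
    intro x hx
    have h1 : (x : V) ∈ K ⊓ perp (QuadraticMap.polarBilin Q) K := by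
      refine ⟨x.2, fun u hu => ?_⟩
      have := hx ⟨u, hu⟩
      rw [hpol] at this
      show QuadraticMap.polar ⇑Q u (x : V) = 0
      rw [QuadraticMap.polar_comm]
      exact this
    have hK' : K ⊓ perp (QuadraticMap.polarBilin Q) K = ⊥ := hK
    rw [hK'] at h1
    exact Subtype.ext ((Submodule.mem_bot F).mp h1)
  have hnd : (QuadraticMap.polarBilin QK).Nondegenerate := by
    constructor
    · intro x hx
      exact key x hx
    · intro y hy
      apply key y
      intro x
      rw [QuadraticMap.polar_comm]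
      exact hy x
  obtain ⟨k, hk⟩ := Cfsg.Agent.H49.even_finrank_char_two h2 QK hnd
  obtain ⟨s, hs⟩ := hev
  have hs1 : 1 ≤ s := by omega
  have hsk : s + 1 ≤ k := by omega
  have hres : ∃ W : Submodule F V, W ≤ K ∧ QNd Q W ∧ finrank F ↥W = 2 * s ∧ (QPlus Q W ↔ pl) := by
    rcases Cfsg.Agent.H49.even_standard_basis hk QK hnd with
      ⟨b, h1, h2', h3⟩ | ⟨b, ζ, hζ, h1, h2', h3, h4, h5, h6, h7⟩
    · -- hyperbolic basis of `K`
      set A : Fin k → V := fun i => (b (Sum.inl i) : V) with hAdef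
      set Bv : Fin k → V := fun i => (b (Sum.inr i) : V) with hBdef
      have hAK : ∀ i, A i ∈ K := fun i => (b (Sum.inl i)).2
      have hBK : ∀ i, Bv i ∈ K := fun i => (b (Sum.inr i)).2
      have hA0 : ∀ i, Q (A i) = 0 := fun i => (h1 i).1
      have hB0 : ∀ i, Q (Bv i) = 0 := fun i => (h1 i).2
      have hAB : ∀ i j, QuadraticMap.polar ⇑Q (A i) (Bv j) = if i = j then 1 else 0 := by
        intro i j
        rw [← h2' i j, hpol]
      have hAA : ∀ i j, QuadraticMap.polar ⇑Q (A i) (A j) = 0 := by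
        intro i j
        rw [← (h3 i j).1, hpol]
      have hBB : ∀ i j, QuadraticMap.polar ⇑Q (Bv i) (Bv j) = 0 := by
        intro i j
        rw [← (h3 i j).2, hpol]
      have hBA : ∀ i j, QuadraticMap.polar ⇑Q (Bv i) (A j) = if j = i then 1 else 0 := by
        intro i j
        rw [QuadraticMap.polar_comm, hAB]
      obtain ⟨ζ, hζ⟩ := exists_noroot (F := F) h2
      apply qBoth2_of_data hQS Q K s hs1 h2
      · refine ⟨fun i => A (Fin.castLE (by omega) i), fun i => Bv (Fin.castLE (by omega) i),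
          fun i => ⟨hAK _, hBK _⟩, fun i => hA0 _, fun i => hB0 _, ?_, fun i j => hAA _ _,
          fun i j => hBB _ _⟩
        intro i j
        rw [hAB]
        simp [Fin.ext_iff]
      · -- the two extra pairs
        set i1 : Fin k := ⟨k - 1, by omega⟩ with hi1
        set i2 : Fin k := ⟨k - 2, by omega⟩ with hi2
        have h12 : i1 ≠ i2 := by
          intro h
          have := congrArg Fin.val h
          simp only [hi1, hi2] at this
          omega
        set ι : Fin (s - 1) → Fin k := fun i => Fin.castLE (by omega) i with hι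
        have hι1 : ∀ i, ι i ≠ i1 := by
          intro i h
          have := congrArg Fin.val h
          simp only [hι, hi1, Fin.val_castLE] at this
          have := i.2
          omega
        have hι2 : ∀ i, ι i ≠ i2 := by
          intro i h
          have := congrArg Fin.val h
          simp only [hι, hi2, Fin.val_castLE] at this
          have := i.2
          omega
        obtain ⟨m1, m2, m3, m4, m5⟩ := mix_of_hyp Q (s - 1) (fun i => A (ι i))
          (fun i => Bv (ι i)) (A i1) (Bv i1) (A i2) (Bv i2) ζ (hA0 _) (hB0 _) (hA0 _) (hB0 _)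
          (by rw [hAB, if_pos rfl]) (by rw [hAB, if_pos rfl]) (hAA _ _)
          (by rw [hAB, if_neg h12]) (by rw [hBA, if_neg h12.symm]) (hBB _ _)
          (fun i => hAA _ _) (fun i => by rw [hAB, if_neg (hι1 i).symm])
          (fun i => by rw [hBA, if_neg (hι1 i)]) (fun i => hBB _ _)
          (fun i => hAA _ _) (fun i => by rw [hAB, if_neg (hι2 i).symm])
          (fun i => by rw [hBA, if_neg (hι2 i)]) (fun i => hBB _ _) hζ
        refine ⟨fun i => A (ι i), fun i => Bv (ι i), A i1 + ζ • Bv i1, A i2 + Bv i2 + Bv i1,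
          ζ, 1, fun i => ⟨hAK _, hBK _⟩, ?_, ?_, fun i => hA0 _, fun i => hB0 _, ?_,
          fun i j => hAA _ _, fun i j => hBB _ _, m1, m2, m3, m4, m5⟩
        · exact K.add_mem (hAK _) (K.smul_mem _ (hBK _))
        · exact K.add_mem (K.add_mem (hAK _) (hBK _)) (hBK _)
        · intro i j
          rw [hAB]
          simp [hι, Fin.ext_iff]
    · -- elliptic basis of `K`
      set A : Fin (k - 1) → V := fun i => (b (Sum.inl (Sum.inl i)) : V) with hAdef
      set Bv : Fin (k - 1) → V := fun i => (b (Sum.inl (Sum.inr i)) : V) with hBdef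
      have hAK : ∀ i, A i ∈ K := fun i => (b (Sum.inl (Sum.inl i))).2
      have hBK : ∀ i, Bv i ∈ K := fun i => (b (Sum.inl (Sum.inr i))).2
      have hA0 : ∀ i, Q (A i) = 0 := fun i => (h1 i).1
      have hB0 : ∀ i, Q (Bv i) = 0 := fun i => (h1 i).2
      have hAB : ∀ i j, QuadraticMap.polar ⇑Q (A i) (Bv j) = if i = j then 1 else 0 := by
        intro i j
        rw [← h2' i j, hpol]
      have hAA : ∀ i j, QuadraticMap.polar ⇑Q (A i) (A j) = 0 := by
        intro i j
        rw [← (h3 i j).1, hpol]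
      have hBB : ∀ i j, QuadraticMap.polar ⇑Q (Bv i) (Bv j) = 0 := by
        intro i j
        rw [← (h3 i j).2, hpol]
      apply qBoth2_of_data hQS Q K s hs1 h2
      · refine ⟨fun i => A (Fin.castLE (by omega) i), fun i => Bv (Fin.castLE (by omega) i),
          fun i => ⟨hAK _, hBK _⟩, fun i => hA0 _, fun i => hB0 _, ?_, fun i j => hAA _ _,
          fun i j => hBB _ _⟩
        intro i j
        rw [hAB]
        simp [Fin.ext_iff]
      · refine ⟨fun i => A (Fin.castLE (by omega) i), fun i => Bv (Fin.castLE (by omega) i),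
          (b (Sum.inr 0) : V), (b (Sum.inr 1) : V), 1, ζ, fun i => ⟨hAK _, hBK _⟩,
          (b (Sum.inr 0)).2, (b (Sum.inr 1)).2, fun i => hA0 _, fun i => hB0 _, ?_,
          fun i j => hAA _ _, fun i j => hBB _ _, h5, h7, ?_, ?_, ?_⟩
        · intro i j
          rw [hAB]
          simp [Fin.ext_iff]
        · rw [← h6, hpol]
        · intro x y h
          by_cases hy : y = 0
          · subst hy
            refine ⟨?_, rfl⟩
            have : x ^ 2 = 0 := by simpa using h
            exact pow_eq_zero_iff (by norm_num) |>.mp this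
          · exfalso
            apply hζ (x / y)
            field_simp
            linear_combination h
        · intro i
          refine ⟨?_, ?_, ?_, ?_⟩
          · rw [QuadraticMap.polar_comm, ← hpol]
            exact (h4 _ 0).1
          · rw [QuadraticMap.polar_comm, ← hpol]
            exact (h4 _ 0).2
          · rw [QuadraticMap.polar_comm, ← hpol]
            exact (h4 _ 1).1
          · rw [QuadraticMap.polar_comm, ← hpol]
            exact (h4 _ 1).2
  obtain ⟨W, hWK, hWnd, hWdim, hWpl⟩ := hres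
  exact ⟨W, hWK, hWnd, by rw [hWdim, hs]; ring, hWpl⟩

example (hQS : StQSum.{u, v}) : StQBoth2.{u, v} := qBoth2 hQS

end Cfsg.Agent.H40.Ep
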