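import Mathlib
import Cfsg.Agent.H58.FzDefs
import Cfsg.Agent.H58.FrobQuot

/-!
# Piece S4306-EXQ: the tool `EXQ` from `EX` in the section `N(D)/D`, `D = C_R(E)`
-/

set_option autoImplicit false

namespace Cfsg.Agent.H40.Fz

open Cfsg.Agent.H58.Fz Cfsg.Agent.H58.FrobQuot Cfsg.Agent.H58.FrobAct

universe u

/-- `EXQ` follows from `EX` applied to the section `N_X(D)/D`, `D = C_R(E)`. -/
theorem exq_of_ex {X : Type u} [Group X] [Finite X]
    (hex : ∀ (Y : Type u) [Group Y] [Finite Y], EX Y) : EXQ X := by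
  intro E R r hr hEc hEe hER hcop hcomm hnot
  classical
  set D : Subgroup X := R ⊓ Subgroup.centralizer (E : Set X) with hD
  have hDR : D ≤ R := inf_le_left
  have hRD : R ≤ Subgroup.normalizer (D : Set X) := by
    intro ρ hρ
    apply mem_normalizer_of_conj
    intro d hd
    have hdR : d ∈ R := hDR hd
    have hdC : d ∈ Subgroup.centralizer (E : Set X) := (Subgroup.mem_inf.mp hd).2
    refine Subgroup.mem_inf.mpr ⟨R.mul_mem (R.mul_mem hρ hdR) (R.inv_mem hρ), ?_⟩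
    have h1 := hcomm ρ hρ d hdR
    have h2 : ρ * d * ρ⁻¹ = (ρ * d * ρ⁻¹ * d⁻¹) * d := by group
    rw [h2]
    exact Subgroup.mul_mem _ h1 hdC
  have hED : E ≤ Subgroup.normalizer (D : Set X) := by
    intro e he
    apply mem_normalizer_of_conj
    intro d hd
    have hdC : d ∈ Subgroup.centralizer (E : Set X) := (Subgroup.mem_inf.mp hd).2
    have h1 : e * d = d * e := Subgroup.mem_centralizer_iff.mp hdC e he
    have h2 : e * d * e⁻¹ = d := by rw [h1]; group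
    rw [h2]; exact hd
  have hEsolv : Group.IsSolvable E :=
    Group.isSolvable_of_comm (fun a b => Subtype.ext (hEc a a.2 b b.2))
  have abE : ∀ a ∈ im D E, ∀ b ∈ im D E, a * b = b * a := by
    intro a ha b hb
    obtain ⟨a₀, ha₀, rfl⟩ := (mem_im hED _).mp ha
    obtain ⟨b₀, hb₀, rfl⟩ := (mem_im hED _).mp hb
    rw [← map_mul, ← map_mul]
    congr 1
    exact Subtype.ext (hEc a₀ ha₀ b₀ hb₀)
  have expE : ∀ a ∈ im D E, a ^ r = 1 := by
    intro a ha
    obtain ⟨a₀, ha₀, rfl⟩ := (mem_im hED _).mp ha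
    rw [← map_pow]
    have h1 : (⟨a₀, hED ha₀⟩ : ↥(Subgroup.normalizer (D : Set X))) ^ r = 1 :=
      Subtype.ext (by simpa using hEe a₀ ha₀)
    rw [h1, map_one]
  have abU : ∀ a ∈ im D R, ∀ b ∈ im D R, a * b = b * a := by
    intro a ha b hb
    obtain ⟨a₀, ha₀, rfl⟩ := (mem_im hRD _).mp ha
    obtain ⟨b₀, hb₀, rfl⟩ := (mem_im hRD _).mp hb
    rw [← map_mul, ← map_mul, secMk_eq_iff]
    show (a₀ * b₀)⁻¹ * (b₀ * a₀) ∈ D
    have h1 : (a₀ * b₀)⁻¹ * (b₀ * a₀) = b₀⁻¹ * a₀⁻¹ * b₀⁻¹⁻¹ * a₀⁻¹⁻¹ := by group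
    rw [h1]
    refine Subgroup.mem_inf.mpr ⟨?_, hcomm b₀⁻¹ (R.inv_mem hb₀) a₀⁻¹ (R.inv_mem ha₀)⟩
    exact R.mul_mem (R.mul_mem (R.mul_mem (R.inv_mem hb₀) (R.inv_mem ha₀))
      (R.inv_mem (R.inv_mem hb₀))) (R.inv_mem (R.inv_mem ha₀))
  have hnorm := im_normalizer hED hRD hER
  have hcop' : (Nat.card (im D E)).Coprime (Nat.card (im D R)) :=
    Nat.Coprime.coprime_dvd_left (card_im_dvd hED)
      (Nat.Coprime.coprime_dvd_right (card_im_dvd hRD) hcop)
  have hne : im D R ≠ ⊥ := by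
    obtain ⟨ρ, hρ, hρC⟩ := SetLike.not_le_iff_exists.mp hnot
    intro hbot
    have h1 : secMk D ⟨ρ, hRD hρ⟩ ∈ im D R := mk_mem_im _ hρ
    rw [hbot, Subgroup.mem_bot, secMk_eq_one_iff] at h1
    exact hρC (Subgroup.mem_inf.mp h1).2
  have hfix : im D R ⊓ Subgroup.centralizer ((im D E : Subgroup (SecGrp D)) : Set (SecGrp D))
      = ⊥ := by
    rw [im_inf_centralizer hDR hRD hED hcop (Or.inl hEsolv), eq_bot_iff]
    intro x hx
    obtain ⟨c, hc, rfl⟩ := (mem_im (le_trans inf_le_left hRD) _).mp hx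
    rw [Subgroup.mem_bot, secMk_eq_one_iff]
    exact hc
  obtain ⟨Kb, hKb, hcard, hKfix⟩ :=
    hex (SecGrp D) (im D E) (im D R) r hr abE expE abU hnorm hcop' hne hfix
  set H : Subgroup X :=
    E ⊓ ((Kb.comap (secMk D)).map (Subgroup.normalizer (D : Set X)).subtype) with hH
  have hHE : H ≤ E := inf_le_left
  have himH : im D H = Kb := by
    ext x
    constructor
    · intro hx
      obtain ⟨h₀, hh₀, rfl⟩ := (mem_im (hHE.trans hED) _).mp hx
      obtain ⟨-, ⟨y, hy, hy'⟩⟩ := Subgroup.mem_inf.mp hh₀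
      have h1 : y = ⟨h₀, (hHE.trans hED) hh₀⟩ := Subtype.ext hy'
      rw [← h1]
      exact hy
    · intro hx
      obtain ⟨e, he, rfl⟩ := (mem_im hED _).mp (hKb hx)
      apply mk_mem_im
      exact Subgroup.mem_inf.mpr ⟨he, ⟨⟨e, hED he⟩, hx, rfl⟩⟩
  have hdisj : E ⊓ D = ⊥ := by
    have h1 : E ⊓ R = ⊥ := (Subgroup.disjoint_of_coprime_natCard hcop).eq_bot
    rw [eq_bot_iff, ← h1]
    exact inf_le_inf_left E hDR
  have hdisjH : H ⊓ D = ⊥ := by
    rw [eq_bot_iff, ← hdisj]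
    exact inf_le_inf_right D hHE
  have hcE : Nat.card (im D E) = Nat.card E := card_im_of_disjoint hED hdisj
  have hcH : Nat.card (im D H) = Nat.card H := card_im_of_disjoint (hHE.trans hED) hdisjH
  refine ⟨H, hHE, ?_, ?_⟩
  · calc Nat.card E = Nat.card (im D E) := hcE.symm
      _ = r * Nat.card Kb := hcard
      _ = r * Nat.card (im D H) := by rw [himH]
      _ = r * Nat.card H := by rw [hcH]
  · intro hle
    apply hKfix
    have hcopH : (Nat.card H).Coprime (Nat.card R) :=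
      Nat.Coprime.coprime_dvd_left (Subgroup.card_dvd_of_le hHE) hcop
    have hHsolv : Group.IsSolvable H :=
      Group.isSolvable_of_comm (fun a b => Subtype.ext (hEc a (hHE a.2) b (hHE b.2)))
    rw [← himH, im_inf_centralizer hDR hRD (hHE.trans hED) hcopH (Or.inl hHsolv), eq_bot_iff]
    intro x hx
    obtain ⟨c, hc, rfl⟩ := (mem_im (le_trans inf_le_left hRD) _).mp hx
    rw [Subgroup.mem_bot, secMk_eq_one_iff]
    exact Subgroup.mem_inf.mpr ⟨(Subgroup.mem_inf.mp hc).1, hle hc⟩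

end Cfsg.Agent.H40.Fz
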