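import Mathlib
import Cfsg.Agent.H40.FzExq
import Cfsg.Agent.H14.FzEx

/-!
# Piece S4306-EXQ, hypothesis-free form
-/

namespace Cfsg.Agent.H40.Fz

universe u

/-- The tool `EXQ` holds in every finite group. -/
theorem exq_holds {X : Type u} [Group X] [Finite X] : Cfsg.Agent.H58.Fz.EXQ X :=
  exq_of_ex (fun _ _ _ => Cfsg.Agent.H14.Fz.ex_holds)

end Cfsg.Agent.H40.Fz
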