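import Mathlib
import Cfsg.Agent.H58.FzBasic

/-!
# Pieces S4306-S3WC and S4306-S3BAB (steps on the minimal configuration `FCfg`)
-/

set_option autoImplicit false

namespace Cfsg.Agent.H40.Fz

open Cfsg.Agent.H58.Fz Cfsg.Agent.H58.FrobAct
open scoped commutatorElement

universe u

variable {X : Type u} [Group X] [Finite X] {p q k v r s : ℕ} {V R S A : Subgroup X} {y x : X}

omit [Finite X] in
/-- Conjugation by an element of `N(W)` preserves `C(W)`. -/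
theorem conj_mem_centralizer {W : Subgroup X} {g t : X}
    (hg : g ∈ Subgroup.normalizer (W : Set X))
    (ht : t ∈ Subgroup.centralizer (W : Set X)) :
    g * t * g⁻¹ ∈ Subgroup.centralizer (W : Set X) := by
  rw [Subgroup.mem_centralizer_iff] at ht ⊢
  intro w hw
  have h1 : g⁻¹ * w * g ∈ W := by
    have := conj_mem_of_mem_normalizer (Subgroup.inv_mem _ hg) hw
    rwa [inv_inv] at this
  have h2 := ht _ h1
  calc w * (g * t * g⁻¹) = g * ((g⁻¹ * w * g) * t) * g⁻¹ := by group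
    _ = g * (t * (g⁻¹ * w * g)) * g⁻¹ := by rw [h2]
    _ = g * t * g⁻¹ * w := by group

omit [Finite X] in
/-- If a power `y ^ j` of an element of prime order `q` lies in a subgroup not containing `y`,
then `q ∣ j`. -/
theorem zpow_dvd_of_mem {y : X} {q : ℕ} (hq : q.Prime) (hy : y ^ q = 1) (N : Subgroup X) (j : ℤ)
    (hj : y ^ j ∈ N) (hyN : y ∉ N) : (q : ℤ) ∣ j := by
  by_contra hnd
  apply hyN
  have hcop : Int.gcd j q = 1 := by
    have h1 : ¬ q ∣ j.natAbs := fun h => hnd (Int.natCast_dvd.mpr h)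
    have h2 : Nat.Coprime q j.natAbs := (Nat.Prime.coprime_iff_not_dvd hq).mpr h1
    show Nat.gcd j.natAbs (q : ℤ).natAbs = 1
    rw [Int.natAbs_natCast]
    exact h2.symm
  have h3 := Int.gcd_eq_gcd_ab j q
  rw [hcop] at h3
  have h4 : y = (y ^ j) ^ (Int.gcdA j q) := by
    have h5 : y ^ (1 : ℤ) = y ^ (j * Int.gcdA j q + (q : ℤ) * Int.gcdB j q) := by
      rw [← h3, Nat.cast_one]
    rw [zpow_one, zpow_add, zpow_mul, zpow_mul, zpow_natCast, hy, one_zpow, mul_one] at h5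
    exact h5
  rw [h4]; exact Subgroup.zpow_mem _ hj _

theorem step3w_cyc (hhb : HHB X) (c : FCfg p q k v r s V R S A y x)
    (hSy : S ≤ Subgroup.centralizer {y}) (hsv : s = v) (hcard : Nat.card S = v)
    (W : Subgroup X) (hWV : W ≤ V) (hRW : R ≤ Subgroup.normalizer (W : Set X))
    (hSW : S ≤ Subgroup.normalizer (W : Set X)) (hxW : x ∈ Subgroup.normalizer (W : Set X))
    (hxfix : ∀ w ∈ W, x * w = w * x → w = 1)
    (hRW' : ¬ R ≤ Subgroup.centralizer (W : Set X)) : False := by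
  have hv := c.hv
  have hvF : Fact v.Prime := ⟨hv⟩
  obtain ⟨g', hg'⟩ := (Subgroup.ne_bot_iff_exists_ne_one (H := S)).mp c.hSne
  obtain ⟨c₁, hc₁, hc₁1⟩ : ∃ g ∈ S, g ≠ 1 := ⟨g'.1, g'.2, fun h => hg' (Subtype.ext h)⟩
  have hztop : Subgroup.zpowers (⟨c₁, hc₁⟩ : S) = ⊤ :=
    zpowers_eq_top_of_prime_card hcard (fun h => hc₁1 (congrArg Subtype.val h))
  have hgen : ∀ σ ∈ S, ∃ n : ℕ, c₁ ^ n = σ := by
    intro σ hσ
    have h1 : (⟨σ, hσ⟩ : S) ∈ Subgroup.zpowers (⟨c₁, hc₁⟩ : S) := by rw [hztop]; trivial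
    have h2 : (⟨σ, hσ⟩ : S) ∈ Submonoid.powers (⟨c₁, hc₁⟩ : S) :=
      (isOfFinOrder_of_finite _).mem_powers_iff_mem_zpowers.mpr h1
    obtain ⟨n, hn⟩ := (Submonoid.mem_powers_iff _ _).mp h2
    exact ⟨n, by simpa using congrArg Subtype.val hn⟩
  have hxS : x * c₁ * x⁻¹ ∈ S := conj_mem_of_mem_normalizer (c.hAS c.hxA) hc₁
  obtain ⟨a, ha⟩ := hgen _ hxS
  have hyc : y * c₁ = c₁ * y := Subgroup.mem_centralizer_iff.mp (hSy hc₁) y rfl
  have hxne : x * c₁ * x⁻¹ ≠ c₁ := by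
    intro h
    have hxc : x * c₁ = c₁ * x := by
      calc x * c₁ = x * c₁ * x⁻¹ * x := by group
        _ = c₁ * x := by rw [h]
    have h1 := c.mem_cA c₁ hyc hxc
    have h2 : c₁ ∈ S ⊓ Subgroup.centralizer (A : Set X) := Subgroup.mem_inf.mpr ⟨hc₁, h1⟩
    rw [c.hfS, Subgroup.mem_bot] at h2
    exact hc₁1 h2
  have hex : ∃ ρ ∈ R, c₁ * ρ * c₁⁻¹ * ρ⁻¹ ∉ Subgroup.centralizer (W : Set X) := by
    by_contra hcon
    push Not at hcon
    apply hRW'
    have hpow : ∀ n : ℕ, ∀ ρ ∈ R,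
        c₁ ^ n * ρ * (c₁ ^ n)⁻¹ * ρ⁻¹ ∈ Subgroup.centralizer (W : Set X) := by
      intro n
      induction n with
      | zero => intro ρ hρ; simp
      | succ n ih =>
        intro ρ hρ
        have h1 := ih ρ hρ
        have h2 := conj_mem_centralizer (hSW hc₁) h1
        have h3 := hcon ρ hρ
        have e : c₁ ^ (n + 1) * ρ * (c₁ ^ (n + 1))⁻¹ * ρ⁻¹ =
            (c₁ * (c₁ ^ n * ρ * (c₁ ^ n)⁻¹ * ρ⁻¹) * c₁⁻¹) * (c₁ * ρ * c₁⁻¹ * ρ⁻¹) := by
          rw [pow_succ']; group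
        rw [e]; exact Subgroup.mul_mem _ h2 h3
    rw [← c.R_eq, Subgroup.commutator_le]
    intro ρ hρ σ hσ
    obtain ⟨n, rfl⟩ := hgen σ hσ
    have h1 := Subgroup.inv_mem _ (hpow n ρ hρ)
    have e : ⁅ρ, c₁ ^ n⁆ = (c₁ ^ n * ρ * (c₁ ^ n)⁻¹ * ρ⁻¹)⁻¹ := by
      rw [commutatorElement_def]; group
    rw [e]; exact h1
  obtain ⟨ρ, hρ, hρC⟩ := hex
  have hpv : p ≠ v := by
    intro h
    have h1 := c.coppS
    rw [hcard, h] at h1
    exact hv.one_lt.ne' ((Nat.coprime_self v).mp h1)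
  have hcv : c₁ ^ v = 1 := by rw [← hsv]; exact c.S_exp_of_eq hsv c₁ hc₁
  obtain ⟨w, hw, hw1, hxw⟩ := hhb W R c₁ x v r p a hv c.hr c.hp (Ne.symm c.hvr) hpv
    (fun u hu u' hu' => c.hVc u (hWV hu) u' (hWV hu')) (fun u hu => c.hVe u (hWV hu)) c.hR hRW
    (hSW hc₁) hxW (c.hSR hc₁) hcv c.hx ha.symm hxne ⟨ρ, hρ, hρC⟩
  exact hw1 (hxfix w hw hxw)

theorem step3b_ab (cyc : CYC X) (c : FCfg p q k v r s V R S A y x)
    (hSy : S ≤ Subgroup.centralizer {y}) (hsv : s = v)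
    (hRc : ∀ a ∈ R, ∀ b ∈ R, a * b = b * a)
    (hG1 : ∀ K : Subgroup X, K ≤ R → Nat.card R = r * Nat.card K →
        V ⊓ Subgroup.centralizer (K : Set X) ≠ ⊥ →
        y ∉ Subgroup.normalizer (K : Set X) ∧
        ∃ c₀ ∈ Subgroup.zpowers y, c₀ * x * c₀⁻¹ ∈ Subgroup.normalizer (K : Set X))
    (K : Subgroup X) (hKR : K ≤ R) (hidx : Nat.card R = r * Nat.card K)
    (hW : V ⊓ Subgroup.centralizer (K : Set X) ≠ ⊥)
    (hxK : x ∈ Subgroup.normalizer (K : Set X)) : False := by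
  have hS0 := c.S0_bot_of_eq hsv
  have hyK : y ∉ Subgroup.normalizer (K : Set X) := (hG1 K hKR hidx hW).1
  have hyS : ∀ σ ∈ S, y * σ = σ * y :=
    fun σ hσ => Subgroup.mem_centralizer_iff.mp (hSy hσ) y rfl
  have hfixS : ∀ σ ∈ S, x * σ = σ * x → σ = 1 := by
    intro σ hσ hx
    have h1 := c.mem_cA σ (hyS σ hσ) hx
    have h2 : σ ∈ S ⊓ Subgroup.centralizer (A : Set X) := Subgroup.mem_inf.mpr ⟨hσ, h1⟩
    rw [c.hfS, Subgroup.mem_bot] at h2
    exact h2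
  set T : Subgroup X := S ⊓ Subgroup.normalizer (K : Set X) with hT
  have hxS : x ∈ Subgroup.normalizer (S : Set X) := c.hAS c.hxA
  have hAT : A ≤ Subgroup.normalizer (T : Set X) := by
    rw [c.hA, Subgroup.closure_le]
    intro g hg
    rcases hg with rfl | hg
    · apply mem_normalizer_of_conj
      intro t ht
      have h1 := hyS t (Subgroup.mem_inf.mp ht).1
      have h2 : g * t * g⁻¹ = t := by rw [h1]; group
      rw [h2]; exact ht
    · rw [Set.mem_singleton_iff] at hg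
      subst hg
      apply mem_normalizer_of_conj
      intro t ht
      obtain ⟨ht1, ht2⟩ := Subgroup.mem_inf.mp ht
      exact Subgroup.mem_inf.mpr ⟨conj_mem_of_mem_normalizer hxS ht1,
        Subgroup.mul_mem _ (Subgroup.mul_mem _ hxK ht2) (Subgroup.inv_mem _ hxK)⟩
  by_cases hTS : T = S
  · -- `S ≤ N(K)`
    have hSK : S ≤ Subgroup.normalizer (K : Set X) := by rw [← hTS]; exact inf_le_right
    have hRK : R ≤ Subgroup.normalizer (K : Set X) := by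
      intro ρ hρ
      apply mem_normalizer_of_conj
      intro k' hk
      have h1 := hRc ρ hρ k' (hKR hk)
      have h2 : ρ * k' * ρ⁻¹ = k' := by rw [h1]; group
      rw [h2]; exact hk
    have hxR : x ∈ Subgroup.normalizer (R : Set X) := c.hAR c.hxA
    have hφmem : ∀ σ : S, (σ : X) * x * (σ : X)⁻¹ * x⁻¹ ∈ S := by
      intro σ
      have h1 : x * (σ : X)⁻¹ * x⁻¹ ∈ S := conj_mem_of_mem_normalizer hxS (S.inv_mem σ.2)
      have h2 : (σ : X) * x * (σ : X)⁻¹ * x⁻¹ = (σ : X) * (x * (σ : X)⁻¹ * x⁻¹) := by group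
      rw [h2]; exact S.mul_mem σ.2 h1
    have hinj : Function.Injective
        (fun σ : S => (⟨(σ : X) * x * (σ : X)⁻¹ * x⁻¹, hφmem σ⟩ : S)) := by
      intro σ τ hστ
      have h1 : (σ : X) * x * (σ : X)⁻¹ * x⁻¹ = (τ : X) * x * (τ : X)⁻¹ * x⁻¹ :=
        congrArg Subtype.val hστ
      have h3 : (σ : X) * x * (σ : X)⁻¹ = (τ : X) * x * (τ : X)⁻¹ := mul_right_cancel h1
      have h2 : x * ((τ : X)⁻¹ * σ) = ((τ : X)⁻¹ * σ) * x := by
        calc x * ((τ : X)⁻¹ * σ) = (τ : X)⁻¹ * ((τ : X) * x * (τ : X)⁻¹) * σ := by group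
          _ = (τ : X)⁻¹ * ((σ : X) * x * (σ : X)⁻¹) * σ := by rw [h3]
          _ = ((τ : X)⁻¹ * σ) * x := by group
      have h4 := hfixS _ (S.mul_mem (S.inv_mem τ.2) σ.2) h2
      apply Subtype.ext
      calc (σ : X) = τ * ((τ : X)⁻¹ * σ) := by group
        _ = τ := by rw [h4, mul_one]
    have hsurj := Finite.surjective_of_injective hinj
    have hall : ∀ τ ∈ S, ∀ e ∈ R, τ * e * τ⁻¹ * e⁻¹ ∈ K := by
      intro τ hτ e he
      obtain ⟨σ, hσ⟩ := hsurj ⟨τ, hτ⟩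
      have h1 : (σ : X) * x * (σ : X)⁻¹ * x⁻¹ = τ := congrArg Subtype.val hσ
      have h2 := cyc R K r σ x c.hr hKR hidx hRK (c.hSR σ.2) (hSK σ.2) hxR hxK e he
      rw [h1] at h2
      exact h2
    have hle : ⁅R, S⁆ ≤ K := by
      rw [Subgroup.commutator_le]
      intro ρ hρ σ hσ
      have h1 := K.inv_mem (hall σ hσ ρ hρ)
      have e : ⁅ρ, σ⁆ = (σ * ρ * σ⁻¹ * ρ⁻¹)⁻¹ := by rw [commutatorElement_def]; group
      rw [e]; exact h1
    rw [c.R_eq] at hle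
    have hKeq : K = R := le_antisymm hKR hle
    rw [hKeq] at hidx
    have hpos : 0 < Nat.card R := Nat.card_pos
    have hr1 : r = 1 := by
      have h5 : 1 * Nat.card R = r * Nat.card R := by rw [one_mul]; exact hidx
      exact (Nat.eq_of_mul_eq_mul_right hpos h5).symm
    exact c.hr.one_lt.ne' hr1
  · -- `T = ⊥`
    have hTbot : T = ⊥ := by
      have h1 := c.proper_le_S0 T inf_le_left hAT hTS
      rw [hS0] at h1
      exact le_bot_iff.mp h1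
    obtain ⟨g', hg'⟩ := (Subgroup.ne_bot_iff_exists_ne_one (H := S)).mp c.hSne
    obtain ⟨σ, hσ, hσ1⟩ : ∃ g ∈ S, g ≠ 1 := ⟨g'.1, g'.2, fun h => hg' (Subtype.ext h)⟩
    obtain ⟨K', hK'⟩ : ∃ K' : Subgroup X, K' = K.map (MulAut.conj σ).toMonoidHom := ⟨_, rfl⟩
    have hmemK' : ∀ g, g ∈ K' ↔ ∃ k' ∈ K, σ * k' * σ⁻¹ = g := by
      intro g
      rw [hK', Subgroup.mem_map]
      rfl
    have hK'R : K' ≤ R := by
      intro g hg
      obtain ⟨k', hk, rfl⟩ := (hmemK' g).mp hg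
      exact conj_mem_of_mem_normalizer (c.hSR hσ) (hKR hk)
    have hcardK' : Nat.card K' = Nat.card K := by
      rw [hK']
      exact Subgroup.card_map_of_injective (MulAut.conj σ).injective
    have hW' : V ⊓ Subgroup.centralizer (K' : Set X) ≠ ⊥ := by
      obtain ⟨w', hw'⟩ := (Subgroup.ne_bot_iff_exists_ne_one
        (H := V ⊓ Subgroup.centralizer (K : Set X))).mp hW
      obtain ⟨w, hw, hw1⟩ : ∃ w ∈ V ⊓ Subgroup.centralizer (K : Set X), w ≠ 1 :=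
        ⟨w'.1, w'.2, fun h => hw' (Subtype.ext h)⟩
      intro hbot
      have hmem : σ * w * σ⁻¹ ∈ V ⊓ Subgroup.centralizer (K' : Set X) := by
        refine Subgroup.mem_inf.mpr
          ⟨conj_mem_of_mem_normalizer (c.hSV hσ) (Subgroup.mem_inf.mp hw).1, ?_⟩
        rw [Subgroup.mem_centralizer_iff]
        intro g hg
        obtain ⟨k', hk, rfl⟩ := (hmemK' g).mp hg
        have h1 := Subgroup.mem_centralizer_iff.mp (Subgroup.mem_inf.mp hw).2 k' hk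
        calc σ * k' * σ⁻¹ * (σ * w * σ⁻¹) = σ * (k' * w) * σ⁻¹ := by group
          _ = σ * (w * k') * σ⁻¹ := by rw [h1]
          _ = σ * w * σ⁻¹ * (σ * k' * σ⁻¹) := by group
      rw [hbot, Subgroup.mem_bot] at hmem
      apply hw1
      calc w = σ⁻¹ * (σ * w * σ⁻¹) * σ := by group
        _ = 1 := by rw [hmem]; group
    obtain ⟨-, c₀, hc₀, hx'⟩ := hG1 K' hK'R (by rw [hcardK']; exact hidx) hW'
    have hxinv : x⁻¹ ∈ Subgroup.normalizer ((Subgroup.zpowers y : Subgroup X) : Set X) :=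
      c.hAzy (A.inv_mem c.hxA)
    obtain ⟨y₁, hy₁def⟩ : ∃ y₁ : X, y₁ = x⁻¹ * c₀ * x * c₀⁻¹ := ⟨_, rfl⟩
    have hy₁ : y₁ ∈ Subgroup.zpowers y := by
      have h1 := conj_mem_of_mem_normalizer hxinv hc₀
      rw [inv_inv] at h1
      rw [hy₁def]
      exact Subgroup.mul_mem _ h1 (Subgroup.inv_mem _ hc₀)
    obtain ⟨m, hm⟩ := Subgroup.mem_zpowers_iff.mp hy₁
    have hx'eq : c₀ * x * c₀⁻¹ = x * y₁ := by rw [hy₁def]; group
    have hSy₁ : ∀ τ ∈ S, Commute τ y₁ := by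
      intro τ hτ
      rw [← hm]
      exact (Commute.zpow_right (hyS τ hτ).symm m)
    obtain ⟨σ₁, hσ₁def⟩ : ∃ σ₁ : X, σ₁ = x⁻¹ * σ⁻¹ * x * σ := ⟨_, rfl⟩
    have hσ₁S : σ₁ ∈ S := by
      have h1 := conj_mem_of_mem_normalizer (Subgroup.inv_mem _ hxS) (S.inv_mem hσ)
      rw [inv_inv] at h1
      rw [hσ₁def]
      exact S.mul_mem h1 hσ
    have hgN : σ₁ * y₁ ∈ Subgroup.normalizer (K : Set X) := by
      have e : σ₁ * y₁ = x⁻¹ * (σ⁻¹ * (c₀ * x * c₀⁻¹) * σ) := by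
        rw [hx'eq]
        calc σ₁ * y₁ = x⁻¹ * σ⁻¹ * x * (σ * y₁) := by rw [hσ₁def]; group
          _ = x⁻¹ * σ⁻¹ * x * (y₁ * σ) := by rw [(hSy₁ σ hσ).eq]
          _ = x⁻¹ * (σ⁻¹ * (x * y₁) * σ) := by group
      rw [e]
      refine Subgroup.mul_mem _ (Subgroup.inv_mem _ hxK) ?_
      apply mem_normalizer_of_conj
      intro k' hk
      have h1 : σ * k' * σ⁻¹ ∈ K' := (hmemK' _).mpr ⟨k', hk, rfl⟩
      have h2 := conj_mem_of_mem_normalizer hx' h1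
      obtain ⟨k₂, hk₂, hk₂e⟩ := (hmemK' _).mp h2
      have e2 : σ⁻¹ * (c₀ * x * c₀⁻¹) * σ * k' * (σ⁻¹ * (c₀ * x * c₀⁻¹) * σ)⁻¹ =
          σ⁻¹ * ((c₀ * x * c₀⁻¹) * (σ * k' * σ⁻¹) * (c₀ * x * c₀⁻¹)⁻¹) * σ := by group
      rw [e2, ← hk₂e]
      have e3 : σ⁻¹ * (σ * k₂ * σ⁻¹) * σ = k₂ := by group
      rw [e3]; exact hk₂
    have hpow : (σ₁ * y₁) ^ (Nat.card S) = y₁ ^ (Nat.card S) := by
      rw [(hSy₁ σ₁ hσ₁S).mul_pow]
      have h1 : σ₁ ^ Nat.card S = 1 := by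
        have h2 : (⟨σ₁, hσ₁S⟩ : S) ^ Nat.card S = 1 := pow_card_eq_one'
        have h3 : (((⟨σ₁, hσ₁S⟩ : S) ^ Nat.card S : S) : X) = ((1 : S) : X) :=
          congrArg Subtype.val h2
        simpa only [Subgroup.coe_pow, Subgroup.coe_one] using h3
      rw [h1, one_mul]
    have hy₁N : y ^ (m * (Nat.card S : ℤ)) ∈ Subgroup.normalizer (K : Set X) := by
      rw [zpow_mul, hm, zpow_natCast, ← hpow]
      exact Subgroup.pow_mem _ hgN _
    have hdvd := zpow_dvd_of_mem c.hq c.hy _ _ hy₁N hyK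
    have hdvd' : (q : ℤ) ∣ m := by
      have hcop : IsCoprime (q : ℤ) (Nat.card S : ℤ) :=
        Nat.isCoprime_iff_coprime.mpr c.copqS.symm
      exact hcop.dvd_of_dvd_mul_right hdvd
    have hy₁1 : y₁ = 1 := by
      obtain ⟨t, rfl⟩ := hdvd'
      rw [← hm, zpow_mul, zpow_natCast, c.hy, one_zpow]
    have hσ₁T : σ₁ ∈ T := by
      refine Subgroup.mem_inf.mpr ⟨hσ₁S, ?_⟩
      have h1 := hgN
      rw [hy₁1, mul_one] at h1
      exact h1
    rw [hTbot, Subgroup.mem_bot] at hσ₁T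
    have hxσ : x * σ = σ * x := by
      calc x * σ = σ * x * (x⁻¹ * σ⁻¹ * x * σ) := by group
        _ = σ * x := by rw [← hσ₁def, hσ₁T, mul_one]
    exact hσ1 (hfixS σ hσ hxσ)

end Cfsg.Agent.H40.Fz
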