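import Mathlib
import Cfsg.Agent.H81.GL23Defs

/-!
# S0197-NUM (helper40, for helper81)

The arithmetic at the end of Brauer's theorem on `GL(2,3)` centralizers: the numerical hypotheses
force `N = 5616` or `N = 7920`.
-/

set_option autoImplicit false

namespace Cfsg.Agent.H40.GL23

open Cfsg.Agent.H81.GL23

theorem num_sign (e : ℤ) (he : e = 1 ∨ e = -1) (n : ℕ) :
    (e : ℚ) / (n : ℚ) = 1 / ((e * n : ℤ) : ℚ) := by
  rcases he with rfl | rfl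
  · push_cast; ring
  · push_cast
    rw [neg_one_mul, one_div, inv_neg, neg_div, one_div]

theorem num_signed (e : ℤ) (he : e = 1 ∨ e = -1) (n : ℕ) (hn : 1 < n) :
    e * (n : ℤ) ≠ 0 ∧ e * (n : ℤ) ≠ 1 ∧ e * (n : ℤ) ≠ -1 := by
  rcases he with rfl | rfl <;> omega

theorem num_core (N P : ℕ) (ρ Z : ℤ) (hρ : ρ ≠ 0 ∧ ρ ≠ 1 ∧ ρ ≠ -1)
    (hZ : Z ≠ 0 ∧ Z ≠ 1 ∧ Z ≠ -1) (hP : P = 0 ∨ P = 4) (h32 : ¬ 32 ∣ N)
    (hZρ : (8 - ρ) * Z = ρ * (ρ + 1))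
    (hC : (N : ℤ) * (2 * ((ρ - 2) * (ρ - 2))) = 2304 * (P : ℤ) * (ρ * (ρ + 1))) :
    N = 5616 ∨ N = 7920 := by
  have h72 : (72 : ℤ) = (8 - ρ) * (Z + ρ + 9) := by linear_combination (-1 : ℤ) * hZρ
  have hd1 : (8 - ρ) ∣ (72 : ℤ) := ⟨Z + ρ + 9, h72⟩
  have hd2 : (ρ - 8) ∣ (72 : ℤ) := ⟨-(Z + ρ + 9), by linear_combination h72⟩
  have hb1 : 8 - ρ ≤ 72 := Int.le_of_dvd (by norm_num) hd1
  have hb2 : ρ - 8 ≤ 72 := Int.le_of_dvd (by norm_num) hd2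
  have hlo : -64 ≤ ρ := by omega
  have hhi : ρ ≤ 80 := by omega
  clear hd1 hd2 h72 hb1 hb2
  interval_cases ρ <;> omega

theorem num : StmtNum := by
  intro N r y z w q e e₃ e₄ e₄' e₅ P h
  obtain ⟨he, he₃, he₄, he₄', he₅, hr, hy, hz, hw, hq, eq1, eq2, eq3, e3, e2, hP, h32⟩ := h
  have hρ0 := num_signed e he r hr
  have hY0 := num_signed e₃ he₃ y hy
  have hZ0 := num_signed e₄ he₄ z hz
  have hW0 := num_signed e₄' he₄' w hw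
  rw [mul_div_assoc, mul_div_assoc, num_sign e₃ he₃ y, num_sign e₄ he₄ z,
    num_sign e₄' he₄' w] at e3
  rw [mul_div_assoc, mul_div_assoc, mul_div_assoc, num_sign e he r, num_sign e₃ he₃ y,
    num_sign e₄ he₄ z, num_sign e₄' he₄' w] at e2
  obtain ⟨ρ, hρ⟩ : ∃ ρ : ℤ, ρ = e * r := ⟨_, rfl⟩
  obtain ⟨Y, hY⟩ : ∃ Y : ℤ, Y = e₃ * y := ⟨_, rfl⟩
  obtain ⟨Z, hZ⟩ : ∃ Z : ℤ, Z = e₄ * z := ⟨_, rfl⟩
  obtain ⟨W, hW⟩ : ∃ W : ℤ, W = e₄' * w := ⟨_, rfl⟩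
  rw [← hρ] at hρ0 eq1 eq2 e2
  rw [← hY] at hY0 eq1 e3 e2
  rw [← hZ] at hZ0 eq2 e3 e2
  rw [← hW] at hW0 eq2 e3 e2
  have hYρ : Y = -1 - ρ := by linarith
  have hWρ : W = -ρ - Z := by linarith
  have hρq : (ρ : ℚ) ≠ 0 := by exact_mod_cast hρ0.1
  have hYq : (Y : ℚ) ≠ 0 := by exact_mod_cast hY0.1
  have hZq : (Z : ℚ) ≠ 0 := by exact_mod_cast hZ0.1
  have hWq : (W : ℚ) ≠ 0 := by exact_mod_cast hW0.1
  -- the cubic relation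
  have h3 : (Y : ℚ) * Z * W + 9 * Z * W - Y * W - 9 * Y * Z = 0 := by
    have h := congrArg (fun t : ℚ => t * ((Y : ℚ) * Z * W)) e3
    simp only [zero_mul] at h
    rw [← h]
    field_simp
  have key : (Z - 1) * ((ρ - 8) * Z + ρ * (ρ + 1)) = 0 := by
    have h3' : (Y : ℤ) * Z * W + 9 * Z * W - Y * W - 9 * Y * Z = 0 := by exact_mod_cast h3
    rw [hYρ, hWρ] at h3'
    linear_combination h3'
  have hZρ : (8 - ρ) * Z = ρ * (ρ + 1) := by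
    rcases mul_eq_zero.mp key with h | h
    · exact absurd (by linarith) hZ0.2.1
    · linarith
  -- the second relation
  have e2' : (N : ℚ) * (8 * (1 / (ρ : ℚ)) + 2 * (1 / (Z : ℚ)) + 18 * (1 / (W : ℚ))) =
      2304 * (P : ℚ) := by
    linear_combination e2 - (N : ℚ) * e3
  have hA : (N : ℚ) * (8 * Z * W + 2 * ρ * W + 18 * ρ * Z) = 2304 * (P : ℚ) * (ρ * Z * W) := by
    have h : (N : ℚ) * (8 * (1 / (ρ : ℚ)) + 2 * (1 / (Z : ℚ)) + 18 * (1 / (W : ℚ))) *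
        ((ρ : ℚ) * Z * W) = 2304 * (P : ℚ) * (ρ * Z * W) := by rw [e2']
    rw [← h]
    field_simp
  have hA' : (N : ℤ) * (8 * Z * W + 2 * ρ * W + 18 * ρ * Z) = 2304 * (P : ℤ) * (ρ * Z * W) := by
    exact_mod_cast hA
  rw [hWρ] at hA'
  have hB : 9 * ρ * ρ * ((N : ℤ) * (2 * ((ρ - 2) * (ρ - 2))) - 2304 * (P : ℤ) * (ρ * (ρ + 1)))
      = 0 := by
    linear_combination (-(8 - ρ) ^ 2) * hA' -
      (-4 * (N : ℤ) * (2 * (8 - ρ) * ρ - 2 * ((8 - ρ) * Z) - 2 * (ρ * (ρ + 1)))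
        - 2304 * (P : ℤ) * ρ * ((8 - ρ) * ρ + (8 - ρ) * Z + ρ * (ρ + 1))) * hZρ
  have hC : (N : ℤ) * (2 * ((ρ - 2) * (ρ - 2))) = 2304 * (P : ℤ) * (ρ * (ρ + 1)) := by
    rcases mul_eq_zero.mp hB with h | h
    · exfalso
      rcases mul_eq_zero.mp h with h' | h'
      · rcases mul_eq_zero.mp h' with h'' | h''
        · norm_num at h''
        · exact hρ0.1 h''
      · exact hρ0.1 h'
    · linarith
  exact num_core N P ρ Z hρ0 hZ0 hP h32 hZρ hC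

example : StmtNum := num

end Cfsg.Agent.H40.GL23

#print axioms Cfsg.Agent.H40.GL23.num
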