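import Mathlib
import Cfsg.Agent.H81.GL23Defs

/-!
# S0197-SUM (helper40, for helper81)

From the abstract lattice hypotheses and the shape of the coefficient matrix to the numerical
hypotheses: every sum over the index type reduces to the eight listed indices.
-/

set_option autoImplicit false

namespace Cfsg.Agent.H40.GL23

open Cfsg.Agent.H81.GL23

universe u

theorem sum_list {ι : Type u} [Fintype ι] {A : Type*} [AddCommMonoid A] (l : List ι)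
    (hl : l.Nodup) (f : ι → A) (h0 : ∀ i, i ∉ l → f i = 0) : ∑ i, f i = (l.map f).sum := by
  classical
  rw [← List.sum_toFinset f hl]
  symm
  apply Finset.sum_subset (Finset.subset_univ _)
  intro i _ hi
  apply h0
  simpa using hi

theorem sum : StmtSum.{u} := by
  intro ι _ N i₀ bar d u P hA R L Y Z W U e e₃ e₄ e₄' e₅ hs
  -- the degrees are at least two
  have hne : ∀ X : ι, X ∈ [R, Y, Z, W, U] → 1 < d X := by
    intro X hX
    have h1 := hA.dpos X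
    have h2 : d X ≠ 1 := by
      intro h
      have h3 := hA.lin X h
      have h4 := hs.nodup
      subst h3
      simp only [List.mem_cons, List.not_mem_nil, or_false] at hX
      rcases hX with rfl | rfl | rfl | rfl | rfl <;> simp at h4
    omega
  -- coordinates
  have u0_2 : u i₀ 2 = 1 := by rw [hA.u0]; rfl
  have u0_3 : u i₀ 3 = 0 := by rw [hA.u0]; rfl
  have u0_4 : u i₀ 4 = 1 := by rw [hA.u0]; rfl
  have uR_2 : u R 2 = e := by rw [hs.uR]; rfl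
  have uR_3 : u R 3 = e := by rw [hs.uR]; rfl
  have uR_4 : u R 4 = e := by rw [hs.uR]; rfl
  have uL_2 : u L 2 = 0 := by rw [hs.uL]; rfl
  have uL_3 : u L 3 = 0 := by rw [hs.uL]; rfl
  have uL_4 : u L 4 = 0 := by rw [hs.uL]; rfl
  have uLb_2 : u (bar L) 2 = 0 := by rw [hs.uLb]; rfl
  have uLb_3 : u (bar L) 3 = 0 := by rw [hs.uLb]; rfl
  have uLb_4 : u (bar L) 4 = 0 := by rw [hs.uLb]; rfl
  have uY_2 : u Y 2 = e₃ := by rw [hs.uY]; rfl
  have uY_3 : u Y 3 = 0 := by rw [hs.uY]; rfl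
  have uY_4 : u Y 4 = 0 := by rw [hs.uY]; rfl
  have uZ_2 : u Z 2 = 0 := by rw [hs.uZ]; rfl
  have uZ_3 : u Z 3 = e₄ := by rw [hs.uZ]; rfl
  have uZ_4 : u Z 4 = e₄ := by rw [hs.uZ]; rfl
  have uW_2 : u W 2 = 0 := by rw [hs.uW]; rfl
  have uW_3 : u W 3 = e₄' := by rw [hs.uW]; rfl
  have uW_4 : u W 4 = 0 := by rw [hs.uW]; rfl
  have uU_2 : u U 2 = 0 := by rw [hs.uU]; rfl
  have uU_3 : u U 3 = 0 := by rw [hs.uU]; rfl
  have uU_4 : u U 4 = e₅ := by rw [hs.uU]; rfl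
  have v0 : vt (u i₀) = 1 := by rw [hA.u0]; rfl
  have vR : vt (u R) = 2 * e := by
    rw [hs.uR]; show -2 * (-e) - 2 * (-e) - 3 * e - 3 * e + 4 * e = 2 * e; ring
  have vL : vt (u L) = -2 * e := by
    rw [hs.uL]; show -2 * e - 2 * 0 - 3 * 0 - 3 * 0 + 4 * 0 = -2 * e; ring
  have vLb : vt (u (bar L)) = -2 * e := by
    rw [hs.uLb]; show -2 * 0 - 2 * e - 3 * 0 - 3 * 0 + 4 * 0 = -2 * e; ring
  have vY : vt (u Y) = -3 * e₃ := by
    rw [hs.uY]; show -2 * 0 - 2 * 0 - 3 * e₃ - 3 * 0 + 4 * 0 = -3 * e₃; ring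
  have vZ : vt (u Z) = e₄ := by
    rw [hs.uZ]; show -2 * 0 - 2 * 0 - 3 * 0 - 3 * e₄ + 4 * e₄ = e₄; ring
  have vW : vt (u W) = -3 * e₄' := by
    rw [hs.uW]; show -2 * 0 - 2 * 0 - 3 * 0 - 3 * e₄' + 4 * 0 = -3 * e₄'; ring
  have vU : vt (u U) = 4 * e₅ := by
    rw [hs.uU]; show -2 * 0 - 2 * 0 - 3 * 0 - 3 * 0 + 4 * e₅ = 4 * e₅; ring
  -- squares of the signs
  have sq : ∀ s : ℤ, (s = 1 ∨ s = -1) → (s : ℚ) ^ 2 = 1 := by
    intro s h
    rcases h with rfl | rfl <;> norm_num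
  have hesq := sq e hs.he
  have he₃sq := sq e₃ hs.he₃
  have he₄sq := sq e₄ hs.he₄
  have he₄'sq := sq e₄' hs.he₄'
  -- the degree equations
  have hdeg : ∀ k : Fin 5, u i₀ k * (d i₀ : ℤ) + (u R k * (d R : ℤ) + (u L k * (d L : ℤ) +
      (u (bar L) k * (d (bar L) : ℤ) + (u Y k * (d Y : ℤ) + (u Z k * (d Z : ℤ) +
      (u W k * (d W : ℤ) + (u U k * (d U : ℤ) + 0))))))) = 0 := by
    intro k
    have h := hA.deg k
    rw [sum_list _ hs.nodup _ (fun i hi => by rw [hs.zero i hi k, zero_mul])] at h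
    exact h
  have h2 := hdeg 2
  have h3 := hdeg 3
  have h4 := hdeg 4
  rw [u0_2, uR_2, uL_2, uLb_2, uY_2, uZ_2, uW_2, uU_2, hA.d0] at h2
  rw [u0_3, uR_3, uL_3, uLb_3, uY_3, uZ_3, uW_3, uU_3, hA.d0] at h3
  rw [u0_4, uR_4, uL_4, uLb_4, uY_4, uZ_4, uW_4, uU_4, hA.d0] at h4
  -- the two rational equations
  have hE3 := hA.e3
  rw [sum_list _ hs.nodup _ (fun i hi => by
    rw [hs.zero i hi 2, hs.zero i hi 3]; simp)] at hE3
  simp only [List.map_cons, List.map_nil, List.sum_cons, List.sum_nil] at hE3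
  rw [u0_2, uR_2, uL_2, uLb_2, uY_2, uZ_2, uW_2, uU_2, u0_3, uR_3, uL_3, uLb_3, uY_3, uZ_3,
    uW_3, uU_3, v0, vR, vL, vLb, vY, vZ, vW, vU, hA.d0] at hE3
  push_cast at hE3
  have hE2 := hA.e2
  rw [sum_list _ hs.nodup _ (fun i hi => by
    rw [hs.zero i hi 2, hs.zero i hi 3]; simp)] at hE2
  simp only [List.map_cons, List.map_nil, List.sum_cons, List.sum_nil] at hE2
  rw [u0_2, uR_2, uL_2, uLb_2, uY_2, uZ_2, uW_2, uU_2, u0_3, uR_3, uL_3, uLb_3, uY_3, uZ_3,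
    uW_3, uU_3, v0, vR, vL, vLb, vY, vZ, vW, vU, hA.d0] at hE2
  push_cast at hE2
  refine ⟨hs.he, hs.he₃, hs.he₄, hs.he₄', hs.he₅, hne R (by simp), hne Y (by simp),
    hne Z (by simp), hne W (by simp), hne U (by simp), ?_, ?_, ?_, ?_, ?_, hA.hP, hA.h32⟩
  · push_cast at h2
    linear_combination h2
  · push_cast at h3
    linear_combination h3
  · push_cast at h4
    linear_combination h4
  · linear_combination hE3 - (9 * (e₃ : ℚ) / (d Y : ℚ)) * he₃sq + ((e₄ : ℚ) / (d Z : ℚ)) * he₄sq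
      + (9 * (e₄' : ℚ) / (d W : ℚ)) * he₄'sq
  · linear_combination hE2 - (N : ℚ) * (8 * (e : ℚ) / (d R : ℚ)) * hesq
      - (N : ℚ) * (9 * (e₃ : ℚ) / (d Y : ℚ)) * he₃sq - (N : ℚ) * ((e₄ : ℚ) / (d Z : ℚ)) * he₄sq
      - (N : ℚ) * (9 * (e₄' : ℚ) / (d W : ℚ)) * he₄'sq

example : StmtSum.{u} := sum

end Cfsg.Agent.H40.GL23

#print axioms Cfsg.Agent.H40.GL23.sum
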