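import Cfsg.Agent.H98.GuDefs

set_option autoImplicit false

/-!
# S5976 piece NORM (helper40 for helper98): the normaliser of `K = F + F J`
-/

namespace Cfsg.Agent.H40.Gu

open Matrix Cfsg.Agent.H98.Gu

universe u

theorem norm : StNorm.{u} := by
  intro F _ d K J δ h2 hδ hJK hK hJJ
  classical
  rcases Nat.eq_zero_or_pos d with rfl | hd
  · refine ⟨?_, ?_⟩
    · intro g _
      show ∀ k, k ∈ K ↔ _ ∈ K
      intro k
      rw [Subsingleton.elim ((g : Matrix (Fin 0 ⊕ Fin 0) (Fin 0 ⊕ Fin 0) F) * k *
        ((g⁻¹ : Matrix.GeneralLinearGroup (Fin 0 ⊕ Fin 0) F) :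
          Matrix (Fin 0 ⊕ Fin 0) (Fin 0 ⊕ Fin 0) F)) k]
    · intro g _ r z _ _
      exact Subsingleton.elim _ _
  · let i₀ : Fin d ⊕ Fin d := Sum.inl ⟨0, hd⟩
    have hsc0 : ∀ c : F, c • (1 : Matrix (Fin d ⊕ Fin d) (Fin d ⊕ Fin d) F) = 0 → c = 0 := by
      intro c hc
      have := congrFun (congrFun hc i₀) i₀
      simpa using this
    have hJns : ∀ c : F, J ≠ c • (1 : Matrix (Fin d ⊕ Fin d) (Fin d ⊕ Fin d) F) := by
      intro c hc
      apply hδ
      refine ⟨c, ?_⟩
      have h1 : (c * c - δ) • (1 : Matrix (Fin d ⊕ Fin d) (Fin d ⊕ Fin d) F) = 0 := by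
        rw [sub_smul, ← hJJ, hc]
        simp [smul_smul]
      have := hsc0 _ h1
      linear_combination -this
    have hindep : ∀ c e : F,
        c • (1 : Matrix (Fin d ⊕ Fin d) (Fin d ⊕ Fin d) F) + e • J = 0 → c = 0 ∧ e = 0 := by
      intro c e h
      have he : e = 0 := by
        by_contra hne
        apply hJns (-c / e)
        have h1 : e • J = (-c) • (1 : Matrix (Fin d ⊕ Fin d) (Fin d ⊕ Fin d) F) := by
          rw [neg_smul]; exact eq_neg_of_add_eq_zero_right h
        calc J = e⁻¹ • (e • J) := by rw [smul_smul, inv_mul_cancel₀ hne, one_smul]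
          _ = (-c / e) • 1 := by
            rw [h1, smul_smul]
            congr 1
            field_simp
      refine ⟨?_, he⟩
      rw [he, zero_smul, add_zero] at h
      exact hsc0 c h
    have hmi : ∀ g : Matrix.GeneralLinearGroup (Fin d ⊕ Fin d) F,
        (g : Matrix (Fin d ⊕ Fin d) (Fin d ⊕ Fin d) F) *
          ((g⁻¹ : Matrix.GeneralLinearGroup (Fin d ⊕ Fin d) F) :
            Matrix (Fin d ⊕ Fin d) (Fin d ⊕ Fin d) F) = 1 := by
      intro g
      rw [← Units.val_mul, mul_inv_cancel, Units.val_one]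
    have him : ∀ g : Matrix.GeneralLinearGroup (Fin d ⊕ Fin d) F,
        ((g⁻¹ : Matrix.GeneralLinearGroup (Fin d ⊕ Fin d) F) :
            Matrix (Fin d ⊕ Fin d) (Fin d ⊕ Fin d) F) *
          (g : Matrix (Fin d ⊕ Fin d) (Fin d ⊕ Fin d) F) = 1 := by
      intro g
      rw [← Units.val_mul, inv_mul_cancel, Units.val_one]
    refine ⟨?_, ?_⟩
    · intro g hg
      generalize hgm : (g : Matrix (Fin d ⊕ Fin d) (Fin d ⊕ Fin d) F) = gm at hg
      generalize hgi : ((g⁻¹ : Matrix.GeneralLinearGroup (Fin d ⊕ Fin d) F) :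
            Matrix (Fin d ⊕ Fin d) (Fin d ⊕ Fin d) F) = gi
      have e1 : gm * gi = 1 := by rw [← hgm, ← hgi]; exact hmi g
      have e2 : gi * gm = 1 := by rw [← hgm, ← hgi]; exact him g
      obtain ⟨ε, hε, hgJ⟩ : ∃ ε : F, ε * ε = 1 ∧ gm * J = ε • (J * gm) := by
        rcases hg with h | h
        · exact ⟨1, by ring, by rw [one_smul]; exact h⟩
        · exact ⟨-1, by ring, by rw [neg_smul, one_smul]; exact h⟩
      have h1 : gm * J * gi = ε • J := by
        rw [hgJ, Matrix.smul_mul, mul_assoc, e1, mul_one]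
      have h2 : gi * J * gm = ε • J := by
        have h3 : gi * (gm * J) = gi * (ε • (J * gm)) := by rw [hgJ]
        rw [← mul_assoc, e2, one_mul, Matrix.mul_smul, ← mul_assoc] at h3
        calc gi * J * gm = (ε * ε) • (gi * J * gm) := by rw [hε, one_smul]
          _ = ε • (ε • (gi * J * gm)) := by rw [smul_smul]
          _ = ε • J := by rw [← h3]
      show ∀ k, k ∈ K ↔ (g : Matrix (Fin d ⊕ Fin d) (Fin d ⊕ Fin d) F) * k *
        ((g⁻¹ : Matrix.GeneralLinearGroup (Fin d ⊕ Fin d) F) :
            Matrix (Fin d ⊕ Fin d) (Fin d ⊕ Fin d) F) ∈ K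
      rw [hgm, hgi]
      intro k
      constructor
      · intro hk
        obtain ⟨a, b, rfl⟩ := hK k hk
        have h4 : gm * (a • (1 : Matrix (Fin d ⊕ Fin d) (Fin d ⊕ Fin d) F) + b • J) * gi
            = a • 1 + (b * ε) • J := by
          rw [mul_add, add_mul, Matrix.mul_smul, Matrix.smul_mul, mul_one, e1, Matrix.mul_smul,
            Matrix.smul_mul, h1, smul_smul]
        rw [h4]
        exact K.add_mem (K.smul_mem K.one_mem a) (K.smul_mem hJK _)
      · intro hk
        obtain ⟨a, b, hab⟩ := hK _ hk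
        have h4 : k = a • (1 : Matrix (Fin d ⊕ Fin d) (Fin d ⊕ Fin d) F) + (b * ε) • J := by
          calc k = gi * (gm * k * gi) * gm := by
                rw [mul_assoc gm, ← mul_assoc gi, e2, one_mul, mul_assoc, e2, mul_one]
            _ = gi * (a • (1 : Matrix (Fin d ⊕ Fin d) (Fin d ⊕ Fin d) F) + b • J) * gm := by
                rw [hab]
            _ = a • 1 + (b * ε) • J := by
                rw [mul_add, add_mul, Matrix.mul_smul, Matrix.smul_mul, mul_one, e2,
                  Matrix.mul_smul, Matrix.smul_mul, h2, smul_smul]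
        rw [h4]
        exact K.add_mem (K.smul_mem K.one_mem a) (K.smul_mem hJK _)
    · intro g hg r z hr hgr
      have hg' : ∀ k, k ∈ K ↔ (g : Matrix (Fin d ⊕ Fin d) (Fin d ⊕ Fin d) F) * k *
        ((g⁻¹ : Matrix.GeneralLinearGroup (Fin d ⊕ Fin d) F) :
            Matrix (Fin d ⊕ Fin d) (Fin d ⊕ Fin d) F) ∈ K := hg
      have hunit : (1 : Matrix (Fin d ⊕ Fin d) (Fin d ⊕ Fin d) F) =
          ((g ^ r : Matrix.GeneralLinearGroup (Fin d ⊕ Fin d) F) :
            Matrix (Fin d ⊕ Fin d) (Fin d ⊕ Fin d) F) *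
          (((g ^ r)⁻¹ : Matrix.GeneralLinearGroup (Fin d ⊕ Fin d) F) :
            Matrix (Fin d ⊕ Fin d) (Fin d ⊕ Fin d) F) := (hmi (g ^ r)).symm
      rw [Units.val_pow_eq_pow_val] at hgr
      generalize hgm : (g : Matrix (Fin d ⊕ Fin d) (Fin d ⊕ Fin d) F) = gm at hg' hgr ⊢
      generalize hgi : ((g⁻¹ : Matrix.GeneralLinearGroup (Fin d ⊕ Fin d) F) :
            Matrix (Fin d ⊕ Fin d) (Fin d ⊕ Fin d) F) = gi at hg'
      have e1 : gm * gi = 1 := by rw [← hgm, ← hgi]; exact hmi g
      have e2 : gi * gm = 1 := by rw [← hgm, ← hgi]; exact him g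
      obtain ⟨a, b, hab⟩ := hK _ ((hg' J).mp hJK)
      have hsq : (gm * J * gi) * (gm * J * gi) = δ • 1 := by
        calc (gm * J * gi) * (gm * J * gi) = gm * (J * (gi * gm) * J) * gi := by
              simp only [mul_assoc]
          _ = δ • 1 := by
              rw [e2, mul_one, hJJ, Matrix.mul_smul, Matrix.smul_mul, mul_one, e1]
      rw [hab] at hsq
      have hexp : (a • (1 : Matrix (Fin d ⊕ Fin d) (Fin d ⊕ Fin d) F) + b • J) *
          (a • (1 : Matrix (Fin d ⊕ Fin d) (Fin d ⊕ Fin d) F) + b • J)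
          = (a * a + b * b * δ) • (1 : Matrix (Fin d ⊕ Fin d) (Fin d ⊕ Fin d) F)
            + (2 * a * b) • J := by
        rw [mul_add, add_mul, add_mul]
        simp only [Matrix.smul_mul, Matrix.mul_smul, mul_one, one_mul, hJJ, smul_smul]
        module
      have hz : (a * a + b * b * δ - δ) • (1 : Matrix (Fin d ⊕ Fin d) (Fin d ⊕ Fin d) F)
          + (2 * a * b) • J = 0 := by
        calc (a * a + b * b * δ - δ) • (1 : Matrix (Fin d ⊕ Fin d) (Fin d ⊕ Fin d) F)
              + (2 * a * b) • J
            = ((a * a + b * b * δ) • (1 : Matrix (Fin d ⊕ Fin d) (Fin d ⊕ Fin d) F)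
              + (2 * a * b) • J) - δ • 1 := by module
          _ = 0 := by rw [← hexp, hsq, sub_self]
      obtain ⟨h1, h2'⟩ := hindep _ _ hz
      have hb : b ≠ 0 := by
        rintro rfl
        apply hδ
        exact ⟨a, by linear_combination -h1⟩
      have ha : a = 0 := by
        rcases mul_eq_zero.mp h2' with h | h
        · rcases mul_eq_zero.mp h with h | h
          · exact absurd h h2
          · exact h
        · exact absurd h hb
      have hδ0 : δ ≠ 0 := by
        rintro rfl
        exact hδ ⟨0, by ring⟩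
      have hbb : b * b = 1 := by
        have h3 : (b * b - 1) * δ = 0 := by rw [ha] at h1; linear_combination h1
        rcases mul_eq_zero.mp h3 with h | h
        · linear_combination h
        · exact absurd h hδ0
      rw [ha, zero_smul, zero_add] at hab
      rcases mul_self_eq_one_iff.mp hbb with rfl | rfl
      · rw [one_smul] at hab
        calc gm * J = (gm * J * gi) * gm := by rw [mul_assoc (gm * J), e2, mul_one]
          _ = J * gm := by rw [hab]
      · exfalso
        rw [neg_smul, one_smul] at hab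
        have hanti : gm * J = -(J * gm) := by
          calc gm * J = (gm * J * gi) * gm := by rw [mul_assoc (gm * J), e2, mul_one]
            _ = -(J * gm) := by rw [hab, neg_mul]
        have hpow : ∀ n : ℕ, gm ^ n * J = (-1 : F) ^ n • (J * gm ^ n) := by
          intro n
          induction n with
          | zero => simp
          | succ n ih =>
            rw [pow_succ, mul_assoc, hanti, mul_neg, ← mul_assoc, ih, Matrix.smul_mul,
              mul_assoc, pow_succ, ← smul_neg, mul_smul]
            simp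
        have h5 := hpow r
        rw [hgr, hr.neg_one_pow, Matrix.smul_mul, one_mul, Matrix.mul_smul, mul_one,
          neg_smul, one_smul] at h5
        have h6 : (0 : F) • (1 : Matrix (Fin d ⊕ Fin d) (Fin d ⊕ Fin d) F) + (2 * z) • J = 0 := by
          rw [zero_smul, zero_add, mul_smul, two_smul]
          nth_rewrite 1 [h5]
          exact neg_add_cancel _
        have h7 := (hindep _ _ h6).2
        have hz0 : z = 0 := by
          rcases mul_eq_zero.mp h7 with h | h
          · exact absurd h h2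
          · exact h
        rw [Units.val_pow_eq_pow_val, hgm, hgr, hz0, zero_smul, zero_mul] at hunit
        have h8 := hsc0 1 (by rw [one_smul]; exact hunit)
        exact one_ne_zero h8

end Cfsg.Agent.H40.Gu

universe v in
example : Cfsg.Agent.H98.Gu.StNorm.{v} := Cfsg.Agent.H40.Gu.norm
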