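import Cfsg.Agent.H98.GuDefs
import Cfsg.Agent.H17.Symp

set_option autoImplicit false

/-!
# S5976 piece TV (helper40 for helper98): a symplectic transvection commutes with no square
root of a non-square
-/

namespace Cfsg.Agent.H40.Gu

open Matrix Cfsg.Agent.H98.Gu

universe u

theorem tv_e0_f0 {F : Type u} [Field F] {d : ℕ} (hd : 1 ≤ d) :
    Cfsg.sympForm d F (Pi.single (Sum.inr ⟨0, hd⟩) 1) (Pi.single (Sum.inl ⟨0, hd⟩) 1) = 1 := by
  rw [Cfsg.Agent.H17.sympForm_eq_sum]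
  rw [Finset.sum_eq_single (⟨0, hd⟩ : Fin d)]
  · simp
  · intro b _ hb
    simp [hb]
  · intro h
    exact absurd (Finset.mem_univ _) h

theorem tv_pow {F : Type u} [Field F] (n : ℕ) (v : Fin n ⊕ Fin n → F) (j : ℕ) :
    Cfsg.sympTransvection n v (1 : F) ^ j = Cfsg.sympTransvection n v (j : F) := by
  induction j with
  | zero => rw [pow_zero, Nat.cast_zero, Cfsg.Agent.H17.sympTransvection_zero]
  | succ j ih => rw [pow_succ, ih, Cfsg.Agent.H17.sympTransvection_mul, Nat.cast_succ]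

theorem tv : StTv.{u} := by
  intro F _ _ p _ _ d hd
  classical
  let v : Fin d ⊕ Fin d → F := Pi.single (Sum.inl ⟨0, hd⟩) 1
  let w : Fin d ⊕ Fin d → F := Pi.single (Sum.inr ⟨0, hd⟩) 1
  have hwv : Cfsg.sympForm d F w v = 1 := tv_e0_f0 hd
  have hv0 : v (Sum.inl ⟨0, hd⟩) = 1 := by simp [v]
  have hw0 : w (Sum.inl ⟨0, hd⟩) = 0 := by simp [w]
  have hTw : Cfsg.sympTransvection d v (1 : F) *ᵥ w = w + v := by
    rw [Cfsg.Agent.H17.sympTransvection_mulVec, hwv, mul_one, one_smul]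
  have h1 : Cfsg.sympTransvection d v (1 : F) * Cfsg.sympTransvection d v (-1 : F) = 1 := by
    rw [Cfsg.Agent.H17.sympTransvection_mul, add_neg_cancel,
      Cfsg.Agent.H17.sympTransvection_zero]
  have h2 : Cfsg.sympTransvection d v (-1 : F) * Cfsg.sympTransvection d v (1 : F) = 1 := by
    rw [Cfsg.Agent.H17.sympTransvection_mul, neg_add_cancel,
      Cfsg.Agent.H17.sympTransvection_zero]
  let x : Matrix.GeneralLinearGroup (Fin d ⊕ Fin d) F :=
    ⟨Cfsg.sympTransvection d v (1 : F), Cfsg.sympTransvection d v (-1 : F), h1, h2⟩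
  have hxv : (x : Matrix (Fin d ⊕ Fin d) (Fin d ⊕ Fin d) F) = Cfsg.sympTransvection d v (1 : F) :=
    rfl
  refine ⟨x, ?_, ?_, ?_, ?_⟩
  · show ∀ u v', Cfsg.sympForm d F
      ((x : Matrix (Fin d ⊕ Fin d) (Fin d ⊕ Fin d) F) *ᵥ u)
      ((x : Matrix (Fin d ⊕ Fin d) (Fin d ⊕ Fin d) F) *ᵥ v') = Cfsg.sympForm d F u v'
    rw [hxv]
    exact (Cfsg.Agent.H17.mem_symplecticGroup_iff_form d _).1
      (Cfsg.Agent.H17.sympTransvection_mem d v 1)
  · apply Units.ext
    rw [Units.val_pow_eq_pow_val, hxv, tv_pow, CharP.cast_eq_zero,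
      Cfsg.Agent.H17.sympTransvection_zero]
    rfl
  · intro z hz
    rw [hxv] at hz
    have h3 := hTw
    rw [hz, Matrix.smul_mulVec, Matrix.one_mulVec] at h3
    have h4 := congrFun h3 (Sum.inl ⟨0, hd⟩)
    simp only [Pi.smul_apply, Pi.add_apply, hv0, hw0, smul_eq_mul, mul_zero, zero_add] at h4
    exact zero_ne_one h4
  · intro δ J hδ hJJ hcomm
    rw [hxv] at hcomm
    apply hδ
    have h3 : Cfsg.sympTransvection d v (1 : F) *ᵥ (J *ᵥ w) =
        J *ᵥ (Cfsg.sympTransvection d v (1 : F) *ᵥ w) := by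
      rw [Matrix.mulVec_mulVec, Matrix.mulVec_mulVec, hcomm]
    rw [hTw, Cfsg.Agent.H17.sympTransvection_mulVec, Matrix.mulVec_add, one_mul] at h3
    have h4 : J *ᵥ v = Cfsg.sympForm d F (J *ᵥ w) v • v := (add_left_cancel h3).symm
    generalize Cfsg.sympForm d F (J *ᵥ w) v = c at h4
    have h5 : J *ᵥ (J *ᵥ v) = (c * c) • v := by
      rw [h4, Matrix.mulVec_smul, h4, smul_smul]
    rw [Matrix.mulVec_mulVec, hJJ, Matrix.smul_mulVec, Matrix.one_mulVec] at h5
    have h6 := congrFun h5 (Sum.inl ⟨0, hd⟩)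
    simp only [Pi.smul_apply, hv0, smul_eq_mul, mul_one] at h6
    exact ⟨c, h6⟩

universe v in
example : Cfsg.Agent.H98.Gu.StTv.{v} := Cfsg.Agent.H40.Gu.tv

end Cfsg.Agent.H40.Gu
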