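import Mathlib
import Cfsg.Agent.H79.HcDefs
import Cfsg.Agent.H80.GroupBasic

/-!
# S4440 piece P12 (`StmtGTb`): the case of a central part of an abelian `O_p`
-/

set_option autoImplicit false

namespace Cfsg.Agent.H40.Hc

open Cfsg Cfsg.Agent.H79.Hc Subgroup

universe u

/-- A subgroup of a finite group all of whose elements have order prime to `p` has order
prime to `p`. -/
theorem card_coprime_of_orderOf {G : Type*} [Group G] [Finite G] (p : ℕ) [Fact p.Prime]
    (H : Subgroup G) (h : ∀ x ∈ H, (orderOf x).Coprime p) : (Nat.card H).Coprime p := by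
  have hp : p.Prime := Fact.out
  rw [Nat.coprime_comm, hp.coprime_iff_not_dvd]
  intro hdvd
  obtain ⟨x, hx⟩ := exists_prime_orderOf_dvd_card' p hdvd
  have h1 := h x x.2
  rw [Subgroup.orderOf_coe, hx] at h1
  exact hp.one_lt.ne' ((Nat.coprime_self p).mp h1)

/-- `O_{p'}(Γ)` maps into `O_{p'}(Γ ⧸ W)`. -/
theorem mk_mem_of_mem_pPrimeCore {Γ : Type u} [Group Γ] [Finite Γ] (p : ℕ) [Fact p.Prime]
    (W : Subgroup Γ) [W.Normal] (z : Γ) (hz : z ∈ pPrimeCore p Γ) :
    QuotientGroup.mk' W z ∈ pPrimeCore p (Γ ⧸ W) := by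
  have hZn : (pPrimeCore p Γ).Normal := Cfsg.Agent.H80.pPrimeCore_normal p Γ
  have hZc' : (Nat.card (pPrimeCore p Γ)).Coprime p := Cfsg.Agent.H80.pPrimeCore_coprime p Γ
  have hn : ((pPrimeCore p Γ).map (QuotientGroup.mk' W)).Normal :=
    hZn.map _ (QuotientGroup.mk'_surjective _)
  have hc : (Nat.card ((pPrimeCore p Γ).map (QuotientGroup.mk' W))).Coprime p := by
    apply card_coprime_of_orderOf
    rintro _ ⟨z', hz', rfl⟩
    exact Nat.Coprime.coprime_dvd_left
      ((orderOf_map_dvd _ z').trans (Subgroup.orderOf_dvd_natCard _ hz')) hZc'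
  exact Cfsg.Agent.H80.le_pPrimeCore p _ hn hc (mem_map_of_mem _ hz)

/-- Elements of `O_{p'}(Γ ⧸ W)` have order prime to `p`. -/
theorem orderOf_coprime_of_mem {Γ : Type u} [Group Γ] [Finite Γ] (p : ℕ)
    (W : Subgroup Γ) [W.Normal] (y : Γ) (hy : QuotientGroup.mk' W y ∈ pPrimeCore p (Γ ⧸ W)) :
    (orderOf (QuotientGroup.mk' W y)).Coprime p :=
  Nat.Coprime.coprime_dvd_left (Subgroup.orderOf_dvd_natCard _ hy)
    (Cfsg.Agent.H80.pPrimeCore_coprime p (Γ ⧸ W))

theorem exists_pow_of_mem_pCore {Γ : Type u} [Group Γ] [Finite Γ] (p : ℕ) [Fact p.Prime]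
    (v : Γ) (hv : v ∈ pCore p Γ) : ∃ k : ℕ, v ^ p ^ k = 1 := by
  obtain ⟨k, hk⟩ := (Cfsg.Agent.H80.pCore_isPGroup p Γ) ⟨v, hv⟩
  exact ⟨k, by simpa using congrArg Subtype.val hk⟩

/-- The preimage of `O_{p'}(Γ ⧸ W)` meets `O_p(Γ)` inside `W`. -/
theorem mem_of_core_inf {Γ : Type u} [Group Γ] [Finite Γ] (p : ℕ) [Fact p.Prime]
    (W : Subgroup Γ) [W.Normal] (y : Γ) (hyY : QuotientGroup.mk' W y ∈ pPrimeCore p (Γ ⧸ W))
    (hyP : y ∈ pCore p Γ) : y ∈ W := by
  obtain ⟨k, hyk⟩ := exists_pow_of_mem_pCore p y hyP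
  have ho2 : orderOf (QuotientGroup.mk' W y) ∣ p ^ k := by
    apply orderOf_dvd_of_pow_eq_one
    rw [← map_pow, hyk, map_one]
  have ho3 : orderOf (QuotientGroup.mk' W y) = 1 :=
    Nat.Coprime.eq_one_of_dvd (Nat.Coprime.pow_right k (orderOf_coprime_of_mem p W y hyY)) ho2
  rw [orderOf_eq_one_iff] at ho3
  exact (QuotientGroup.eq_one_iff y).mp ho3

/-- The preimage of `O_{p'}(Γ ⧸ W)` acts trivially on `O_p(Γ)` modulo `W`. -/
theorem comm_mem_of_core {Γ : Type u} [Group Γ] [Finite Γ] (p : ℕ) [Fact p.Prime]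
    (W : Subgroup Γ) [W.Normal] (hP0n : (pCore p Γ).Normal) (y : Γ)
    (hy : QuotientGroup.mk' W y ∈ pPrimeCore p (Γ ⧸ W)) (v : Γ) (hv : v ∈ pCore p Γ) :
    y * v * y⁻¹ * v⁻¹ ∈ W := by
  have hYbn : (pPrimeCore p (Γ ⧸ W)).Normal := Cfsg.Agent.H80.pPrimeCore_normal p (Γ ⧸ W)
  apply mem_of_core_inf p W
  · have e : y * v * y⁻¹ * v⁻¹ = y * (v * y⁻¹ * v⁻¹) := by group
    rw [e, map_mul]
    refine mul_mem hy ?_
    rw [map_mul, map_mul, map_inv, map_inv]
    exact hYbn.conj_mem _ (inv_mem hy) _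
  · exact mul_mem (hP0n.conj_mem v hv y) (inv_mem hv)

theorem stmtGTb (p : ℕ) [Fact p.Prime] : StmtGTb.{u} p := by
  intro Γ _ _ hP0n W hWn _hsolv _hZc hcent habel hWP hWcent
  have hp : p.Prime := Fact.out
  have hYbn : (pPrimeCore p (Γ ⧸ W)).Normal := Cfsg.Agent.H80.pPrimeCore_normal p (Γ ⧸ W)
  have hord := orderOf_coprime_of_mem p W
  have hpel := exists_pow_of_mem_pCore (Γ := Γ) p
  have h1 := mem_of_core_inf (Γ := Γ) p W
  -- (2) the image of `Y` modulo `P₀` lies in `O_{p'}`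
  have h2 : ∀ y : Γ, QuotientGroup.mk' W y ∈ pPrimeCore p (Γ ⧸ W) →
      QuotientGroup.mk' (pCore p Γ) y ∈ pPrimeCore p (Γ ⧸ pCore p Γ) := by
    intro y hy
    have hYn : ((pPrimeCore p (Γ ⧸ W)).comap (QuotientGroup.mk' W)).Normal := hYbn.comap _
    have hn : (((pPrimeCore p (Γ ⧸ W)).comap (QuotientGroup.mk' W)).map
        (QuotientGroup.mk' (pCore p Γ))).Normal := hYn.map _ (QuotientGroup.mk'_surjective _)
    have hc : (Nat.card (((pPrimeCore p (Γ ⧸ W)).comap (QuotientGroup.mk' W)).map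
        (QuotientGroup.mk' (pCore p Γ)))).Coprime p := by
      apply card_coprime_of_orderOf
      rintro _ ⟨y', hy', rfl⟩
      have hy'' : QuotientGroup.mk' W y' ∈ pPrimeCore p (Γ ⧸ W) := hy'
      have hpow : y' ^ orderOf (QuotientGroup.mk' W y') ∈ W := by
        rw [← QuotientGroup.eq_one_iff]
        have := pow_orderOf_eq_one (QuotientGroup.mk' W y')
        rwa [← map_pow] at this
      have hdvd : orderOf (QuotientGroup.mk' (pCore p Γ) y') ∣
          orderOf (QuotientGroup.mk' W y') := by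
        apply orderOf_dvd_of_pow_eq_one
        rw [← map_pow]
        exact (QuotientGroup.eq_one_iff _).mpr (hWP hpow)
      exact Nat.Coprime.coprime_dvd_left hdvd (hord y' hy'')
    exact Cfsg.Agent.H80.le_pPrimeCore p _ hn hc (mem_map_of_mem _ hy)
  -- (3) `Y` centralizes `P₀`
  have h3 : ∀ y : Γ, QuotientGroup.mk' W y ∈ pPrimeCore p (Γ ⧸ W) →
      ∀ v ∈ pCore p Γ, y * v = v * y := by
    intro y hy v hv
    obtain ⟨w, hw⟩ : ∃ w : Γ, w = y * v * y⁻¹ * v⁻¹ := ⟨_, rfl⟩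
    have hwW : w ∈ W := by rw [hw]; exact comm_mem_of_core p W hP0n y hy v hv
    have hwP : w ∈ pCore p Γ := hWP hwW
    have hyw : y * w = w * y := hWcent w hwW y (h2 y hy)
    have hyv : y * v * y⁻¹ = w * v := by rw [hw]; group
    have hpow : ∀ k : ℕ, y ^ k * v * (y ^ k)⁻¹ = w ^ k * v := by
      intro k
      induction k with
      | zero => simp
      | succ k ih =>
        have hywk : y * w ^ k = w ^ k * y := Commute.pow_right hyw k
        calc y ^ (k + 1) * v * (y ^ (k + 1))⁻¹ = y * (y ^ k * v * (y ^ k)⁻¹) * y⁻¹ := by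
              rw [pow_succ']; group
          _ = y * (w ^ k * v) * y⁻¹ := by rw [ih]
          _ = (y * w ^ k) * y⁻¹ * (y * v * y⁻¹) := by group
          _ = (w ^ k * y) * y⁻¹ * (w * v) := by rw [hywk, hyv]
          _ = w ^ (k + 1) * v := by rw [pow_succ]; group
    have hym : y ^ orderOf (QuotientGroup.mk' W y) ∈ W := by
      rw [← QuotientGroup.eq_one_iff]
      have := pow_orderOf_eq_one (QuotientGroup.mk' W y)
      rwa [← map_pow] at this
    have hcomm := habel _ (hWP hym) v hv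
    have hwm : w ^ orderOf (QuotientGroup.mk' W y) = 1 := by
      have e1 := hpow (orderOf (QuotientGroup.mk' W y))
      rw [hcomm, mul_inv_cancel_right] at e1
      exact (mul_eq_right.mp e1.symm)
    obtain ⟨k, hwk⟩ := hpel w hwP
    have hd1 : orderOf w ∣ orderOf (QuotientGroup.mk' W y) := orderOf_dvd_of_pow_eq_one hwm
    have hd2 : orderOf w ∣ p ^ k := orderOf_dvd_of_pow_eq_one hwk
    have hw1 : orderOf w = 1 :=
      Nat.Coprime.eq_one_of_dvd
        (Nat.Coprime.pow_right k (Nat.Coprime.coprime_dvd_left hd1 (hord y hy))) hd2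
    rw [orderOf_eq_one_iff] at hw1
    rw [hw1] at hyv
    rw [one_mul] at hyv
    exact mul_inv_eq_iff_eq_mul.mp hyv
  -- (4) conclusion
  intro ybar hybar
  obtain ⟨y, rfl⟩ := QuotientGroup.mk'_surjective W ybar
  have hyC : y ∈ centralizer ((pCore p Γ : Subgroup Γ) : Set Γ) := by
    rw [mem_centralizer_iff]
    intro v hv
    exact (h3 y hybar v hv).symm
  have hy2 := hcent hyC
  obtain ⟨v, hv, z, hz, hvz⟩ := (mem_sup_of_normal_left (hs := hP0n)).mp hy2
  have hzY : QuotientGroup.mk' W z ∈ pPrimeCore p (Γ ⧸ W) := mk_mem_of_mem_pPrimeCore p W z hz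
  have hvW : v ∈ W := by
    apply h1 v _ hv
    have e : v = y * z⁻¹ := by rw [← hvz]; group
    rw [e, map_mul, map_inv]
    exact mul_mem hybar (inv_mem hzY)
  refine ⟨z, hz, ?_⟩
  have hv1 : QuotientGroup.mk' W v = 1 := (QuotientGroup.eq_one_iff v).mpr hvW
  rw [← hvz, map_mul, hv1, one_mul]

end Cfsg.Agent.H40.Hc
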