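import Mathlib
import Cfsg.Agent.H79.HcDefs
import Cfsg.Agent.H80.GroupBasic
import Cfsg.Agent.H80.PSolvable
import Cfsg.Agent.Helper55.FrattiniFaithful
import Cfsg.Agent.H40.HcGTb

/-!
# S4440 piece P11 (`StmtGTa`): the Frattini case
-/

set_option autoImplicit false

namespace Cfsg.Agent.H40.Hc

open Cfsg Cfsg.Agent.H79.Hc Subgroup

universe u

theorem stmtGTa (p : ℕ) [Fact p.Prime] : StmtGTa.{u} p := by
  intro Γ _ _ hZn Φ hΦn hsolv _hZc hP hΦ
  have hP0n : (pCore p Γ).Normal := Cfsg.Agent.H80.pCore_normal p Γ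
  have hPbar : (pCore p Γ).map (QuotientGroup.mk' (pPrimeCore p Γ)) ≤
      pCore p (Γ ⧸ pPrimeCore p Γ) := by
    apply Cfsg.Agent.H80.le_pCore p _ (hP0n.map _ (QuotientGroup.mk'_surjective _))
    exact (Cfsg.Agent.H80.pCore_isPGroup p Γ).map _
  -- the restriction of the quotient map to `O_p`
  let φ : ↥(pCore p Γ) →* ↥(pCore p (Γ ⧸ pPrimeCore p Γ)) :=
    ((QuotientGroup.mk' (pPrimeCore p Γ)).comp (pCore p Γ).subtype).codRestrict _
      (fun k => hPbar (mem_map_of_mem _ k.2))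
  have hφs : Function.Surjective φ := by
    rintro ⟨kb, hkb⟩
    obtain ⟨k, hk, rfl⟩ := hP hkb
    exact ⟨⟨k, hk⟩, Subtype.ext rfl⟩
  have hfr := frattini_le_comap_frattini_of_surjective hφs
  intro ybar hybar
  obtain ⟨y, rfl⟩ := QuotientGroup.mk'_surjective Φ ybar
  have hyP : QuotientGroup.mk' (pPrimeCore p Γ) y ∈ pCore p (Γ ⧸ pPrimeCore p Γ) := by
    apply Cfsg.Agent.Helper55.mem_pCore_of_trivial_on_frattini_quotient p
      (Cfsg.Agent.H80.isPSolvable_quotient p _ hsolv) (Cfsg.Agent.H80.pPrimeCore_quotient_eq_bot p)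
    intro kb hkb
    obtain ⟨k, hk, rfl⟩ := hP hkb
    have hc : y * k * y⁻¹ * k⁻¹ ∈ Φ := comm_mem_of_core p Φ hP0n y hybar k hk
    rw [hΦ] at hc
    obtain ⟨x, hx, hxc⟩ := hc
    refine ⟨φ x, hfr hx, ?_⟩
    have hxc' : (x : Γ) = y * k * y⁻¹ * k⁻¹ := hxc
    show QuotientGroup.mk' (pPrimeCore p Γ) (x : Γ) = _
    rw [hxc']; simp only [map_mul, map_inv]
  obtain ⟨v, hv, hvy⟩ := hP hyP
  have hz : v⁻¹ * y ∈ pPrimeCore p Γ := QuotientGroup.eq.mp hvy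
  have hzY := mk_mem_of_mem_pPrimeCore p Φ _ hz
  have hvΦ : v ∈ Φ := by
    apply mem_of_core_inf p Φ v _ hv
    have e : v = y * (v⁻¹ * y)⁻¹ := by group
    rw [e, map_mul, map_inv]
    exact mul_mem hybar (inv_mem hzY)
  refine ⟨v⁻¹ * y, hz, ?_⟩
  have hv1 : QuotientGroup.mk' Φ v = 1 := (QuotientGroup.eq_one_iff v).mpr hvΦ
  rw [map_mul, map_inv, hv1, inv_one, one_mul]

end Cfsg.Agent.H40.Hc
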