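import Mathlib

/-!
# Commutator calculus for the lower central series (piece S3779-L1a)

`⁅γ i, γ j⁆ ≤ γ (i + j + 1)` and the Jacobi identity modulo `γ (i + j + k + 3)`
for `γ m = (⊤ : Subgroup G).lowerCentralSeries m`.
-/

namespace Cfsg.Agent.H40.HKK

open scoped commutatorElement

/-- The three subgroups lemma modulo a normal subgroup. -/
theorem three_subgroups_le {G : Type*} [Group G] (N : Subgroup G) [N.Normal]
    {A B C : Subgroup G} (h1 : ⁅⁅B, C⁆, A⁆ ≤ N) (h2 : ⁅⁅C, A⁆, B⁆ ≤ N) :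
    ⁅⁅A, B⁆, C⁆ ≤ N := by
  have e : ∀ X : Subgroup G, X ≤ N ↔ X.map (QuotientGroup.mk' N) = ⊥ := by
    intro X
    rw [Subgroup.map_eq_bot_iff, QuotientGroup.ker_mk']
  rw [e, Subgroup.map_commutator, Subgroup.map_commutator] at h1 h2 ⊢
  exact Subgroup.commutator_commutator_eq_bot_of_rotate h1 h2

theorem lcs_comm_le {G : Type*} [Group G] (i j : ℕ) :
    ⁅(⊤ : Subgroup G).lowerCentralSeries i, (⊤ : Subgroup G).lowerCentralSeries j⁆ ≤
      (⊤ : Subgroup G).lowerCentralSeries (i + j + 1) := by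
  induction j generalizing i with
  | zero => exact le_of_eq rfl
  | succ j ih =>
    have hanti : Antitone (⊤ : Subgroup G).lowerCentralSeries :=
      Subgroup.lowerCentralSeries_antitone ⊤
    change ⁅(⊤ : Subgroup G).lowerCentralSeries i,
      ⁅(⊤ : Subgroup G).lowerCentralSeries j, ⊤⁆⁆ ≤ _
    rw [Subgroup.commutator_comm]
    apply three_subgroups_le
    · rw [Subgroup.commutator_comm ⊤]
      have h1 := ih (i + 1)
      refine le_trans h1 (hanti ?_)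
      omega
    · have h1 := Subgroup.commutator_mono (ih i) (le_refl (⊤ : Subgroup G))
      exact h1

theorem lcs_comm_mem {G : Type*} [Group G] (i j : ℕ) (x y : G)
    (hx : x ∈ (⊤ : Subgroup G).lowerCentralSeries i)
    (hy : y ∈ (⊤ : Subgroup G).lowerCentralSeries j) :
    ⁅x, y⁆ ∈ (⊤ : Subgroup G).lowerCentralSeries (i + j + 1) :=
  lcs_comm_le i j (Subgroup.commutator_mem_commutator hx hy)

theorem lcs_jacobi {G : Type*} [Group G] (i j k : ℕ) (x y z : G)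
    (hx : x ∈ (⊤ : Subgroup G).lowerCentralSeries i)
    (hy : y ∈ (⊤ : Subgroup G).lowerCentralSeries j)
    (hz : z ∈ (⊤ : Subgroup G).lowerCentralSeries k) :
    ⁅⁅x, y⁆, z⁆ * ⁅⁅y, z⁆, x⁆ * ⁅⁅z, x⁆, y⁆ ∈
      (⊤ : Subgroup G).lowerCentralSeries (i + j + k + 3) := by
  have hanti : Antitone (⊤ : Subgroup G).lowerCentralSeries :=
    Subgroup.lowerCentralSeries_antitone ⊤
  have hN : ((⊤ : Subgroup G).lowerCentralSeries (i + j + k + 3)).Normal := inferInstance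
  have key : ∀ (a' b' c' : ℕ) (a b c : G), a ∈ (⊤ : Subgroup G).lowerCentralSeries a' →
      b ∈ (⊤ : Subgroup G).lowerCentralSeries b' → c ∈ (⊤ : Subgroup G).lowerCentralSeries c' →
      a' + b' + c' = i + j + k →
      (⁅⁅a, b⁆, c⁆)⁻¹ * ⁅⁅a, b⁆, b * c * b⁻¹⁆ ∈
        (⊤ : Subgroup G).lowerCentralSeries (i + j + k + 3) := by
    intro a' b' c' a b c ha hb hc hsum
    have hu : ⁅a, b⁆ ∈ (⊤ : Subgroup G).lowerCentralSeries (a' + b' + 1) :=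
      lcs_comm_mem a' b' a b ha hb
    have hv : ⁅b, c⁆ ∈ (⊤ : Subgroup G).lowerCentralSeries (b' + c' + 1) :=
      lcs_comm_mem b' c' b c hb hc
    have huc : ⁅⁅a, b⁆, c⁆ ∈ (⊤ : Subgroup G).lowerCentralSeries (a' + b' + 1 + c' + 1) :=
      lcs_comm_mem _ _ _ _ hu hc
    have h1 : ⁅⁅a, b⁆, ⁅b, c⁆⁆ ∈ (⊤ : Subgroup G).lowerCentralSeries (i + j + k + 3) :=
      hanti (by omega) (lcs_comm_mem _ _ _ _ hu hv)
    have h2 : ⁅⁅b, c⁆, ⁅⁅a, b⁆, c⁆⁆ ∈ (⊤ : Subgroup G).lowerCentralSeries (i + j + k + 3) :=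
      hanti (by omega) (lcs_comm_mem _ _ _ _ hv huc)
    have e1 : b * c * b⁻¹ = ⁅b, c⁆ * c := by rw [commutatorElement_def]; group
    have e2 : ⁅⁅a, b⁆, b * c * b⁻¹⁆ * (⁅⁅a, b⁆, c⁆)⁻¹ = ⁅⁅a, b⁆, ⁅b, c⁆⁆ * ⁅⁅b, c⁆, ⁅⁅a, b⁆, c⁆⁆ := by
      rw [e1, commutatorElement_mul_right_eq_mul_conj]
      generalize ⁅⁅a, b⁆, ⁅b, c⁆⁆ = p
      generalize ⁅⁅a, b⁆, c⁆ = w
      generalize ⁅b, c⁆ = v
      rw [commutatorElement_def]; group
    have h3 : ⁅⁅a, b⁆, b * c * b⁻¹⁆ * (⁅⁅a, b⁆, c⁆)⁻¹ ∈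
        (⊤ : Subgroup G).lowerCentralSeries (i + j + k + 3) := by
      rw [e2]; exact Subgroup.mul_mem _ h1 h2
    have h4 := hN.conj_mem _ h3 (⁅⁅a, b⁆, c⁆)⁻¹
    have e3 : (⁅⁅a, b⁆, c⁆)⁻¹ * (⁅⁅a, b⁆, b * c * b⁻¹⁆ * (⁅⁅a, b⁆, c⁆)⁻¹) * (⁅⁅a, b⁆, c⁆)⁻¹⁻¹
        = (⁅⁅a, b⁆, c⁆)⁻¹ * ⁅⁅a, b⁆, b * c * b⁻¹⁆ := by group
    rw [e3] at h4
    exact h4
  have k1 := key i j k x y z hx hy hz rfl
  have k2 := key j k i y z x hy hz hx (by omega)
  have k3 := key k i j z x y hz hx hy (by omega)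
  have q1 := QuotientGroup.eq.mpr k1
  have q2 := QuotientGroup.eq.mpr k2
  have q3 := QuotientGroup.eq.mpr k3
  have hw := commutatorElement_commutatorElement_conj_mul x y z
  rw [← QuotientGroup.eq_one_iff, QuotientGroup.mk_mul, QuotientGroup.mk_mul, q1, q2, q3,
    ← QuotientGroup.mk_mul, ← QuotientGroup.mk_mul, hw]
  rfl

end Cfsg.Agent.H40.HKK
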