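import Cfsg.Agent.H28.JkDefs
import Cfsg.Agent.S2946
import Cfsg.Agent.H35.SpLE

/-!
Sub-project JK (JZ-KILL, for S2951 / S2952), piece JK-TR: a `J(T)`-component `K` with
`W_K ⊓ C(K) = ⊥` conjugates every element of `W_K` into `Ω₁Z(J(T)) ⊓ W_K`.
-/

set_option autoImplicit false
open Cfsg

namespace Cfsg.Agent.H40.Jk

open Cfsg.Agent.H28.Jk

universe u

/-- A subgroup of order 4 does not contain five distinct elements. -/
theorem ktr_five {G : Type u} [Group G] (W : Subgroup G) (hW : Nat.card ↥W = 4) (a b c d e : G)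
    (ha : a ∈ W) (hb : b ∈ W) (hc : c ∈ W) (hd : d ∈ W) (he : e ∈ W)
    (hab : a ≠ b) (hac : a ≠ c) (had : a ≠ d) (hae : a ≠ e) (hbc : b ≠ c) (hbd : b ≠ d)
    (hbe : b ≠ e) (hcd : c ≠ d) (hce : c ≠ e) (hde : d ≠ e) : False := by
  classical
  have hfin : Finite ↥W := Nat.finite_of_card_ne_zero (by rw [hW]; norm_num)
  have h5 : ({a, b, c, d, e} : Finset G).card = 5 := by
    rw [Finset.card_insert_of_notMem, Finset.card_insert_of_notMem,
      Finset.card_insert_of_notMem, Finset.card_insert_of_notMem, Finset.card_singleton]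
    all_goals simp [*]
  have hsub : ((({a, b, c, d, e} : Finset G) : Set G)) ⊆ (W : Set G) := by
    intro x hx
    simp only [Finset.coe_insert, Finset.coe_singleton, Set.mem_insert_iff,
      Set.mem_singleton_iff] at hx
    rcases hx with rfl | rfl | rfl | rfl | rfl <;> assumption
  have hfin' : (W : Set G).Finite := Set.toFinite _
  have h1 := Set.ncard_le_ncard hsub hfin'
  rw [Set.ncard_coe_finset, h5] at h1
  have h2 : (W : Set G).ncard = 4 := by
    rw [← Nat.card_coe_set_eq]; exact hW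
  omega

/-- JK-TR. -/
theorem ktr : StKTr.{u} := by
  intro G _ _ hZN T K hT hT1 hK hWC w hw
  obtain ⟨hL, hNsol, hZ⟩ := hZN
  have h46 := (Cfsg.Agent.S2946.result hL hNsol hZ T hT hT1 K hK _ rfl).1
  have hW4 : Nat.card ↥(wOf K) = 4 := hK.2.2.2.2.1
  obtain ⟨t, htm, ht1⟩ :
      ∃ t ∈ omegaCenterOf (thompsonSubgroupOf 2 T) ⊓ wOf K, t ≠ 1 := by
    by_contra hcon
    push Not at hcon
    have hbot : omegaCenterOf (thompsonSubgroupOf 2 T) ⊓ wOf K = ⊥ := by
      rw [eq_bot_iff]; intro x hx; exact Subgroup.mem_bot.mpr (hcon x hx)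
    rw [hbot] at h46
    simp at h46
  by_cases hw1 : w = 1
  · refine ⟨1, K.one_mem, ?_, ?_⟩
    · rw [hw1]; simp
    · rw [hw1]; simp
  have hKN : K ≤ Subgroup.normalizer (wOf K : Set G) :=
    Subgroup.le_normalizer.trans (Cfsg.Agent.H35.Sp.le K)
  obtain ⟨y, hyK, hyodd, w₀, hw₀, hyw₀⟩ :
      ∃ y ∈ K, Odd (orderOf y) ∧ ∃ w₀ ∈ wOf K, y * w₀ * y⁻¹ ≠ w₀ := by
    by_contra hcon
    push Not at hcon
    have hcl : Subgroup.closure {g : G | g ∈ K ∧ Odd (orderOf g)} ≤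
        Subgroup.centralizer (wOf K : Set G) := by
      rw [Subgroup.closure_le]
      rintro y ⟨hyK, hyo⟩
      rw [SetLike.mem_coe, Subgroup.mem_centralizer_iff]
      intro h hh
      have h7 := hcon y hyK hyo h hh
      calc h * y = y * h * y⁻¹ * y := by rw [h7]
        _ = y * h := by group
    have hKc : K ≤ Subgroup.centralizer (wOf K : Set G) := (le_of_eq hK.1.symm).trans hcl
    have hWle : wOf K ≤ wOf K ⊓ Subgroup.centralizer (K : Set G) := by
      intro v hv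
      refine ⟨hv, ?_⟩
      show v ∈ Subgroup.centralizer (K : Set G)
      rw [Subgroup.mem_centralizer_iff]
      intro k hk
      exact ((Subgroup.mem_centralizer_iff.mp (hKc hk)) v hv).symm
    rw [hWC] at hWle
    have hb : wOf K = ⊥ := le_bot_iff.mp hWle
    rw [hb] at hW4
    simp at hW4
  have hyN := hKN hyK
  have hcW : ∀ u ∈ wOf K, y * u * y⁻¹ ∈ wOf K :=
    fun u hu => (Subgroup.mem_normalizer_iff.mp hyN u).mp hu
  have hinj : ∀ u v : G, y * u * y⁻¹ = y * v * y⁻¹ → u = v := by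
    intro u v h
    have h8 : y⁻¹ * (y * u * y⁻¹) * y = y⁻¹ * (y * v * y⁻¹) * y := by rw [h]
    calc u = y⁻¹ * (y * u * y⁻¹) * y := by group
      _ = y⁻¹ * (y * v * y⁻¹) * y := h8
      _ = v := by group
  have hodd : ∀ u : G, y * (y * u * y⁻¹) * y⁻¹ = u → y * u * y⁻¹ = u := by
    intro u h
    obtain ⟨j, hj⟩ := hyodd
    have hc2 : Commute (y * y) u := by
      show y * y * u = u * (y * y)
      calc y * y * u = y * (y * u * y⁻¹) * y⁻¹ * (y * y) := by group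
        _ = u * (y * y) := by rw [h]
    have hc3 : Commute ((y * y) ^ j) u := hc2.pow_left j
    have h1 : y * (y * y) ^ j = 1 := by
      have h9 : y * (y * y) ^ j = y ^ (2 * j + 1) := by
        rw [← pow_two, ← pow_mul, pow_succ']
      rw [h9, ← hj]; exact pow_orderOf_eq_one y
    have hy : y = ((y * y) ^ j)⁻¹ := eq_inv_of_mul_eq_one_left h1
    have hc4 : Commute ((y * y) ^ j)⁻¹ u := hc3.inv_left
    rw [← hy] at hc4
    calc y * u * y⁻¹ = u * y * y⁻¹ := by rw [hc4.eq]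
      _ = u := by group
  have hfpf : ∀ w₁ ∈ wOf K, w₁ ≠ 1 → y * w₁ * y⁻¹ ≠ w₁ := by
    intro w₁ hw₁ hw₁1 hfix
    have e1 : (1 : G) ≠ w₀ := by
      intro h; apply hyw₀; rw [← h]; group
    have e2 : (1 : G) ≠ y * w₀ * y⁻¹ := by
      intro h; apply e1
      have h10 : y * 1 * y⁻¹ = y * w₀ * y⁻¹ := by rw [← h]; group
      exact hinj _ _ h10
    have e3 : (1 : G) ≠ y * (y * w₀ * y⁻¹) * y⁻¹ := by
      intro h; apply e2
      have h10 : y * 1 * y⁻¹ = y * (y * w₀ * y⁻¹) * y⁻¹ := by rw [← h]; group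
      exact hinj _ _ h10
    have e4 : w₁ ≠ w₀ := by
      intro h; apply hyw₀; rw [← h]; exact hfix
    have e5 : w₁ ≠ y * w₀ * y⁻¹ := by
      intro h; apply e4
      apply hinj; rw [hfix]; exact h
    have e6 : w₁ ≠ y * (y * w₀ * y⁻¹) * y⁻¹ := by
      intro h; apply e5
      apply hinj; rw [hfix]; exact h
    have e7 : w₀ ≠ y * w₀ * y⁻¹ := fun h => hyw₀ h.symm
    have e8 : w₀ ≠ y * (y * w₀ * y⁻¹) * y⁻¹ := fun h => hyw₀ (hodd w₀ h.symm)
    have e9 : y * w₀ * y⁻¹ ≠ y * (y * w₀ * y⁻¹) * y⁻¹ := fun h => e7 (hinj _ _ h)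
    exact ktr_five (wOf K) hW4 1 w₁ w₀ (y * w₀ * y⁻¹) (y * (y * w₀ * y⁻¹) * y⁻¹)
      (Subgroup.one_mem _) hw₁ hw₀ (hcW _ hw₀) (hcW _ (hcW _ hw₀)) (Ne.symm hw₁1)
      e1 e2 e3 e4 e5 e6 e7 e8 e9
  have hcw := hcW w hw
  have hccw := hcW _ hcw
  have d1 : w ≠ y * w * y⁻¹ := fun h => hfpf w hw hw1 h.symm
  have hcw1 : y * w * y⁻¹ ≠ 1 := by
    intro h; apply hw1
    have h10 : y * w * y⁻¹ = y * 1 * y⁻¹ := by rw [h]; group
    exact hinj _ _ h10
  have d2 : y * w * y⁻¹ ≠ y * (y * w * y⁻¹) * y⁻¹ := fun h => hfpf _ hcw hcw1 h.symm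
  have d3 : w ≠ y * (y * w * y⁻¹) * y⁻¹ := fun h => d1 (hodd w h.symm).symm
  have hccw1 : y * (y * w * y⁻¹) * y⁻¹ ≠ 1 := by
    intro h; apply hcw1
    have h10 : y * (y * w * y⁻¹) * y⁻¹ = y * 1 * y⁻¹ := by rw [h]; group
    exact hinj _ _ h10
  have htW : t ∈ wOf K := htm.2
  have hcases : t = w ∨ t = y * w * y⁻¹ ∨ t = y * (y * w * y⁻¹) * y⁻¹ := by
    by_contra hcon
    push Not at hcon
    obtain ⟨c1, c2, c3⟩ := hcon
    exact ktr_five (wOf K) hW4 1 t w (y * w * y⁻¹) (y * (y * w * y⁻¹) * y⁻¹)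
      (Subgroup.one_mem _) htW hw hcw hccw (Ne.symm ht1) (Ne.symm hw1) (Ne.symm hcw1)
      (Ne.symm hccw1) c1 c2 c3 d1 d3 d2
  rcases hcases with h | h | h
  · have h11 : 1 * w * (1 : G)⁻¹ = t := by rw [h]; group
    refine ⟨1, K.one_mem, ?_, ?_⟩
    · rw [h11]; exact htm.1
    · rw [h11]; exact htm.2
  · refine ⟨y, hyK, ?_, ?_⟩
    · rw [← h]; exact htm.1
    · rw [← h]; exact htm.2
  · have h11 : y * y * w * (y * y)⁻¹ = t := by rw [h]; group
    refine ⟨y * y, K.mul_mem hyK hyK, ?_, ?_⟩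
    · rw [h11]; exact htm.1
    · rw [h11]; exact htm.2

example : StKTr.{u} := ktr

end Cfsg.Agent.H40.Jk
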