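import Mathlib
import Cfsg.Agent.H52.JxDefs
import Cfsg.Agent.H19.JyGoodA

/-!
# JX-PF (piece X2 of the JY-KILL2 sub-project of S2953, for helper52)

For a configuration `Base S M T K L` and `P = K ⊔ T`: `O₂(P) ≤ T`, `O₂(P) ≠ 1` and
`P ≤ N_G(O₂(P))`.
-/

set_option autoImplicit false
open Cfsg

namespace Cfsg.Agent.H40.Jx

open Cfsg.Agent.H64.Jz

universe u

/-- JX-PF, explicit form. -/
theorem pf_core {G : Type u} [Group G] [Finite G] (S : Sylow 2 G) (M T K L : Subgroup G)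
    (hB : Base S M T K L) :
    pCoreOf 2 (K ⊔ T) ≤ T ∧ pCoreOf 2 (K ⊔ T) ≠ ⊥ ∧
      K ⊔ T ≤ Subgroup.normalizer (pCoreOf 2 (K ⊔ T) : Set G) := by
  obtain ⟨hC, hsyl, -⟩ := Cfsg.Agent.H19.Jy.goodA S M T K L hB
  refine ⟨Cfsg.Agent.Helper55.J48.pCoreOf_le_of_sylowIn hsyl, ?_,
    Cfsg.Agent.Helper55.Uq.le_normalizer_pCoreOf' _⟩
  intro hbot
  have hTne : T ≠ ⊥ := hB.2.2.2.2.1.1.2.1
  apply hTne
  rw [eq_bot_iff]
  intro t _
  have h1 : t ∈ Subgroup.centralizer (pCoreOf 2 (K ⊔ T) : Set G) := by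
    rw [hbot, Subgroup.mem_centralizer_iff]
    intro h hh
    have h1 : h = 1 := Subgroup.mem_bot.mp hh
    subst h1
    simp
  have h2 := hC h1
  rw [hbot] at h2
  exact h2

/-- JX-PF (X2). -/
theorem pf : Cfsg.Agent.H52.Jx.StPF.{u} := by
  intro G _ _ S M T K L hB
  exact pf_core S M T K L hB

example : Cfsg.Agent.H52.Jx.StPF.{u} := pf

end Cfsg.Agent.H40.Jx
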