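import Mathlib
import Cfsg.Agent.H52.JxDefs
import Cfsg.Agent.H3.JyPair
import Cfsg.Agent.H7.JyNotin
import Cfsg.Agent.H51.Local

/-!
# JX-STAR (piece X1 of the JY-KILL2 sub-project of S2953, for helper52)

For a configuration `Base S M T K L` with `T ≠ S` there is no subgroup `1 ≠ F ≤ T` normalized by
`K ⊔ T` and by every `x ∈ N_S(T)`: `N_G(F)` has a nontrivial 2-core and contains `K ⊔ J(T)`, so
it lies in `L`; but some `x ∈ N_S(T)` is outside `L`.
-/

set_option autoImplicit false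
open Cfsg

namespace Cfsg.Agent.H40.Jx

open Cfsg.Agent.H64.Jz

universe u

/-- JX-STAR, explicit form. -/
theorem star_core {G : Type u} [Group G] [Finite G] (S : Sylow 2 G) (M T K L : Subgroup G)
    (hB : Base S M T K L) (hTS : T ≠ (S : Subgroup G)) (F : Subgroup G) (hF : F ≠ ⊥)
    (hFT : F ≤ T) (hPF : K ⊔ T ≤ Subgroup.normalizer (F : Set G))
    (hx : ∀ x ∈ (S : Subgroup G), x ∈ Subgroup.normalizer (T : Set G) →
      x ∈ Subgroup.normalizer (F : Set G)) : False := by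
  have hp2 : Fact (Nat.Prime 2) := ⟨Nat.prime_two⟩
  have hT2 : IsPGroup 2 ↥T := (S.isPGroup').to_le hB.2.2.2.2.2.1
  have hF2 : IsPGroup 2 ↥F := hT2.to_le hFT
  have hJ : thompsonSubgroupOf 2 T ≤ T := Cfsg.Agent.H14.thompsonSubgroupOf_le 2 T
  have hFcore : F ≤ pCoreOf 2 (Subgroup.normalizer (F : Set G)) :=
    Cfsg.Agent.H51.le_pCoreOf 2 Subgroup.le_normalizer le_rfl hF2
  have hcore : pCoreOf 2 (Subgroup.normalizer (F : Set G)) ≠ ⊥ :=
    fun h => hF (le_bot_iff.mp (h ▸ hFcore))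
  have hNL : Subgroup.normalizer (F : Set G) ≤ L :=
    Cfsg.Agent.H3.Jy.jyLeOfCore hB _ ((sup_le_sup_left hJ K).trans hPF) hcore
  obtain ⟨x, hxS, hxN, hxL⟩ := Cfsg.Agent.H7.JyNotin.notin S M T K L hB hTS
  exact hxL (hNL (hx x hxS hxN))

/-- JX-STAR (X1). -/
theorem star : Cfsg.Agent.H52.Jx.StStar.{u} := by
  intro G _ _ S M T K L hB hTS F hF hFT hPF hx
  exact star_core S M T K L hB hTS F hF hFT hPF hx

example : Cfsg.Agent.H52.Jx.StStar.{u} := star

end Cfsg.Agent.H40.Jx
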