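import Mathlib
import Cfsg.Agent.H64.JyDefs
import Cfsg.Agent.S2948
import Cfsg.Agent.S2949
import Cfsg.Agent.S2950
import Cfsg.Agent.H51.SyAsm
import Cfsg.Agent.H46.JzNSE
import Cfsg.Agent.H91.JzMaxS

/-!
# JY-SETUP2 (piece Y6 of S2953, for helper64): a configuration for the base `L`

`Base S M S K L` and `N_G(J(S)) ≤ L` give `T' K' L'` with `Base S L T' K' L'`
(the JZ-SETUP argument of helper90 without the hypothesis on the 2-locals over `J(S)`, and
without the conclusion `T' ≠ S`).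
-/

set_option autoImplicit false
open Cfsg

namespace Cfsg.Agent.H40.Jy

open Cfsg.Agent.H64.Jz

universe u

/-- JY-SETUP2, from JZ-NSE and JZ-MAXS. -/
theorem setup2_of (hNSE : StNSE.{u}) (hMax : StMaxS.{u})
    {G : Type u} [Group G] [Finite G] (S : Sylow 2 G) (M K L : Subgroup G)
    (hB : Base S M (S : Subgroup G) K L)
    (hNJL : Subgroup.normalizer (thompsonSubgroupOf 2 (S : Subgroup G) : Set G) ≤ L) :
    ∃ T' K' L' : Subgroup G, Base S L T' K' L' := by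
  have hB' := hB
  obtain ⟨hZN, hO, hM, hMJ, hT, -, hK, hLmax, hKL⟩ := hB'
  have hZN' := hZN
  obtain ⟨hc2, hsolv, hZ⟩ := hZN'
  have hJle : thompsonSubgroupOf 2 (S : Subgroup G) ≤ (S : Subgroup G) := Subgroup.map_subtype_le _
  -- `S` is Sylow in `L` (S2950 + uniqueness)
  obtain ⟨L₀, hL₀max, hKL₀, huniq, -, hSyl₀⟩ :=
    Cfsg.Agent.S2950.result hc2 hsolv hZ hO S M hM hMJ (S : Subgroup G) hT K hK
  have hLL₀ : L = L₀ := huniq L hLmax hKL
  have hSyl : IsSylowTwoIn (S : Subgroup G) L := by rw [hLL₀]; exact hSyl₀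
  have hL2 : IsTwoLocal L := hLmax.1
  -- `L ⊄ M`
  have hLM : ¬ L ≤ M := fun h => hK.2.1 ((le_sup_left.trans hKL).trans h)
  -- `L ∈ ℒ(S)` (S2948)
  have h48 := Cfsg.Agent.S2948.result hc2 hsolv hZ hO S M hM hMJ (S : Subgroup G) hT L hL2 hLM
    (S : Subgroup G) hSyl hJle
  have hLS : L ∈ jOvergroups (S : Subgroup G) := h48.2.2.1
  -- a maximal straddling `T'` for `L` inside `S`
  have hne : (straddlingTwoSubgroups L).Nonempty := hNSE hZN hO S L hL2 hNJL hLS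
  obtain ⟨T', hT', hT'S⟩ := hMax S L hSyl.1 hne
  -- `K'` and `L'`
  obtain ⟨K', hK'⟩ := Cfsg.Agent.S2949.result hc2 hsolv hZ hO S L hL2 hNJL T' hT'
  obtain ⟨L', hL'max, hK'L', -, -, -⟩ :=
    Cfsg.Agent.S2950.result hc2 hsolv hZ hO S L hL2 hNJL T' hT' K' hK'
  exact ⟨T', K', L', hZN, hO, hL2, hNJL, hT', hT'S, hK', hL'max, hK'L'⟩

/-- JY-SETUP2 (hypothesis-free): `Base S M S K L`, `N_G(J(S)) ≤ L` ⟹ `∃ T' K' L', Base S L T' K' L'`. -/
theorem setup2 : Cfsg.Agent.H64.Jy.StSetup2.{u} := by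
  intro G _ _ S M K L hB hNJL
  exact setup2_of Cfsg.Agent.H46.Jz.nse Cfsg.Agent.H91.Jz.maxS S M K L hB hNJL

example : Cfsg.Agent.H64.Jy.StSetup2.{u} := setup2

end Cfsg.Agent.H40.Jy
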