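import Mathlib
import Cfsg.Agent.H99.OrtDefs

/-!
helper40: S5981-COMB35 (team project of helper99): tuples of `r`-th roots of unity with
product 1, `r ∈ {3, 5}`, are symmetric under an involution of the indices.
-/

set_option autoImplicit false

namespace Cfsg.Agent.H40.Ort

open Cfsg.Agent.H99.Ort

universe u

/-- The involutions of `Fin 3`, as functions. -/
def invL3 : List (Fin 3 → Fin 3) :=
  [![0, 1, 2],
   ![0, 2, 1],
   ![1, 0, 2],
   ![2, 1, 0]]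

/-- The involutions of `Fin 5`, as functions. -/
def invL5 : List (Fin 5 → Fin 5) :=
  [![0, 1, 2, 3, 4],
   ![0, 1, 2, 4, 3],
   ![0, 1, 3, 2, 4],
   ![0, 1, 4, 3, 2],
   ![0, 2, 1, 3, 4],
   ![0, 2, 1, 4, 3],
   ![0, 3, 2, 1, 4],
   ![0, 3, 4, 1, 2],
   ![0, 4, 2, 3, 1],
   ![0, 4, 3, 2, 1],
   ![1, 0, 2, 3, 4],
   ![1, 0, 2, 4, 3],
   ![1, 0, 3, 2, 4],
   ![1, 0, 4, 3, 2],
   ![2, 1, 0, 3, 4],
   ![2, 1, 0, 4, 3],
   ![2, 3, 0, 1, 4],
   ![2, 4, 0, 3, 1],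
   ![3, 1, 2, 0, 4],
   ![3, 1, 4, 0, 2],
   ![3, 2, 1, 0, 4],
   ![3, 4, 2, 0, 1],
   ![4, 1, 2, 3, 0],
   ![4, 1, 3, 2, 0],
   ![4, 2, 1, 3, 0],
   ![4, 3, 2, 1, 0]]

theorem invL3_inv : ∀ p ∈ invL3, ∀ i : Fin 3, p (p i) = i := by decide

theorem invL5_inv : ∀ p ∈ invL5, ∀ i : Fin 5, p (p i) = i := by decide +kernel

theorem dec3 : ∀ a b c : Fin 3, (a.val + b.val + c.val) % 3 = 0 →
    ∃ p ∈ invL3, ∀ i : Fin 3, ((![a, b, c] i).val + (![a, b, c] (p i)).val) % 3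
      = ((![a, b, c] 0).val + (![a, b, c] (p 0)).val) % 3 := by
  decide +kernel

theorem dec5 : ∀ a b c d e : Fin 5, (a.val + b.val + c.val + d.val + e.val) % 5 = 0 →
    ∃ p ∈ invL5, ∀ i : Fin 5, ((![a, b, c, d, e] i).val + (![a, b, c, d, e] (p i)).val) % 5
      = ((![a, b, c, d, e] 0).val + (![a, b, c, d, e] (p 0)).val) % 5 := by
  decide +kernel

theorem core3 : ∀ e : Fin 3 → Fin 3, (∑ i, (e i : ℕ)) % 3 = 0 →
    ∃ p : Fin 3 → Fin 3, (∀ i, p (p i) = i) ∧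
      ∃ t : ℕ, ∀ i, ((e i : ℕ) + (e (p i) : ℕ)) % 3 = t := by
  intro e he
  rw [Fin.sum_univ_three] at he
  obtain ⟨p, hp, h⟩ := dec3 (e 0) (e 1) (e 2) he
  have hv : ![e 0, e 1, e 2] = e := by
    funext i
    fin_cases i <;> rfl
  rw [hv] at h
  exact ⟨p, invL3_inv p hp, _, h⟩

theorem core5 : ∀ e : Fin 5 → Fin 5, (∑ i, (e i : ℕ)) % 5 = 0 →
    ∃ p : Fin 5 → Fin 5, (∀ i, p (p i) = i) ∧
      ∃ t : ℕ, ∀ i, ((e i : ℕ) + (e (p i) : ℕ)) % 5 = t := by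
  intro e he
  rw [Fin.sum_univ_five] at he
  obtain ⟨p, hp, h⟩ := dec5 (e 0) (e 1) (e 2) (e 3) (e 4) he
  have hv : ![e 0, e 1, e 2, e 3, e 4] = e := by
    funext i
    fin_cases i <;> rfl
  rw [hv] at h
  exact ⟨p, invL5_inv p hp, _, h⟩

theorem comb_of_core {F : Type u} [Field F] (r : ℕ) (hr : r.Prime)
    (core : ∀ e : Fin r → Fin r, (∑ i, (e i : ℕ)) % r = 0 →
      ∃ p : Fin r → Fin r, (∀ i, p (p i) = i) ∧
        ∃ t : ℕ, ∀ i, ((e i : ℕ) + (e (p i) : ℕ)) % r = t)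
    (d : Fin r → F) (hd : ∀ i, d i ^ r = 1) (hprod : ∏ i, d i = 1) :
    ∃ (π : Equiv.Perm (Fin r)) (c : F), c ≠ 0 ∧ (∀ i, π (π i) = i) ∧ ∀ i, d i * d (π i) = c := by
  by_cases hall : ∀ i, d i = 1
  · refine ⟨1, 1, one_ne_zero, fun i => rfl, fun i => ?_⟩
    rw [hall, hall, mul_one]
  · push Not at hall
    obtain ⟨i₀, hi₀⟩ := hall
    haveI : Fact r.Prime := ⟨hr⟩
    haveI : NeZero r := ⟨hr.ne_zero⟩
    have hord : orderOf (d i₀) = r := orderOf_eq_prime (hd i₀) hi₀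
    have hprim : IsPrimitiveRoot (d i₀) r := by
      have h := IsPrimitiveRoot.orderOf (d i₀)
      rw [hord] at h
      exact h
    have hex : ∀ i, ∃ k : Fin r, d i = (d i₀) ^ (k : ℕ) := by
      intro i
      obtain ⟨k, hk, hk2⟩ := hprim.eq_pow_of_pow_eq_one (hd i)
      exact ⟨⟨k, hk⟩, hk2.symm⟩
    choose e he using hex
    have hsum : (∑ i, (e i : ℕ)) % r = 0 := by
      apply Nat.mod_eq_zero_of_dvd
      rw [← hprim.pow_eq_one_iff_dvd, ← Finset.prod_pow_eq_pow_sum, ← hprod]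
      exact Finset.prod_congr rfl fun i _ => (he i).symm
    obtain ⟨p, hp, t, ht⟩ := core e hsum
    have hζ0 : d i₀ ≠ 0 := by
      intro h0
      have h1 := hd i₀
      rw [h0, zero_pow hr.ne_zero] at h1
      exact zero_ne_one h1
    refine ⟨Function.Involutive.toPerm p hp, (d i₀) ^ t, pow_ne_zero _ hζ0, hp, fun i => ?_⟩
    show d i * d (p i) = d i₀ ^ t
    rw [he i, he (p i), ← pow_add, pow_eq_pow_mod _ (hd i₀), ht i]

theorem comb35 : StComb35.{u} := by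
  intro F _ r h35 d hd hprod
  rcases h35 with rfl | rfl
  · exact comb_of_core 3 (by norm_num) core3 d hd hprod
  · exact comb_of_core 5 (by norm_num) core5 d hd hprod

example : Cfsg.Agent.H99.Ort.StComb35.{u} := comb35

end Cfsg.Agent.H40.Ort

#print axioms Cfsg.Agent.H40.Ort.comb35
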