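import Mathlib
import Cfsg.Agent.H99.OrtDefs

/-!
helper40: multiplicities of a two-valued step function `Fin n → F` (for the S5981 pieces
WD3 and WDETA of helper99).
-/

set_option autoImplicit false

namespace Cfsg.Agent.H40.Ort

universe u

variable {F : Type u} [Field F]

/-- The function with value `x` on the first `k` indices and `y` elsewhere. -/
def stepFn (n k : ℕ) (x y : F) : Fin n → F := fun i => if (i : ℕ) < k then x else y

theorem stepFn_lt (n k : ℕ) (x y : F) (i : Fin n) (h : (i : ℕ) < k) : stepFn n k x y i = x := by
  unfold stepFn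
  rw [if_pos h]

theorem stepFn_ge (n k : ℕ) (x y : F) (i : Fin n) (h : ¬ (i : ℕ) < k) : stepFn n k x y i = y := by
  unfold stepFn
  rw [if_neg h]

theorem card_step_x (n k : ℕ) (hk : k ≤ n) (x y : F) (hxy : x ≠ y) :
    Nat.card {i : Fin n // stepFn n k x y i = x} = k := by
  classical
  rw [Nat.card_eq_fintype_card, Fintype.card_subtype]
  have h1 : (Finset.univ.filter fun i : Fin n => stepFn n k x y i = x)
      = Finset.univ.filter fun i : Fin n => (i : ℕ) < k := by
    ext i
    simp only [Finset.mem_filter, Finset.mem_univ, true_and]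
    constructor
    · intro h
      by_contra hi
      rw [stepFn_ge n k x y i hi] at h
      exact hxy h.symm
    · intro h
      exact stepFn_lt n k x y i h
  rw [h1, Fin.card_filter_val_lt]
  omega

theorem card_step_y (n k : ℕ) (hk : k ≤ n) (x y : F) (hxy : x ≠ y) :
    Nat.card {i : Fin n // stepFn n k x y i = y} = n - k := by
  classical
  rw [Nat.card_eq_fintype_card, Fintype.card_subtype]
  have h1 : (Finset.univ.filter fun i : Fin n => stepFn n k x y i = y)
      = Finset.univ.filter fun i : Fin n => ¬ (i : ℕ) < k := by
    ext i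
    simp only [Finset.mem_filter, Finset.mem_univ, true_and]
    constructor
    · intro h hi
      rw [stepFn_lt n k x y i hi] at h
      exact hxy h
    · intro h
      exact stepFn_ge n k x y i h
  have h2 := Finset.card_filter_add_card_filter_not (s := (Finset.univ : Finset (Fin n)))
    (fun i : Fin n => (i : ℕ) < k)
  rw [Fin.card_filter_val_lt, Finset.card_univ, Fintype.card_fin] at h2
  rw [h1]
  omega

theorem card_step_other (n k : ℕ) (x y ν : F) (hx : ν ≠ x) (hy : ν ≠ y) :
    Nat.card {i : Fin n // stepFn n k x y i = ν} = 0 := by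
  haveI : IsEmpty {i : Fin n // stepFn n k x y i = ν} := by
    refine ⟨fun i => ?_⟩
    have h := i.2
    by_cases hi : (i.1 : ℕ) < k
    · rw [stepFn_lt n k x y i.1 hi] at h
      exact hx h.symm
    · rw [stepFn_ge n k x y i.1 hi] at h
      exact hy h.symm
  exact Nat.card_of_isEmpty

theorem prod_step (n k : ℕ) (hk : k ≤ n) (x y : F) :
    ∏ i, stepFn n k x y i = x ^ k * y ^ (n - k) := by
  classical
  unfold stepFn
  rw [Finset.prod_ite, Finset.prod_const, Finset.prod_const]
  have h2 := Finset.card_filter_add_card_filter_not (s := (Finset.univ : Finset (Fin n)))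
    (fun i : Fin n => (i : ℕ) < k)
  rw [Fin.card_filter_val_lt, Finset.card_univ, Fintype.card_fin] at h2
  rw [Fin.card_filter_val_lt]
  have h3 : min n k = k := by omega
  have h4 : (Finset.univ.filter fun i : Fin n => ¬ (i : ℕ) < k).card = n - k := by omega
  rw [h3, h4]

end Cfsg.Agent.H40.Ort
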