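import Mathlib
import Cfsg.Agent.H99.OrtDefs
import Cfsg.Agent.H17.SymmBasis

/-!
helper40: S5981-NF (team project of helper99): normal form of a non-degenerate quadratic form
over a finite field of odd characteristic.
-/

set_option autoImplicit false

namespace Cfsg.Agent.H40.Ort

open Cfsg.Agent.H99.Ort

universe u

theorem nf : StNF.{u} := by
  intro F _ _ n hn h2 Q hQ
  -- a non-square
  have hchar : ringChar F ≠ 2 := by
    intro h
    apply h2
    have h1 : ((ringChar F : ℕ) : F) = 0 := ringChar.Nat.cast_ringChar
    rw [h] at h1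
    exact_mod_cast h1
  obtain ⟨α, hα⟩ := FiniteField.exists_nonsquare hchar
  have hα0 : α ≠ 0 := by
    rintro rfl
    exact hα ⟨0, by rw [mul_zero]⟩
  -- the polar form
  let B : LinearMap.BilinForm F (Fin n → F) :=
    LinearMap.mk₂ F (QuadraticMap.polar Q) hQ.polar_bilinear.add_left
      hQ.polar_bilinear.smul_left hQ.polar_bilinear.add_right hQ.polar_bilinear.smul_right
  have hBap : ∀ x y, B x y = QuadraticMap.polar Q x y := fun x y => rfl
  have hS : B.IsSymm := ⟨fun x y => by rw [hBap, hBap, QuadraticMap.polar_comm]⟩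
  have hN : B.Nondegenerate := by
    constructor
    · intro x hx
      by_contra hx0
      obtain ⟨-, y, hy⟩ := hQ.nondegenerate x hx0
      exact hy (hx y)
    · intro y hy
      by_contra hy0
      obtain ⟨⟨x, hx⟩, -⟩ := hQ.nondegenerate y hy0
      exact hx (hy x)
  have hfin : Module.finrank F (Fin n → F) = (n - 1) + 1 := by
    rw [Module.finrank_fintype_fun_eq_card, Fintype.card_fin]
    omega
  obtain ⟨b, hb1, hb2, hb3⟩ := Cfsg.Agent.H17.symm_basis_aux h2 α hα (n - 1) (Fin n → F) B hS hN hfin
  have hnn : n = (n - 1) + 1 := by omega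
  let σ : Fin n ≃ Fin ((n - 1) + 1) := finCongr hnn
  have hσ : ∀ j : Fin n, σ j = Fin.last (n - 1) ↔ (j : ℕ) + 1 = n := by
    intro j
    constructor
    · intro h
      have h1 := congrArg Fin.val h
      simp only [σ, finCongr_apply, Fin.val_cast, Fin.val_last] at h1
      omega
    · intro h
      apply Fin.ext
      simp only [σ, finCongr_apply, Fin.val_cast, Fin.val_last]
      omega
  let c : Module.Basis (Fin n) F (Fin n → F) := b.reindex σ.symm
  have hc : ∀ j, c j = b (σ j) := by
    intro j
    simp [c]
  set δ : F := B (b (Fin.last (n - 1))) (b (Fin.last (n - 1))) with hδ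
  have hδ0 : δ ≠ 0 := by
    rcases hb3 with h | h
    · rw [h]; exact one_ne_zero
    · rw [h]; exact hα0
  refine ⟨(Pi.basisFun F (Fin n)).toMatrix c, δ, ?_, hδ0, ?_⟩
  · haveI := Module.Basis.invertibleToMatrix (Pi.basisFun F (Fin n)) c
    exact (Matrix.isUnit_iff_isUnit_det _).mp (isUnit_of_invertible _)
  · intro v
    have hPv : ((Pi.basisFun F (Fin n)).toMatrix c).mulVec v = ∑ j, v j • c j := by
      funext i
      simp only [Matrix.mulVec, dotProduct, Module.Basis.toMatrix_apply, Pi.basisFun_repr,
        Finset.sum_apply, Pi.smul_apply, smul_eq_mul]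
      exact Finset.sum_congr rfl fun j _ => mul_comm _ _
    have hQ2 : ∀ w : Fin n → F, 2 * Q w = B w w := by
      intro w
      rw [hBap]
      unfold QuadraticMap.polar
      have h1 : w + w = (2 : F) • w := (two_smul F w).symm
      rw [h1, hQ.smul]
      ring
    rw [hQ2, hPv]
    simp only [map_sum, LinearMap.sum_apply, map_smul, LinearMap.smul_apply, smul_eq_mul]
    simp only [dotProduct, Matrix.mulVec_diagonal]
    refine Finset.sum_congr rfl fun j _ => ?_
    rw [Finset.sum_eq_single j]
    · rw [hc j]
      by_cases hj : (j : ℕ) + 1 = n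
      · have h3 : dgn n δ j = δ := by
          unfold dgn
          rw [if_pos hj]
        rw [h3, (hσ j).mpr hj, ← hδ]
        ring
      · have h3 : dgn n δ j = 1 := by
          unfold dgn
          rw [if_neg hj]
        rw [h3, hb2 (σ j) (fun h => hj ((hσ j).mp h))]
        ring
    · intro k _ hk
      rw [hc j, hc k, hb1 (σ k) (σ j) (fun h => hk (σ.injective h))]
      ring
    · intro h
      exact absurd (Finset.mem_univ j) h

example : Cfsg.Agent.H99.Ort.StNF.{u} := nf

end Cfsg.Agent.H40.Ort

#print axioms Cfsg.Agent.H40.Ort.nf
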