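import Mathlib
import Cfsg.Agent.H99.OrtDefs
import Cfsg.Agent.H40.OrtMult

/-!
helper40: S5981-WD3 (team project of helper99): the diagonal `(ω, ω, ω, 1, …, 1)`.
-/

set_option autoImplicit false

namespace Cfsg.Agent.H40.Ort

open Cfsg.Agent.H99.Ort

universe u

theorem wd3 : StWD3.{u} := by
  intro F _ n hn hn6 ω hω hω1
  have hω0 : ω ≠ 0 := by
    rintro rfl
    simp at hω
  refine ⟨stepFn n 3 ω 1, ?_, ?_, ?_, ?_⟩
  · rw [prod_step n 3 (by omega), hω, one_pow, one_mul]
  · intro i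
    by_cases hi : (i : ℕ) < 3
    · rw [stepFn_lt n 3 ω 1 i hi, hω]
    · rw [stepFn_ge n 3 ω 1 i hi, one_pow]
  · refine ⟨⟨0, by omega⟩, ⟨3, by omega⟩, ?_⟩
    rw [stepFn_lt n 3 ω 1 _ (by simp), stepFn_ge n 3 ω 1 _ (by simp)]
    exact hω1
  · rintro ⟨c, hc, h⟩
    have hx := card_step_x n 3 (by omega) ω 1 hω1
    have hy := card_step_y n 3 (by omega) ω 1 hω1
    have h1 := h ω hω0
    rw [hx] at h1
    have hcω : c * ω⁻¹ = ω := by
      by_contra hne
      by_cases h2 : c * ω⁻¹ = 1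
      · rw [h2, hy] at h1
        omega
      · rw [card_step_other n 3 ω 1 _ hne h2] at h1
        omega
    have hc2 : c = ω * ω := by
      have h7 : c * ω⁻¹ * ω = ω * ω := by rw [hcω]
      rw [mul_assoc, inv_mul_cancel₀ hω0, mul_one] at h7
      exact h7
    have h3 := h 1 one_ne_zero
    rw [hy, inv_one, mul_one, hc2] at h3
    have h4 : ω * ω ≠ ω := by
      intro h5
      apply hω1
      have h6 : ω * ω = ω * 1 := by rw [h5, mul_one]
      exact mul_left_cancel₀ hω0 h6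
    have h5 : ω * ω ≠ 1 := by
      intro h5
      apply hω1
      have h6 : ω ^ 3 = ω * ω * ω := by ring
      rw [h6, h5, one_mul] at hω
      exact hω
    rw [card_step_other n 3 ω 1 _ h4 h5] at h3
    omega

example : Cfsg.Agent.H99.Ort.StWD3.{u} := wd3

end Cfsg.Agent.H40.Ort

#print axioms Cfsg.Agent.H40.Ort.wd3
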