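import Mathlib
import Cfsg.Agent.H99.OrtDefs
import Cfsg.Agent.H40.OrtMult

/-!
helper40: S5981-WDETA (team project of helper99): the diagonal `η⁻¹ (η^r, 1, …, 1)` in
dimension `r`.
-/

set_option autoImplicit false

namespace Cfsg.Agent.H40.Ort

open Cfsg.Agent.H99.Ort

universe u

theorem wdEta : StWDeta.{u} := by
  intro F _ r hr hr2 η hη hη1
  have hr3 : 3 ≤ r := by
    have := hr.two_le
    omega
  have hη0 : η ≠ 0 := by
    rintro rfl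
    rw [zero_pow (by positivity)] at hη
    exact zero_ne_one hη
  have hζr : (η ^ r) ^ r = 1 := by
    rw [← pow_mul, ← pow_two]
    exact hη
  have hxy : η⁻¹ * η ^ r ≠ η⁻¹ := by
    intro h
    apply hη1
    have h1 : η⁻¹ * η ^ r = η⁻¹ * 1 := by rw [h, mul_one]
    exact mul_left_cancel₀ (inv_ne_zero hη0) h1
  have hx0 : η⁻¹ * η ^ r ≠ 0 := mul_ne_zero (inv_ne_zero hη0) (pow_ne_zero _ hη0)
  have hy0 : η⁻¹ ≠ 0 := inv_ne_zero hη0
  refine ⟨stepFn r 1 (η⁻¹ * η ^ r) η⁻¹, η⁻¹ ^ r, ?_, ?_, ?_, ?_⟩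
  · rw [prod_step r 1 (by omega), pow_one, mul_comm (η⁻¹) (η ^ r), mul_assoc,
      ← pow_succ', Nat.sub_add_cancel (by omega), inv_pow, mul_inv_cancel₀ (pow_ne_zero _ hη0)]
  · intro i
    by_cases hi : (i : ℕ) < 1
    · rw [stepFn_lt r 1 _ _ i hi, mul_pow, hζr, mul_one]
    · rw [stepFn_ge r 1 _ _ i hi]
  · refine ⟨⟨0, by omega⟩, ⟨1, by omega⟩, ?_⟩
    rw [stepFn_lt r 1 _ _ _ (by simp), stepFn_ge r 1 _ _ _ (by simp)]
    exact hxy
  · rintro ⟨c, hc, h⟩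
    have hx := card_step_x r 1 (by omega) (η⁻¹ * η ^ r) η⁻¹ hxy
    have hy := card_step_y r 1 (by omega) (η⁻¹ * η ^ r) η⁻¹ hxy
    have h1 := h (η⁻¹ * η ^ r) hx0
    rw [hx] at h1
    have hcx : c * (η⁻¹ * η ^ r)⁻¹ = η⁻¹ * η ^ r := by
      by_contra hne
      by_cases h2 : c * (η⁻¹ * η ^ r)⁻¹ = η⁻¹
      · rw [h2, hy] at h1
        omega
      · rw [card_step_other r 1 _ _ _ hne h2] at h1
        omega
    have h3 := h η⁻¹ hy0
    rw [hy] at h3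
    have hcy : c * (η⁻¹)⁻¹ = η⁻¹ := by
      by_contra hne
      by_cases h2 : c * (η⁻¹)⁻¹ = η⁻¹ * η ^ r
      · rw [h2, hx] at h3
        omega
      · rw [card_step_other r 1 _ _ _ h2 hne] at h3
        omega
    have hc1 : c = (η⁻¹ * η ^ r) * (η⁻¹ * η ^ r) := by
      have h7 : c * (η⁻¹ * η ^ r)⁻¹ * (η⁻¹ * η ^ r) = (η⁻¹ * η ^ r) * (η⁻¹ * η ^ r) := by
        rw [hcx]
      rw [mul_assoc, inv_mul_cancel₀ hx0, mul_one] at h7
      exact h7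
    have hc2 : c = η⁻¹ * η⁻¹ := by
      have h7 : c * (η⁻¹)⁻¹ * η⁻¹ = η⁻¹ * η⁻¹ := by
        rw [hcy]
      rw [mul_assoc, inv_mul_cancel₀ hy0, mul_one] at h7
      exact h7
    have hζ2 : η ^ r * η ^ r = 1 := by
      have h8 : (η⁻¹ * η⁻¹) * (η ^ r * η ^ r) = (η⁻¹ * η⁻¹) * 1 := by
        calc (η⁻¹ * η⁻¹) * (η ^ r * η ^ r) = (η⁻¹ * η ^ r) * (η⁻¹ * η ^ r) := by ring
          _ = c := hc1.symm
          _ = η⁻¹ * η⁻¹ := hc2
          _ = (η⁻¹ * η⁻¹) * 1 := (mul_one _).symm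
      exact mul_left_cancel₀ (mul_ne_zero hy0 hy0) h8
    obtain ⟨m, hm⟩ := hr.odd_of_ne_two hr2
    apply hη1
    have h9 : (η ^ r) ^ r = (η ^ r * η ^ r) ^ m * η ^ r := by
      conv_lhs => rw [show (η ^ r) ^ r = (η ^ r) ^ (2 * m + 1) by rw [← hm]]
      rw [pow_succ, pow_mul, pow_two]
    rw [hζr, hζ2, one_pow, one_mul] at h9
    exact h9.symm

example : Cfsg.Agent.H99.Ort.StWDeta.{u} := wdEta

end Cfsg.Agent.H40.Ort

#print axioms Cfsg.Agent.H40.Ort.wdEta
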