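import Mathlib
import Cfsg.Agent.H26.P2Defs

/-! S4705 piece P2-SPLIT (helper26's project): splitting off the centre,
`G ≃* SL₂(F) × Z(G)`, from the determinant, transfer and Sylow pieces. -/

set_option autoImplicit false

universe u

namespace Cfsg.Agent.H40.P2

open Cfsg Cfsg.Agent.H26.P2

theorem split_sl2_perfect (F : Type) [Field F] [Fintype F] (h4 : 4 ≤ Fintype.card F) :
    commutator (Matrix.SpecialLinearGroup (Fin 2) F) = ⊤ := by
  classical
  obtain ⟨a, ha, hasq⟩ : ∃ a : F, a ≠ 0 ∧ a ^ 2 ≠ 1 := by
    by_contra hcon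
    push Not at hcon
    have hsub : (Finset.univ : Finset F) ⊆ {0, 1, -1} := by
      intro x _
      by_cases hx : x = 0
      · simp [hx]
      · have h1 := hcon x hx
        have h2 : (x - 1) * (x + 1) = 0 := by linear_combination h1
        rcases mul_eq_zero.mp h2 with h3 | h3
        · have h4 : x = 1 := by linear_combination h3
          simp [h4]
        · have h4 : x = -1 := by linear_combination h3
          simp [h4]
    have h5 := Finset.card_le_card hsub
    have h3 : ({0, 1, -1} : Finset F).card ≤ 3 := Finset.card_le_three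
    rw [Finset.card_univ] at h5
    omega
  exact Matrix.SL2.commutator_eq_top ha hasq

theorem split (hD : StDet.{u}) (hT : StTrf.{u}) (hR : StSylR.{u}) : StSplit.{u} := by
  intro G _ _ ζ hirr hfaith F _ _ hchar e hdeg h4
  classical
  -- the commutator subgroup meets the centre trivially
  have hDZ : ∀ z : G, z ∈ Subgroup.center G → z ∈ commutator G → z = 1 := by
    intro z hzZ hzD
    by_contra hz1
    have hn1 : orderOf z ≠ 1 := fun h => hz1 (orderOf_eq_one_iff.mp h)
    have hpos : 0 < orderOf z := orderOf_pos z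
    obtain ⟨r, hrdef⟩ : ∃ r : ℕ, r = (orderOf z).minFac := ⟨_, rfl⟩
    have hrp : r.Prime := by rw [hrdef]; exact Nat.minFac_prime hn1
    haveI : Fact r.Prime := ⟨hrp⟩
    have hrdvd : r ∣ orderOf z := by rw [hrdef]; exact Nat.minFac_dvd _
    obtain ⟨w, hw⟩ : ∃ w : G, w = z ^ (orderOf z / r) := ⟨_, rfl⟩
    have hwZ : w ∈ Subgroup.center G := by rw [hw]; exact Subgroup.pow_mem _ hzZ _
    have hwD : w ∈ commutator G := by rw [hw]; exact Subgroup.pow_mem _ hzD _
    have hword : orderOf w = r := by
      have hne : orderOf z / r ≠ 0 := by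
        have := Nat.div_pos (Nat.le_of_dvd hpos hrdvd) hrp.pos
        omega
      rw [hw, orderOf_pow_of_dvd hne (Nat.div_dvd_of_dvd hrdvd)]
      exact Nat.div_div_self hrdvd hpos.ne'
    have h1 := hD ζ hirr hfaith w hwZ hwD
    have hrdeg : r ∣ charDegree ζ := by
      rw [← hword]
      exact orderOf_dvd_of_pow_eq_one h1
    have heven : Fintype.card F % 2 = 0 :=
      FiniteField.even_card_of_char_two (ringChar.eq F 2)
    have hr2 : r ≠ 2 := by
      intro h2
      rw [h2] at hrdeg
      omega
    have hrq : r ∣ Fintype.card F - 1 := by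
      rw [← hdeg]
      simpa using hrdeg
    obtain ⟨R⟩ : Nonempty (Sylow r G) := inferInstance
    have hab := hR F e r hr2 hrq R
    have hw1 := hT r R hab w hwZ hwD (by rw [← hword]; exact pow_orderOf_eq_one w)
    rw [hw1, orderOf_one] at hword
    exact hrp.one_lt.ne' hword.symm
  -- the quotient is perfect
  have hperf : commutator (G ⧸ Subgroup.center G) = ⊤ := by
    have hS := split_sl2_perfect F h4
    rw [commutator_def] at hS ⊢
    have hm := Subgroup.map_commutator (⊤ : Subgroup (Matrix.SpecialLinearGroup (Fin 2) F)) ⊤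
      e.symm.toMonoidHom
    rw [hS, Subgroup.map_top_of_surjective _ e.symm.surjective] at hm
    exact hm.symm
  have hmap : Subgroup.map (QuotientGroup.mk' (Subgroup.center G)) (commutator G) = ⊤ := by
    rw [← hperf, commutator_def, commutator_def, Subgroup.map_commutator,
      Subgroup.map_top_of_surjective _ (QuotientGroup.mk'_surjective _)]
  have hex : ∀ g : G, ∃ d ∈ commutator G, d⁻¹ * g ∈ Subgroup.center G := by
    intro g
    have hg : (QuotientGroup.mk' (Subgroup.center G)) g ∈
        Subgroup.map (QuotientGroup.mk' (Subgroup.center G)) (commutator G) := by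
      rw [hmap]
      trivial
    obtain ⟨d, hd, hdg⟩ := hg
    exact ⟨d, hd, QuotientGroup.eq.mp hdg⟩
  -- D ≃ G / Z
  have hφ1 : Function.Bijective
      ((QuotientGroup.mk' (Subgroup.center G)).comp (commutator G).subtype) := by
    constructor
    · rw [injective_iff_map_eq_one]
      intro d hd
      have hdZ : (d : G) ∈ Subgroup.center G := (QuotientGroup.eq_one_iff _).mp hd
      exact Subtype.ext (hDZ _ hdZ d.2)
    · intro q
      obtain ⟨g, rfl⟩ := QuotientGroup.mk_surjective q
      obtain ⟨d, hd, hdg⟩ := hex g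
      exact ⟨⟨d, hd⟩, QuotientGroup.eq.mpr hdg⟩
  -- D × Z ≃ G
  have hcomm : ∀ (m : ↥(commutator G)) (n : ↥(Subgroup.center G)),
      Commute ((commutator G).subtype m) ((Subgroup.center G).subtype n) := by
    intro m n
    exact (Subgroup.mem_center_iff.mp n.2 (m : G))
  have hφ2 : Function.Bijective
      (MonoidHom.noncommCoprod (commutator G).subtype (Subgroup.center G).subtype hcomm) := by
    constructor
    · rw [injective_iff_map_eq_one]
      rintro ⟨d, z⟩ hdz
      rw [MonoidHom.noncommCoprod_apply] at hdz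
      have hdz' : (d : G) * (z : G) = 1 := hdz
      have hdZ : (d : G) ∈ Subgroup.center G := by
        have : (d : G) = (z : G)⁻¹ := eq_inv_of_mul_eq_one_left hdz'
        rw [this]
        exact Subgroup.inv_mem _ z.2
      have hd1 : (d : G) = 1 := hDZ _ hdZ d.2
      have hz1 : (z : G) = 1 := by
        rw [hd1, one_mul] at hdz'
        exact hdz'
      exact Prod.ext (Subtype.ext hd1) (Subtype.ext hz1)
    · intro g
      obtain ⟨d, hd, hdg⟩ := hex g
      refine ⟨(⟨d, hd⟩, ⟨d⁻¹ * g, hdg⟩), ?_⟩
      rw [MonoidHom.noncommCoprod_apply]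
      show d * (d⁻¹ * g) = g
      group
  exact ⟨(MulEquiv.ofBijective _ hφ2).symm.trans
    (MulEquiv.prodCongr ((MulEquiv.ofBijective _ hφ1).trans e) (MulEquiv.refl _))⟩

example (hD : StDet.{u}) (hT : StTrf.{u}) (hR : StSylR.{u}) : StSplit.{u} := split hD hT hR

end Cfsg.Agent.H40.P2
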