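import Mathlib
import Cfsg.Agent.H26.P2Defs
import Cfsg.Agent.H82.Irr
import Cfsg.Agent.H82.Extra

/-! S4705 piece P2-SUM (helper26's project): the singular sum of `Λ²χ · conj ξ_ν`,
a root-of-unity computation. -/

set_option autoImplicit false

universe u

namespace Cfsg.Agent.H40.P2

open Cfsg Cfsg.Agent.H26.P2
open scoped ComplexConjugate

/-- the central scalar of `χ` at a central element: multiplicative, of absolute value one, and
`c ^ s = c ^ 2`. -/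
theorem sum_central {G : Type u} [Group G] [Finite G] (p : ℕ) [Fact p.Prime] (P : Sylow p G)
    (χ : G → ℂ) (μ : ↥(P : Subgroup G) →* ℂˣ) (s : ℕ) (h : Hyp p P χ μ s) (z : G)
    (hz : z ∈ Subgroup.center G) :
    ∃ c : ℂ, (∀ (k : ℕ) (g : G), χ (z ^ k * g) = c ^ k * χ g) ∧ c * conj c = 1 ∧
      c ^ s = c ^ 2 := by
  obtain ⟨c, hc1, hc2, -⟩ := Cfsg.Agent.H82.irr_central_scalar ⟨χ, h.irr⟩ z
    (fun g => Subgroup.mem_center_iff.mp hz g)
  have hc1' : ∀ g : G, χ (z * g) = c * χ g := hc1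
  have hχ1 : χ 1 ≠ 0 := by
    have h1 : χ 1 = (charDegree χ : ℂ) := Cfsg.Agent.H82.irr_one_eq_charDegree ⟨χ, h.irr⟩
    have h2 : 0 < charDegree χ := Cfsg.Agent.H82.charDegree_pos ⟨χ, h.irr⟩
    rw [h1]
    exact_mod_cast h2.ne'
  have hpow : ∀ (k : ℕ) (g : G), χ (z ^ k * g) = c ^ k * χ g := by
    intro k
    induction k with
    | zero => intro g; simp
    | succ k ih =>
      intro g
      rw [pow_succ', mul_assoc, hc1', ih, pow_succ']
      ring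
  have hpow1 : ∀ k : ℕ, χ (z ^ k) = c ^ k * χ 1 := by
    intro k
    have := hpow k 1
    rwa [mul_one] at this
  have hc0 : c ≠ 0 := by
    intro h0
    have := hc2 (orderOf z) (pow_orderOf_eq_one z)
    rw [h0, zero_pow (orderOf_pos z).ne'] at this
    exact zero_ne_one this
  have hnorm : c * conj c = 1 := by
    have h3 : c ^ orderOf z = 1 := hc2 _ (pow_orderOf_eq_one z)
    have h4 : ‖c‖ = 1 := by
      have h5 : ‖c‖ ^ orderOf z = 1 := by rw [← norm_pow, h3, norm_one]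
      exact (pow_eq_one_iff_of_nonneg (norm_nonneg c) (orderOf_pos z).ne').mp h5
    rw [Complex.mul_conj, Complex.normSq_eq_norm_sq, h4]
    simp
  refine ⟨c, hpow, hnorm, ?_⟩
  obtain ⟨a, m, hm, hn⟩ := Nat.exists_eq_two_pow_mul_odd (orderOf_pos z).ne'
  have hcm : c ^ m = 1 := by
    have h2el : (z ^ m) ^ (2 ^ a) = 1 := by
      rw [← pow_mul, mul_comm, ← hn, pow_orderOf_eq_one]
    have h3 := h.two (z ^ m) (Subgroup.pow_mem _ hz m) a h2el
    rw [hpow1] at h3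
    exact mul_right_cancel₀ hχ1 (by rw [h3, one_mul])
  have hw : (z ^ (2 ^ a)) ^ s = (z ^ (2 ^ a)) ^ 2 := by
    apply h.sOdd
    · have hdvd : orderOf (z ^ (2 ^ a)) ∣ m := by
        apply orderOf_dvd_of_pow_eq_one
        rw [← pow_mul, ← hn, pow_orderOf_eq_one]
      exact Odd.of_dvd_nat hm hdvd
    · exact h.zreg _ (Subgroup.pow_mem _ hz _)
  have hcs : c ^ (2 ^ a * s) = c ^ (2 ^ a * 2) := by
    have e1 := hpow1 (2 ^ a * s)
    have e2 := hpow1 (2 ^ a * 2)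
    rw [pow_mul, hw, ← pow_mul] at e1
    rw [e2] at e1
    exact (mul_right_cancel₀ hχ1 e1).symm
  obtain ⟨u, hu⟩ : ∃ u : ℂˣ, (u : ℂ) = c := ⟨Units.mk0 c hc0, rfl⟩
  have hum : u ^ m = 1 := by
    apply Units.ext
    rw [Units.val_pow_eq_pow_val, hu, hcm]
    rfl
  have hus : u ^ (2 ^ a * s) = u ^ (2 ^ a * 2) := by
    apply Units.ext
    rw [Units.val_pow_eq_pow_val, Units.val_pow_eq_pow_val, hu, hcs]
  have hmod : 2 ^ a * s ≡ 2 ^ a * 2 [MOD orderOf u] := pow_eq_pow_iff_modEq.mp hus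
  have hodvd : orderOf u ∣ m := orderOf_dvd_of_pow_eq_one hum
  have hcop : Nat.gcd (orderOf u) (2 ^ a) = 1 := by
    have h1 : Nat.Coprime m (2 ^ a) := Nat.Coprime.pow_right a (Nat.coprime_two_right.mpr hm)
    exact Nat.Coprime.coprime_dvd_left hodvd h1
  have hmod2 : s ≡ 2 [MOD orderOf u] := Nat.ModEq.cancel_left_of_coprime hcop hmod
  have hfin : u ^ s = u ^ 2 := pow_eq_pow_iff_modEq.mpr hmod2
  have hfin' := congrArg Units.val hfin
  rw [Units.val_pow_eq_pow_val, Units.val_pow_eq_pow_val, hu] at hfin'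
  exact hfin'

/-- the sum of the `k`-th power of a nontrivial character of a group of prime order `p` over
the nonidentity elements. -/
theorem sum_mu_pow {Q : Type u} [Group Q] [Fintype Q] [DecidableEq Q] (p : ℕ) [Fact p.Prime]
    (hQ : Nat.card Q = p) (μ : Q →* ℂˣ) (hμ : μ ≠ 1) (k : ℤ) :
    ∑ x ∈ Finset.univ.filter (fun x : Q => x ≠ 1), (((μ x) ^ k : ℂˣ) : ℂ) =
      (if (p : ℤ) ∣ k then (p : ℂ) else 0) - 1 := by
  classical
  have hp : p.Prime := Fact.out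
  have hxp : ∀ x : Q, μ x ^ p = 1 := by
    intro x
    rw [← map_pow, ← hQ, pow_card_eq_one', map_one]
  obtain ⟨f, hf⟩ : ∃ f : Q →* ℂ, ∀ x : Q, f x = (((μ x) ^ k : ℂˣ) : ℂ) :=
    ⟨(Units.coeHom ℂ).comp ((zpowGroupHom k).comp μ), fun x => rfl⟩
  have hf1 : f = 1 ↔ (p : ℤ) ∣ k := by
    constructor
    · intro hf1
      obtain ⟨x0, hx0⟩ : ∃ x0 : Q, μ x0 ≠ 1 := by
        by_contra hcon
        push Not at hcon
        exact hμ (MonoidHom.ext hcon)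
      have hord : orderOf (μ x0) = p := by
        have hd : orderOf (μ x0) ∣ p := orderOf_dvd_of_pow_eq_one (hxp x0)
        rcases (Nat.dvd_prime hp).mp hd with h1 | h1
        · exact absurd (orderOf_eq_one_iff.mp h1) hx0
        · exact h1
      have h2 : f x0 = 1 := by rw [hf1]; rfl
      rw [hf] at h2
      have h3 : (μ x0) ^ k = 1 := Units.ext h2
      rw [← hord]
      exact orderOf_dvd_iff_zpow_eq_one.mpr h3
    · rintro ⟨t, rfl⟩
      apply MonoidHom.ext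
      intro x
      rw [hf, zpow_mul, zpow_natCast, hxp, one_zpow]
      rfl
  rw [Finset.filter_ne', Finset.sum_erase_eq_sub (Finset.mem_univ _)]
  have hsum : ∑ x : Q, (((μ x) ^ k : ℂˣ) : ℂ) = if (p : ℤ) ∣ k then (p : ℂ) else 0 := by
    have h1 := sum_hom_units f
    have h2 : ∑ x : Q, f x = ∑ x : Q, (((μ x) ^ k : ℂˣ) : ℂ) :=
      Finset.sum_congr rfl (fun x _ => hf x)
    rw [← h2, h1]
    by_cases hk : (p : ℤ) ∣ k
    · rw [if_pos (hf1.mpr hk), if_pos hk, ← Nat.card_eq_fintype_card, hQ]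
    · rw [if_neg (fun hh => hk (hf1.mp hh)), if_neg hk]
      simp
  rw [hsum, map_one, one_zpow]
  rfl

theorem sum : StSum.{u} := by
  intro G _ _ p _ P χ μ s h ν hν1 hν2
  classical
  haveI : Fintype ↥(P : Subgroup G) := Fintype.ofFinite _
  haveI : Fintype ↥(Subgroup.center G) := Fintype.ofFinite _
  have hp : p.Prime := Fact.out
  have hp5 := h.hp5
  have hxp : ∀ x : ↥(P : Subgroup G), μ x ^ p = 1 := by
    intro x
    have hx : x ^ p = 1 := by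
      have := pow_card_eq_one' (G := ↥(P : Subgroup G)) (x := x)
      rwa [h.cardP] at this
    rw [← map_pow, hx, map_one]
  have hnorm : ∀ x : ↥(P : Subgroup G), ‖((μ x : ℂˣ) : ℂ)‖ = 1 := by
    intro x
    have h5 : ‖((μ x : ℂˣ) : ℂ)‖ ^ p = 1 := by
      rw [← norm_pow, ← Units.val_pow_eq_pow_val, hxp, Units.val_one, norm_one]
    exact (pow_eq_one_iff_of_nonneg (norm_nonneg _) hp.pos.ne').mp h5
  have hval : ∀ y : ↥(P : Subgroup G), y ≠ 1 →
      χ (y : G) = -(((μ y : ℂˣ) : ℂ) + ((μ y : ℂˣ) : ℂ)⁻¹) := by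
    intro y hy
    rw [h.val y hy, Units.val_inv_eq_inv_val]
  have hord : ∀ x : ↥(P : Subgroup G), x ≠ 1 → orderOf x = p := by
    intro x hx
    have hd : orderOf x ∣ p := by
      have := orderOf_dvd_natCard x
      rwa [h.cardP] at this
    rcases (Nat.dvd_prime hp).mp hd with h1 | h1
    · exact absurd (orderOf_eq_one_iff.mp h1) hx
    · exact h1
  have hxx : ∀ x : ↥(P : Subgroup G), x ≠ 1 → x * x ≠ 1 := by
    intro x hx h1
    have h2 : orderOf x ∣ 2 := orderOf_dvd_of_pow_eq_one (by rw [pow_two]; exact h1)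
    rw [hord x hx] at h2
    have := Nat.le_of_dvd (by norm_num) h2
    omega
  have hxν : ∀ x : ↥(P : Subgroup G), x ≠ 1 → x ^ ν ≠ 1 := by
    intro x hx h1
    have h2 : orderOf x ∣ ν := orderOf_dvd_of_pow_eq_one h1
    rw [hord x hx] at h2
    have := Nat.le_of_dvd (by omega) h2
    omega
  -- the value of the summand
  obtain ⟨T, hT⟩ : ∃ T : ↥(P : Subgroup G) → ℂ, ∀ x, T x =
      -(((μ x : ℂˣ) : ℂ) ^ ν * ((μ x : ℂˣ) : ℂ) ^ 2 + ((μ x : ℂˣ) : ℂ) ^ 2 / ((μ x : ℂˣ) : ℂ) ^ ν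
        + ((μ x : ℂˣ) : ℂ) ^ ν / ((μ x : ℂˣ) : ℂ) ^ 2
        + (((μ x : ℂˣ) : ℂ) ^ ν)⁻¹ / ((μ x : ℂˣ) : ℂ) ^ 2 + ((μ x : ℂˣ) : ℂ) ^ ν
        + (((μ x : ℂˣ) : ℂ) ^ ν)⁻¹) := ⟨_, fun x => rfl⟩
  have hsummand : ∀ x : ↥(P : Subgroup G), x ≠ 1 → ∀ z : Subgroup.center G,
      ((χ ((x : G) * (z : G)) ^ 2 - χ (((x : G) * (z : G)) * ((x : G) * (z : G)))) / 2) *
          conj (χ ((x : G) ^ ν * (z : G) ^ s)) = T x := by
    intro x hx z
    obtain ⟨c, hc, hcn, hcs⟩ := sum_central p P χ μ s h (z : G) z.2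
    have hzc := Subgroup.mem_center_iff.mp z.2
    have e1 : χ ((x : G) * (z : G)) = c * χ (x : G) := by
      rw [hzc (x : G)]
      have := hc 1 (x : G)
      rwa [pow_one, pow_one] at this
    have e2 : χ (((x : G) * (z : G)) * ((x : G) * (z : G))) =
        c ^ 2 * χ ((x * x : ↥(P : Subgroup G)) : G) := by
      have e : ((x : G) * (z : G)) * ((x : G) * (z : G)) = (z : G) ^ 2 * ((x : G) * (x : G)) := by
        rw [hzc (x : G), pow_two, mul_assoc, ← mul_assoc (x : G) (z : G) (x : G), hzc (x : G)]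
        simp only [mul_assoc]
      rw [e, hc 2]
      rfl
    have e3 : χ ((x : G) ^ ν * (z : G) ^ s) = c ^ 2 * χ ((x ^ ν : ↥(P : Subgroup G)) : G) := by
      have hzs : (z : G) ^ s ∈ Subgroup.center G := Subgroup.pow_mem _ z.2 _
      rw [Subgroup.mem_center_iff.mp hzs ((x : G) ^ ν), hc s, hcs]
      rfl
    rw [e1, e2, e3, hval x hx, hval (x * x) (hxx x hx), hval (x ^ ν) (hxν x hx), hT,
      map_mul, map_pow, Units.val_mul, Units.val_pow_eq_pow_val]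
    obtain ⟨m, hm⟩ : ∃ m : ℂ, m = ((μ x : ℂˣ) : ℂ) := ⟨_, rfl⟩
    rw [← hm]
    have hm0 : m ≠ 0 := by rw [hm]; exact Units.ne_zero _
    have hconj : conj m = m⁻¹ := by
      rw [hm]
      exact (Complex.inv_eq_conj (hnorm x)).symm
    rw [map_mul, map_neg, map_add, map_pow, map_inv₀, map_pow, hconj]
    have hcc : c ^ 2 * (conj c) ^ 2 = 1 := by rw [← mul_pow, hcn, one_pow]
    rw [inv_pow]
    obtain ⟨A, hA⟩ : ∃ A : ℂ, A = m ^ ν := ⟨_, rfl⟩
    rw [← hA]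
    have hA0 : A ≠ 0 := by rw [hA]; exact pow_ne_zero _ hm0
    have key : ((m + m⁻¹) ^ 2 + (m * m + (m * m)⁻¹)) / 2 * -(A⁻¹ + A⁻¹⁻¹) =
        -(A * m ^ 2 + m ^ 2 / A + A / m ^ 2 + A⁻¹ / m ^ 2 + A + A⁻¹) := by
      field_simp
      ring
    linear_combination
      (((m + m⁻¹) ^ 2 + (m * m + (m * m)⁻¹)) / 2 * -(A⁻¹ + A⁻¹⁻¹)) * hcc + key
  have hinner : ∀ x : ↥(P : Subgroup G), x ≠ 1 →
      ∑ᶠ z : Subgroup.center G,
        ((χ ((x : G) * (z : G)) ^ 2 - χ (((x : G) * (z : G)) * ((x : G) * (z : G)))) / 2) *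
          conj (χ ((x : G) ^ ν * (z : G) ^ s)) = (Nat.card (Subgroup.center G) : ℂ) * T x := by
    intro x hx
    rw [finsum_congr (hsummand x hx), finsum_eq_sum_of_fintype, Finset.sum_const,
      Finset.card_univ, nsmul_eq_mul, Nat.card_eq_fintype_card]
  refine Eq.trans (finsum_congr fun x => finsum_congr fun hx => hinner x hx) ?_
  rw [finsum_eq_sum_of_fintype]
  have hstep : ∀ x : ↥(P : Subgroup G),
      ∑ᶠ (_ : x ≠ 1), (Nat.card (Subgroup.center G) : ℂ) * T x =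
      if x ≠ 1 then (Nat.card (Subgroup.center G) : ℂ) * T x else 0 := fun x => finsum_eq_if
  rw [Finset.sum_congr rfl (fun x _ => hstep x), ← Finset.sum_filter, ← Finset.mul_sum]
  congr 1
  have hTz : ∀ x : ↥(P : Subgroup G), T x =
      -((((μ x) ^ ((ν : ℤ) + 2) : ℂˣ) : ℂ) + (((μ x) ^ (2 - (ν : ℤ)) : ℂˣ) : ℂ)
      + (((μ x) ^ ((ν : ℤ) - 2) : ℂˣ) : ℂ) + (((μ x) ^ (-(ν : ℤ) - 2) : ℂˣ) : ℂ)
      + (((μ x) ^ (ν : ℤ) : ℂˣ) : ℂ) + (((μ x) ^ (-(ν : ℤ)) : ℂˣ) : ℂ)) := by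
    intro x
    have hm0 : ((μ x : ℂˣ) : ℂ) ≠ 0 := Units.ne_zero _
    rw [hT]
    simp only [Units.val_zpow_eq_zpow_val, zpow_add₀ hm0, zpow_sub₀ hm0, zpow_neg, zpow_natCast,
      zpow_ofNat, Units.val_pow_eq_pow_val, Units.val_inv_eq_inv_val]
  rw [Finset.sum_congr rfl (fun x _ => hTz x)]
  simp only [Finset.sum_neg_distrib, Finset.sum_add_distrib]
  rw [sum_mu_pow p h.cardP μ h.μne, sum_mu_pow p h.cardP μ h.μne, sum_mu_pow p h.cardP μ h.μne,
    sum_mu_pow p h.cardP μ h.μne, sum_mu_pow p h.cardP μ h.μne, sum_mu_pow p h.cardP μ h.μne]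
  have hnd : ∀ k : ℤ, k ≠ 0 → |k| < (p : ℤ) → ¬ (p : ℤ) ∣ k :=
    fun k hk hlt hd => hk (Int.eq_zero_of_abs_lt_dvd hd hlt)
  have h1 : ¬ (p : ℤ) ∣ (ν : ℤ) + 2 := hnd _ (by omega) (abs_lt.mpr ⟨by omega, by omega⟩)
  have h4 : ¬ (p : ℤ) ∣ -(ν : ℤ) - 2 := hnd _ (by omega) (abs_lt.mpr ⟨by omega, by omega⟩)
  have h5 : ¬ (p : ℤ) ∣ (ν : ℤ) := hnd _ (by omega) (abs_lt.mpr ⟨by omega, by omega⟩)
  have h6 : ¬ (p : ℤ) ∣ -(ν : ℤ) := hnd _ (by omega) (abs_lt.mpr ⟨by omega, by omega⟩)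
  rw [if_neg h1, if_neg h4, if_neg h5, if_neg h6]
  by_cases hν : ν = 2
  · have h2 : (p : ℤ) ∣ 2 - (ν : ℤ) := by rw [hν]; simp
    have h3 : (p : ℤ) ∣ (ν : ℤ) - 2 := by rw [hν]; simp
    rw [if_pos h2, if_pos h3, if_pos hν]
    ring
  · have h2 : ¬ (p : ℤ) ∣ 2 - (ν : ℤ) := hnd _ (by omega) (abs_lt.mpr ⟨by omega, by omega⟩)
    have h3 : ¬ (p : ℤ) ∣ (ν : ℤ) - 2 := hnd _ (by omega) (abs_lt.mpr ⟨by omega, by omega⟩)
    rw [if_neg h2, if_neg h3, if_neg hν]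
    ring

example : StSum.{u} := sum

end Cfsg.Agent.H40.P2
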