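import Mathlib
import Cfsg.Agent.H45.MDefs
import Cfsg.Agent.H4.MGen

set_option autoImplicit false

/-! S2414 piece P-COMM (helper40, for helper45): Levi transvections are commutators of central
upper and lower unipotent elements. -/

namespace Cfsg.Agent.H40.MP

open Matrix Cfsg.Agent.H49 Cfsg.Agent.H45.M

variable {F : Type*} [Field F] {k : ℕ}

theorem act_eU_single (a b : F) (j i : Fin k) (d : F) (X Y : Fin k → F) (Z : Fin 2 → F) :
    act (Cfsg.Agent.H4.M.eU a b (Pi.single j 1) (d • Pi.single i 1) 0) (tri X Y Z) =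
      tri (X + (d * Y j) • Pi.single i 1 - (d * Y i) • Pi.single j 1) Y Z := by
  rw [Cfsg.Agent.H4.M.act_eU]
  apply Cfsg.Agent.H4.M.tri_congr
  · funext m
    simp [single_dotProduct, smul_dotProduct]
    ring
  · rfl
  · simp

theorem act_eL_single (a b : F) (l j : Fin k) (d : F) (X Y : Fin k → F) (Z : Fin 2 → F) :
    act (Cfsg.Agent.H4.M.eL a b (Pi.single l 1) (d • Pi.single j 1) 0) (tri X Y Z) =
      tri X (Y + (d * X l) • Pi.single j 1 - (d * X j) • Pi.single l 1) Z := by
  rw [Cfsg.Agent.H4.M.act_eL]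
  apply Cfsg.Agent.H4.M.tri_congr
  · rfl
  · funext m
    simp [single_dotProduct, smul_dotProduct]
    ring
  · simp

theorem isU_zero_eU_single (a b : F) (j i : Fin k) (d : F) :
    ∃ S : Matrix (Fin k) (Fin k) F,
      IsU (Cfsg.Agent.H4.M.eU a b (Pi.single j 1) (d • Pi.single i 1) 0) 0 S := by
  have h := Cfsg.Agent.H4.M.isU_eU a b (Pi.single j (1 : F)) (d • Pi.single i (1 : F)) 0
  have h0 : vecMulVec (0 : Fin 2 → F) (Pi.single j (1 : F)) = 0 := by
    funext x y
    simp [vecMulVec_apply]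
  rw [h0] at h
  exact ⟨_, h⟩

theorem isL_zero_eL_single (a b : F) (l j : Fin k) (d : F) :
    ∃ S : Matrix (Fin k) (Fin k) F,
      IsL (Cfsg.Agent.H4.M.eL a b (Pi.single l 1) (d • Pi.single j 1) 0) 0 S := by
  have h := Cfsg.Agent.H4.M.isL_eL a b (Pi.single l (1 : F)) (d • Pi.single j (1 : F)) 0
  have h0 : vecMulVec (0 : Fin 2 → F) (Pi.single l (1 : F)) = 0 := by
    funext x y
    simp [vecMulVec_apply]
  rw [h0] at h
  exact ⟨_, h⟩

theorem levi_transv_mem (a b : F) (hk : 3 ≤ k) (K : Subgroup (OM k F a b))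
    (hZ : ∀ (h : OM k F a b) (S : Matrix (Fin k) (Fin k) F), IsU h 0 S → h ∈ K)
    (hZ' : ∀ (h : OM k F a b) (S : Matrix (Fin k) (Fin k) F), IsL h 0 S → h ∈ K)
    (i l : Fin k) (hil : i ≠ l) (c : F) (h : OM k F a b)
    (hh : IsLevi h (1 + c • Matrix.single i l (1 : F)) (1 - c • Matrix.single l i (1 : F)) 1) :
    h ∈ K := by
  obtain ⟨j, hji, hjl⟩ : ∃ j : Fin k, j ≠ i ∧ j ≠ l := by
    by_contra hcon
    push Not at hcon
    have hsub : (Finset.univ : Finset (Fin k)) ⊆ {i, l} := by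
      intro j _
      by_cases hj : j = i
      · simp [hj]
      · simp [hcon j hj]
    have h1 := Finset.card_le_card hsub
    have h2 : ({i, l} : Finset (Fin k)).card ≤ 2 := Finset.card_le_two
    rw [Finset.card_univ, Fintype.card_fin] at h1
    omega
  obtain ⟨S1, hS1⟩ := isU_zero_eU_single a b j i c
  obtain ⟨S2, hS2⟩ := isL_zero_eL_single a b l j (1 : F)
  obtain ⟨S3, hS3⟩ := isU_zero_eU_single a b j i (-c)
  obtain ⟨S4, hS4⟩ := isL_zero_eL_single a b l j (-1 : F)
  have hmem : Cfsg.Agent.H4.M.eU a b (Pi.single j 1) (c • Pi.single i 1) 0 *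
      Cfsg.Agent.H4.M.eL a b (Pi.single l 1) ((1 : F) • Pi.single j 1) 0 *
      Cfsg.Agent.H4.M.eU a b (Pi.single j 1) ((-c) • Pi.single i 1) 0 *
      Cfsg.Agent.H4.M.eL a b (Pi.single l 1) ((-1 : F) • Pi.single j 1) 0 ∈ K :=
    K.mul_mem (K.mul_mem (K.mul_mem (hZ _ _ hS1) (hZ' _ _ hS2)) (hZ _ _ hS3)) (hZ' _ _ hS4)
  have heq : h = Cfsg.Agent.H4.M.eU a b (Pi.single j 1) (c • Pi.single i 1) 0 *
      Cfsg.Agent.H4.M.eL a b (Pi.single l 1) ((1 : F) • Pi.single j 1) 0 *
      Cfsg.Agent.H4.M.eU a b (Pi.single j 1) ((-c) • Pi.single i 1) 0 *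
      Cfsg.Agent.H4.M.eL a b (Pi.single l 1) ((-1 : F) • Pi.single j 1) 0 := by
    apply isometry_ext
    intro v
    obtain ⟨X, Y, Z, rfl⟩ := tri_eta v
    show act h (tri X Y Z) = act _ (tri X Y Z)
    rw [hh, act_mul, act_mul, act_mul, act_eL_single, act_eU_single, act_eL_single,
      act_eU_single]
    have hij : i ≠ j := fun e => hji e.symm
    have hlj : l ≠ j := fun e => hjl e.symm
    have hli : l ≠ i := fun e => hil e.symm
    apply Cfsg.Agent.H4.M.tri_congr
    · rw [Matrix.add_mulVec, Matrix.one_mulVec, Matrix.smul_mulVec, Matrix.single_mulVec_eq]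
      funext m
      simp only [Pi.add_apply, Pi.sub_apply, Pi.smul_apply, smul_eq_mul, Pi.single_apply]
      by_cases hmi : m = i
      · subst hmi
        simp [hil, hij, hji, hjl, hlj, hli]
        ring
      · by_cases hmj : m = j
        · subst hmj
          simp [hil, hij, hji, hjl, hlj, hli]
        · simp [hil, hij, hji, hjl, hlj, hli, hmi, hmj]
    · rw [Matrix.sub_mulVec, Matrix.one_mulVec, Matrix.smul_mulVec, Matrix.single_mulVec_eq]
      funext m
      simp only [Pi.add_apply, Pi.sub_apply, Pi.smul_apply, smul_eq_mul, Pi.single_apply]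
      by_cases hml : m = l
      · subst hml
        simp [hil, hij, hji, hjl, hlj, hli]
        ring
      · by_cases hmj : m = j
        · subst hmj
          simp [hil, hij, hji, hjl, hlj, hli]
        · simp [hil, hij, hji, hjl, hlj, hli, hml, hmj]
    · rw [Matrix.one_mulVec]
  rw [heq]
  exact hmem

end Cfsg.Agent.H40.MP
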