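import Mathlib
import Cfsg.Agent.H48.OmTransfer

set_option autoImplicit false

/-! S2414 piece P-ISO (helper40, for helper45): the isometry group of the form
`quadFormMinus k F 1 0` is isomorphic to that of `quadFormPlus (k + 1) F`. -/

namespace Cfsg.Agent.H40.MP

/-- The linear equivalence between the two coordinate spaces. -/
noncomputable def isoLin (F : Type*) [Field F] (k : ℕ) :
    ((Fin k ⊕ Fin k) ⊕ Fin 2 → F) ≃ₗ[F] (Fin (k + 1) ⊕ Fin (k + 1) → F) where
  toFun v := Sum.elim (Fin.snoc (α := fun _ => F) (fun i => v (Sum.inl (Sum.inl i))) (v (Sum.inr 0)))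
    (Fin.snoc (α := fun _ => F) (fun i => v (Sum.inl (Sum.inr i))) (v (Sum.inr 0) + v (Sum.inr 1)))
  map_add' v w := by
    funext j
    rcases j with j | j
    · refine Fin.lastCases ?_ (fun i => ?_) j
      · simp
      · simp
    · refine Fin.lastCases ?_ (fun i => ?_) j
      · simp; ring
      · simp
  map_smul' c v := by
    funext j
    rcases j with j | j
    · refine Fin.lastCases ?_ (fun i => ?_) j
      · simp
      · simp
    · refine Fin.lastCases ?_ (fun i => ?_) j
      · simp; ring
      · simp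
  invFun w := Sum.elim (Sum.elim (fun i => w (Sum.inl i.castSucc)) (fun i => w (Sum.inr i.castSucc)))
    ![w (Sum.inl (Fin.last k)), w (Sum.inr (Fin.last k)) - w (Sum.inl (Fin.last k))]
  left_inv v := by
    funext j
    rcases j with (j | j) | j
    · simp
    · simp
    · fin_cases j
      · simp
      · simp
  right_inv w := by
    funext j
    rcases j with j | j
    · refine Fin.lastCases ?_ (fun i => ?_) j
      · simp
      · simp
    · refine Fin.lastCases ?_ (fun i => ?_) j
      · simp
      · simp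

theorem isoLin_quad (F : Type*) [Field F] (k : ℕ) (v : (Fin k ⊕ Fin k) ⊕ Fin 2 → F) :
    Cfsg.quadFormPlus (k + 1) F (isoLin F k v) = Cfsg.quadFormMinus k F 1 0 v := by
  unfold Cfsg.quadFormPlus Cfsg.quadFormMinus
  rw [Fin.sum_univ_castSucc]
  simp [isoLin]
  ring

theorem iso_plus (F : Type*) [Field F] (k : ℕ) :
    Nonempty (↥(Cfsg.isometryGroup F (Cfsg.quadFormMinus k F 1 0)) ≃*
      ↥(Cfsg.isometryGroup F (Cfsg.quadFormPlus (k + 1) F))) :=
  ⟨Cfsg.Agent.H48.isoEquiv _ _ (isoLin F k) (isoLin_quad F k)⟩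

end Cfsg.Agent.H40.MP
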