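import Mathlib
import Cfsg.Agent.H49.PtDefs
import Cfsg.Agent.H77.TmDefs2
import Cfsg.Agent.H49.Plus
import Cfsg.Agent.H49.InvOmega

/-!
# S5973, piece S5973-MODD (helper40): `i` odd — the invariant totally singular subspaces of an
isometry of odd prime order `r ≠ p` of the plus-type space.
-/

set_option autoImplicit false
open scoped MatrixGroups
open scoped Matrix

namespace Cfsg.Agent.H40.Pt

open Cfsg.Agent.H45 Cfsg.Agent.H42.Spd Cfsg.Agent.H42.Ti Cfsg.Agent.H49 Cfsg.Agent.H49.Pt Module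
  Polynomial

open Cfsg.Agent.H77.Tm (QCtx TS pol StQStruct StComplPlus)

universe u

/-- The orthogonal sum of two totally singular subspaces `J ≤ C`, `K ≤ U` (`C ⟂ U`,
`C ⊓ U = ⊥`) is totally singular of dimension `dim J + dim K`. -/
theorem ts_sup {F : Type u} [Field F] {V : Type u} [AddCommGroup V] [Module F V]
    [FiniteDimensional F V] (Q : QuadraticForm F V) (C U J K : Submodule F V)
    (hperp : ∀ c ∈ C, ∀ u ∈ U, QuadraticMap.polar ⇑Q c u = 0) (hCU : C ⊓ U = ⊥)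
    (hJ : J ≤ C) (hK : K ≤ U) (hJts : ∀ x ∈ J, Q x = 0) (hKts : ∀ x ∈ K, Q x = 0) :
    (∀ x ∈ J ⊔ K, Q x = 0) ∧ finrank F ↥(J ⊔ K) = finrank F ↥J + finrank F ↥K := by
  constructor
  · intro x hx
    obtain ⟨a, ha, b, hb, rfl⟩ := Submodule.mem_sup.mp hx
    have hp := hperp a (hJ ha) b (hK hb)
    rw [QuadraticMap.polar, hJts a ha, hKts b hb] at hp
    simpa using hp
  · have h := Submodule.finrank_sup_add_finrank_inf_eq J K
    have hinf : J ⊓ K = ⊥ := by
      rw [eq_bot_iff, ← hCU]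
      exact inf_le_inf hJ hK
    rw [hinf, finrank_bot, add_zero] at h
    exact h

/-- An isometry `y` of the plus-type form with `y ^ r = 1`, `r ≠ p` an odd prime, gives a
quadratic context. -/
theorem qctx_of_isometry {F : Type u} [Field F] [Fintype F] (p : ℕ) [Fact p.Prime] [CharP F p]
    (d r : ℕ) (hr : r.Prime) (hr2 : r ≠ 2) (hrp : r ≠ p) (y : GL (Fin d ⊕ Fin d) F)
    (hy : y ∈ Cfsg.isometryGroup F (Cfsg.quadFormPlus d F)) (hyr : y ^ r = 1) :
    QCtx r (QP d F) (Matrix.toLin' (y : Matrix (Fin d ⊕ Fin d) (Fin d ⊕ Fin d) F)) := by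
  refine ⟨hr, hr2, ?_, ?_, ?_, ?_⟩
  · intro h0
    have hdvd : p ∣ r := (CharP.cast_eq_zero_iff F p r).mp h0
    have := (Nat.prime_dvd_prime_iff_eq (Fact.out : p.Prime) hr).mp hdvd
    exact hrp this.symm
  · intro x hx
    exact (QP_nondeg d F).1 x (fun y => hx y)
  · intro x
    have := mem_isometryGroup_iff.mp hy x
    rw [Matrix.toLin'_apply]
    exact this
  · have h1 : ((y ^ r : GL (Fin d ⊕ Fin d) F) : Matrix (Fin d ⊕ Fin d) (Fin d ⊕ Fin d) F) = 1 := by
      rw [hyr]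
      rfl
    rw [Units.val_pow_eq_pow_val] at h1
    rw [← Matrix.toLin'_pow, h1, Matrix.toLin'_one]
    rfl

/-- **S5973-MODD.** -/
theorem mOdd (hQS : Cfsg.Agent.H77.Tm.StQStruct.{u, u})
    (hCP : Cfsg.Agent.H77.Tm.StComplPlus.{u, u}) : StMOdd.{u} := by
  intro F _ _ p _ _ d r hr hr2 hrp hodd y hy hyr
  classical
  set T : Module.End F (Fin d ⊕ Fin d → F) :=
    Matrix.toLin' (y : Matrix (Fin d ⊕ Fin d) (Fin d ⊕ Fin d) F) with hT
  have hctx : QCtx r (QP d F) T := qctx_of_isometry p d r hr hr2 hrp y hy hyr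
  obtain ⟨⟨hCU, hsup, hperp, hCnd, hUnd⟩, ⟨A, hA⟩, hup, hex⟩ :=
    hQS F (Fin d ⊕ Fin d → F) r (QP d F) T hctx
  have hnev : ¬ Even (ii F r) := Nat.not_even_iff_odd.mpr hodd
  have hcc : cc F r = 2 * ii F r := by
    unfold cc
    rw [if_neg]
    · rfl
    · exact hnev
  rw [hcc, mul_assoc] at hA
  have hipos : 0 < ii F r := hodd.pos
  have hVdim : finrank F (Fin d ⊕ Fin d → F) = 2 * d := finrank_plus d F
  -- the invariant totally singular half `L₀` of `U`
  obtain ⟨L₀, hL₀U, hL₀inv, hL₀ts, hL₀dim⟩ := hex A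
    (fun _ => by rw [hA, mul_assoc]) (fun he => absurd he hnev)
  have hL₀le : ii F r * A ≤ d := by
    have := IsTS.finrank_le_half (QP_nondeg d F) hVdim (U := L₀) hL₀ts
    rwa [hL₀dim] at this
  -- the dimension of `C`
  have hrn := LinearMap.finrank_range_add_finrank_ker (T - 1)
  rw [hVdim, hA] at hrn
  -- a totally singular half `N` of `C`
  obtain ⟨N, hNC, hNts, hNdim⟩ := hCP F (Fin d ⊕ Fin d → F) (QP d F) (LinearMap.ker (T - 1))
    (LinearMap.range (T - 1)) L₀ (U0 d F) hperp hUnd hL₀U hL₀ts (by rw [hL₀dim, hA])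
    (by rw [hsup]; exact le_top) (U0_ts d F) (by rw [hsup, finrank_top, hVdim, finrank_U0])
  have hNdim' : finrank F ↥N + ii F r * A = d := by omega
  refine ⟨A, hL₀le, ?_, ?_, ?_⟩
  · show finrank F ↥(LinearMap.ker (T - 1)) + 2 * ii F r * A = 2 * d
    rw [mul_assoc]
    omega
  · intro j w hj hw
    obtain ⟨WU, hWUle, hWUinv, hWUts, hWUdim⟩ := hex j
      (fun _ => by rw [hA, mul_assoc]; exact Nat.mul_le_mul_left _ (Nat.mul_le_mul_left _ hj))
      (fun he => absurd he hnev)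
    obtain ⟨J, hJN, hJdim⟩ := exists_le_finrank_eq' N w (by omega)
    have hJC : J ≤ LinearMap.ker (T - 1) := hJN.trans hNC
    obtain ⟨hts, hdim⟩ := ts_sup (QP d F) _ _ J WU hperp hCU hJC hWUle
      (fun x hx => hNts x (hJN hx)) hWUts
    refine ⟨J ⊔ WU, ?_, ?_, ?_⟩
    · rw [hdim, hJdim, hWUdim, add_comm]
    · intro x hx
      exact hts x hx
    · show (J ⊔ WU).map T ≤ J ⊔ WU
      rw [Submodule.map_sup]
      apply sup_le_sup
      · rintro _ ⟨a, ha, rfl⟩
        have hker : (T - 1) a = 0 := LinearMap.mem_ker.mp (hJC ha)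
        have hTa : T a = a := by
          rw [LinearMap.sub_apply, sub_eq_zero] at hker
          exact hker
        show T a ∈ J
        rw [hTa]
        exact ha
      · rintro _ ⟨b, hb, rfl⟩
        exact hWUinv hb
  · intro W hWts hWinv
    have hWinv' : W ∈ T.invtSubmodule := (Module.End.mem_invtSubmodule_iff_map_le T).mpr hWinv
    obtain ⟨s, hs1, hs2, -⟩ := hup W hWinv' hWts
    refine ⟨s, finrank F ↥(W ⊓ LinearMap.ker (T - 1)), ?_, ?_, ?_⟩
    · rw [hs1, add_comm]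
    · rw [hA] at hs2
      have h3 : ii F r * s ≤ ii F r * A := by omega
      exact Nat.le_of_mul_le_mul_left h3 hipos
    · obtain ⟨hts, hdim⟩ := ts_sup (QP d F) _ _ (W ⊓ LinearMap.ker (T - 1)) L₀ hperp hCU
        inf_le_right hL₀U (fun x hx => hWts x hx.1) hL₀ts
      have := IsTS.finrank_le_half (QP_nondeg d F) hVdim
        (U := (W ⊓ LinearMap.ker (T - 1)) ⊔ L₀) hts
      rw [hdim, hL₀dim] at this
      exact this

example (hQS : Cfsg.Agent.H77.Tm.StQStruct.{u, u})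
    (hCP : Cfsg.Agent.H77.Tm.StComplPlus.{u, u}) : StMOdd.{u} := mOdd hQS hCP

end Cfsg.Agent.H40.Pt
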