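import Mathlib
import Cfsg.Prelude.Def_Local
import Cfsg.Agent.H66.PLength
import Cfsg.Agent.H80.GroupBasic

/-!
# Piece S4711-L: `p`-length one from a normal subgroup `H ≥ P` whose `p`-regular elements lie in
`O_{p'}(G)`
-/

set_option autoImplicit false

namespace Cfsg.Agent.H40.Rn

theorem rn_plength {G : Type*} [Group G] [Finite G] (p : ℕ) [Fact p.Prime] (P : Sylow p G)
    (H : Subgroup G) [H.Normal] (hKH : Cfsg.pPrimeCore p G ≤ H) (hPH : (P : Subgroup G) ≤ H)
    (hreg : ∀ g ∈ H, ¬ p ∣ orderOf g → g ∈ Cfsg.pPrimeCore p G) : Cfsg.PLengthLE p 1 G := by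
  have hp : p.Prime := Fact.out
  rw [Cfsg.Agent.H66.pLengthLE_iff_plenRel]
  have hAn : (Cfsg.pPrimeCore p G).Normal := Cfsg.Agent.H80.pPrimeCore_normal p G
  refine ⟨Cfsg.pPrimeCore p G, H, inferInstance, hAn, bot_le, ?_, hKH, ?_, ?_⟩
  · rw [Subgroup.relIndex_bot_left]
    exact Cfsg.Agent.H80.pPrimeCore_coprime p G
  · -- `H / O_{p'}(G)` is a `p`-group
    have hpg : IsPGroup p (↥H ⧸ (Cfsg.pPrimeCore p G).subgroupOf H) := by
      intro x
      obtain ⟨h, rfl⟩ := QuotientGroup.mk_surjective x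
      have ho : orderOf (h : G) ≠ 0 := (orderOf_pos (h : G)).ne'
      obtain ⟨a, m, hm, hom⟩ := Nat.exists_eq_pow_mul_and_not_dvd ho p hp.ne_one
      refine ⟨a, ?_⟩
      rw [← QuotientGroup.mk_pow, QuotientGroup.eq_one_iff, Subgroup.mem_subgroupOf]
      rw [Subgroup.coe_pow]
      apply hreg _ (H.pow_mem h.2 _)
      intro hdvd
      apply hm
      have h1 : ((h : G) ^ p ^ a) ^ m = 1 := by
        rw [← pow_mul, ← hom, pow_orderOf_eq_one]
      exact hdvd.trans (orderOf_dvd_of_pow_eq_one h1)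
    obtain ⟨n, hn⟩ := IsPGroup.iff_card.mp hpg
    refine ⟨n, ?_⟩
    rw [← hn]
    rfl
  · refine ⟨inferInstance, inferInstance, le_top, ?_⟩
    rw [Subgroup.relIndex_top_right]
    have h1 : H.index ∣ (P : Subgroup G).index := Subgroup.index_dvd_of_le hPH
    have h2 : ¬ p ∣ (P : Subgroup G).index := P.not_dvd_index
    have h3 : ¬ p ∣ H.index := fun h => h2 (h.trans h1)
    exact ((Nat.Prime.coprime_iff_not_dvd hp).mpr h3).symm

end Cfsg.Agent.H40.Rn
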