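import Mathlib
import Cfsg.Prelude.Def_Blocks
import Cfsg.Prelude.Def_Local
import Cfsg.Agent.H81.WBO
import Cfsg.Agent.H80.Block
import Cfsg.Agent.H82.BL3

/-!
# Piece S4711-W: a consequence of weak block orthogonality for the principal block
-/

set_option autoImplicit false

namespace Cfsg.Agent.H40.Rn

open scoped ComplexConjugate

theorem rn_regular {G : Type*} [Group G] [Finite G] (p : ℕ) [Fact p.Prime] (M : Ideal Cfsg.AlgInt)
    (hM : Cfsg.IsPModular p M) (P : Sylow p G)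
    (hcl : ∀ χ ∈ Cfsg.principalBlock M G,
      (∑ᶠ y : ↥(P : Subgroup G), (χ : G → ℂ) (y : G) = 0) ∨
      (∀ y ∈ (P : Subgroup G), (χ : G → ℂ) y = (χ : G → ℂ) 1))
    (g : G) (hg : ¬ p ∣ orderOf g)
    (hgA : ∀ χ ∈ Cfsg.principalBlock M G,
      (∀ y ∈ (P : Subgroup G), (χ : G → ℂ) y = (χ : G → ℂ) 1) → (χ : G → ℂ) g = (χ : G → ℂ) 1) :
    ∀ χ ∈ Cfsg.principalBlock M G, (χ : G → ℂ) g = (χ : G → ℂ) 1 := by
  classical
  have hp : p.Prime := Fact.out
  have instG : Fintype G := Fintype.ofFinite G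
  have instI : Fintype (Cfsg.IrrCharacter G) := Cfsg.Agent.H4.fintypeIrr G
  have instP : Fintype ↥(P : Subgroup G) := Fintype.ofFinite _
  obtain ⟨T, hT⟩ : ∃ T : Finset (Cfsg.IrrCharacter G),
      T = (Set.toFinite (Cfsg.principalBlock M G)).toFinset := ⟨_, rfl⟩
  have hTmem : ∀ χ, χ ∈ T ↔ χ ∈ Cfsg.principalBlock M G := by
    intro χ; rw [hT]; exact Set.Finite.mem_toFinset _
  -- weak block orthogonality as a finite sum
  have hwbo : ∀ x y : G, ¬ p ∣ orderOf x → p ∣ orderOf y →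
      ∑ χ ∈ T, (χ : G → ℂ) x * conj ((χ : G → ℂ) y) = 0 := by
    intro x y hx hy
    have h1 := Cfsg.Agent.H81.wbo_one hM (Cfsg.Agent.H80.trivChar G) x y hx hy
    have h2 : Cfsg.blockOf M ((Cfsg.Agent.H80.trivChar G : Cfsg.IrrCharacter G) : G → ℂ) =
        Cfsg.principalBlock M G := rfl
    rw [h2, finsum_mem_eq_finite_toFinset_sum _ (Set.toFinite _)] at h1
    rw [hT]
    exact h1
  -- degrees
  have hdeg : ∀ χ : Cfsg.IrrCharacter G, (χ : G → ℂ) 1 = (Cfsg.charDegree χ.1 : ℂ) :=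
    fun χ => Cfsg.Agent.H82.irr_one_eq_charDegree χ
  have hconj1 : ∀ χ : Cfsg.IrrCharacter G, conj ((χ : G → ℂ) 1) = (χ : G → ℂ) 1 := by
    intro χ
    rw [hdeg χ, Complex.conj_natCast]
  -- nontrivial elements of `P` are `p`-singular
  have hsing : ∀ y : ↥(P : Subgroup G), y ≠ 1 → p ∣ orderOf (y : G) := by
    intro y hy
    obtain ⟨k, hk⟩ := P.2 y
    have h1 : orderOf y ∣ p ^ k := orderOf_dvd_of_pow_eq_one hk
    obtain ⟨j, -, hj⟩ := (Nat.dvd_prime_pow hp).mp h1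
    rw [Subgroup.orderOf_coe]
    rw [hj]
    have hj0 : j ≠ 0 := by
      intro h0
      rw [h0, pow_zero, orderOf_eq_one_iff] at hj
      exact hy hj
    exact dvd_pow_self p hj0
  -- the key identity for `p`-regular `x`
  have hkey : ∀ x : G, ¬ p ∣ orderOf x →
      ∑ χ ∈ T, (χ : G → ℂ) x * (χ : G → ℂ) 1 =
        ∑ χ ∈ T, (if (∀ y ∈ (P : Subgroup G), (χ : G → ℂ) y = (χ : G → ℂ) 1) then
          (Nat.card ↥(P : Subgroup G) : ℂ) * (χ : G → ℂ) 1 * (χ : G → ℂ) x else 0) := by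
    intro x hx
    have e1 : ∑ y : ↥(P : Subgroup G), ∑ χ ∈ T, (χ : G → ℂ) x * conj ((χ : G → ℂ) (y : G)) =
        ∑ χ ∈ T, (χ : G → ℂ) x * (χ : G → ℂ) 1 := by
      rw [Finset.sum_eq_single (1 : ↥(P : Subgroup G))]
      · apply Finset.sum_congr rfl
        intro χ _
        rw [Subgroup.coe_one, hconj1]
      · intro y _ hy
        exact hwbo x y hx (hsing y hy)
      · intro h; exact absurd (Finset.mem_univ _) h
    rw [← e1, Finset.sum_comm]
    apply Finset.sum_congr rfl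
    intro χ hχ
    rw [← Finset.mul_sum, ← map_sum]
    have hχB : χ ∈ Cfsg.principalBlock M G := (hTmem χ).mp hχ
    split_ifs with hA
    · have h1 : ∑ y : ↥(P : Subgroup G), (χ : G → ℂ) (y : G) =
          (Nat.card ↥(P : Subgroup G) : ℂ) * (χ : G → ℂ) 1 := by
        rw [Finset.sum_congr rfl (fun (y : ↥(P : Subgroup G)) _ => hA (y : G) y.2),
          Finset.sum_const, Finset.card_univ,
          nsmul_eq_mul, Nat.card_eq_fintype_card]
      rw [h1, map_mul, hconj1, Complex.conj_natCast]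
      ring
    · rcases hcl χ hχB with h | h
      · rw [finsum_eq_sum_of_fintype] at h
        rw [h, map_zero, mul_zero]
      · exact absurd h hA
  have h1reg : ¬ p ∣ orderOf (1 : G) := by
    rw [orderOf_one]
    exact hp.one_lt.ne' ∘ Nat.dvd_one.mp
  have hΦ : ∑ χ ∈ T, (χ : G → ℂ) g * (χ : G → ℂ) 1 = ∑ χ ∈ T, (χ : G → ℂ) 1 * (χ : G → ℂ) 1 := by
    rw [hkey g hg, hkey 1 h1reg]
    apply Finset.sum_congr rfl
    intro χ hχ
    split_ifs with hA
    · rw [hgA χ ((hTmem χ).mp hχ) hA]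
    · rfl
  -- real parts
  have hre : ∀ χ : Cfsg.IrrCharacter G, ((χ : G → ℂ) g).re ≤ (Cfsg.charDegree χ.1 : ℝ) := by
    intro χ
    exact (Complex.re_le_norm _).trans (Cfsg.Agent.H82.BL.irr_norm_le_deg χ g)
  have hsum : ∑ χ ∈ T, (Cfsg.charDegree χ.1 : ℝ) *
      ((Cfsg.charDegree χ.1 : ℝ) - ((χ : G → ℂ) g).re) = 0 := by
    have h2 : ∑ χ ∈ T, ((χ : G → ℂ) 1 * (χ : G → ℂ) 1 - (χ : G → ℂ) g * (χ : G → ℂ) 1) = 0 := by
      rw [Finset.sum_sub_distrib, hΦ, sub_self]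
    have h3 := congrArg Complex.re h2
    rw [Complex.re_sum, Complex.zero_re] at h3
    rw [← h3]
    apply Finset.sum_congr rfl
    intro χ _
    rw [hdeg χ]
    simp [Complex.sub_re, Complex.mul_re]
    ring
  have hzero := (Finset.sum_eq_zero_iff_of_nonneg (fun χ _ =>
    mul_nonneg (Nat.cast_nonneg _) (sub_nonneg.mpr (hre χ)))).mp hsum
  intro χ hχ
  have h4 := hzero χ ((hTmem χ).mpr hχ)
  have hdpos : (0 : ℝ) < (Cfsg.charDegree χ.1 : ℝ) := by
    exact_mod_cast Cfsg.Agent.H82.charDegree_pos χ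
  have h5 : ((χ : G → ℂ) g).re = (Cfsg.charDegree χ.1 : ℝ) := by
    rcases mul_eq_zero.mp h4 with h | h
    · exact absurd h hdpos.ne'
    · linarith
  have h6 : ‖(χ : G → ℂ) g‖ ≤ (Cfsg.charDegree χ.1 : ℝ) :=
    Cfsg.Agent.H82.BL.irr_norm_le_deg χ g
  have h7 : ((χ : G → ℂ) g).im = 0 := by
    have h8 : ‖(χ : G → ℂ) g‖ ^ 2 ≤ (Cfsg.charDegree χ.1 : ℝ) ^ 2 :=
      pow_le_pow_left₀ (norm_nonneg _) h6 2
    rw [Complex.sq_norm, Complex.normSq_apply, h5] at h8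
    nlinarith [sq_nonneg ((χ : G → ℂ) g).im]
  rw [hdeg χ]
  apply Complex.ext
  · rw [h5]; simp
  · rw [h7]; simp

end Cfsg.Agent.H40.Rn
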