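import Mathlib
import Cfsg.Agent.H52.SmDefs

/-! S2772 piece SM-FIN (helper52's project): a transvection outside `Q` forces `q = 3`. -/

set_option autoImplicit false

universe u

namespace Cfsg.Agent.H40.Sm

open Cfsg.Agent.H52.Sm

/-- fixed points of an element of prime order `q` (more generally `y ^ q = 1`) normalizing `V`:
`|V| ≡ |C_V(y)|` modulo `q`. -/
theorem fin_fixed {H : Type u} [Group H] [Finite H] (V : Subgroup H) (y : H) (q : ℕ)
    [Fact q.Prime] (hn : ∀ v ∈ V, y * v * y⁻¹ ∈ V) (hy : y ^ q = 1) :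
    Nat.card V ≡ Nat.card ↥(V ⊓ Subgroup.centralizer ({y} : Set H)) [MOD q] := by
  haveI : DecidableEq ↥V := Classical.decEq _
  haveI : Fintype ↥V := Fintype.ofFinite _
  obtain ⟨σ, hσ⟩ : ∃ σ : Function.End ↥V, ∀ v : ↥V, ((σ v : ↥V) : H) = y * v * y⁻¹ :=
    ⟨fun v => ⟨y * v * y⁻¹, hn v v.2⟩, fun v => rfl⟩
  have hpow : ∀ (k : ℕ) (v : ↥V), (((σ ^ k) v : ↥V) : H) = y ^ k * v * (y ^ k)⁻¹ := by
    intro k
    induction k with
    | zero =>
      intro v
      have e : (σ ^ 0) v = v := rfl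
      rw [e]
      simp
    | succ k ih =>
      intro v
      have e : (σ ^ (k + 1)) v = σ ((σ ^ k) v) := by
        rw [pow_succ']
        rfl
      rw [e, hσ, ih, pow_succ']
      group
  have hσq : σ ^ q ^ 1 = 1 := by
    rw [pow_one]
    funext v
    apply Subtype.ext
    rw [hpow, hy]
    show (1 : H) * (v : H) * 1⁻¹ = (v : H)
    simp
  have h1 := Equiv.Perm.card_fixedPoints_modEq (f := σ) (p := q) (n := 1) hσq
  rw [Fintype.card_eq_nat_card, Fintype.card_eq_nat_card] at h1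
  have h2 : Nat.card ↥(Function.fixedPoints σ) =
      Nat.card ↥(V ⊓ Subgroup.centralizer ({y} : Set H)) := by
    have e1 : ((V ⊓ Subgroup.centralizer ({y} : Set H) : Subgroup H) : Set H) =
        (Subtype.val : ↥V → H) '' (Function.fixedPoints σ) := by
      ext x
      constructor
      · intro hx
        have hxV : x ∈ V := hx.1
        have hxc : x ∈ Subgroup.centralizer ({y} : Set H) := hx.2
        refine ⟨⟨x, hxV⟩, ?_, rfl⟩
        show σ ⟨x, hxV⟩ = ⟨x, hxV⟩
        apply Subtype.ext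
        rw [hσ]
        have := Subgroup.mem_centralizer_iff.mp hxc y (Set.mem_singleton y)
        show y * x * y⁻¹ = x
        rw [this]
        group
      · rintro ⟨v, hv, rfl⟩
        have hv0 : σ v = v := hv
        have hv' := congrArg Subtype.val hv0
        rw [hσ] at hv'
        apply Subgroup.mem_inf.mpr
        refine ⟨v.2, ?_⟩
        rw [Subgroup.mem_centralizer_iff]
        intro h hh
        rw [Set.mem_singleton_iff.mp hh]
        calc y * (v : H) = y * v * y⁻¹ * y := by group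
          _ = v * y := by rw [hv']
    rw [Nat.card_coe_set_eq (Function.fixedPoints σ),
      ← Set.ncard_image_of_injective _ Subtype.val_injective, ← e1]
    exact (Nat.card_coe_set_eq _).symm
  rw [h2] at h1
  exact h1

theorem fin : StFin.{u} := by
  intro H _ _ M Q S t q hyp V a hV ha haQ hbound
  classical
  obtain ⟨hVQ, hVc, hVn, hVcent⟩ := hV
  obtain ⟨f, hfs, hfQ⟩ := hyp.dih
  have hqp := hyp.qp
  have hq2 := hyp.q2
  haveI : Fact q.Prime := ⟨hqp⟩
  haveI : NeZero q := ⟨hqp.ne_zero⟩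
  have haM : a ∈ M := hyp.SM ha
  have hcop : Nat.Coprime q 2 := (Nat.coprime_primes hqp Nat.prime_two).mpr hq2
  -- `f a` is a reflection
  obtain ⟨i, hi⟩ : ∃ i : ZMod q, f ⟨a, haM⟩ = DihedralGroup.sr i := by
    cases hfa : f ⟨a, haM⟩ with
    | r j =>
      exfalso
      obtain ⟨k, hk⟩ := hyp.S2 ⟨a, ha⟩
      have hak : (⟨a, haM⟩ : ↥M) ^ (2 ^ k) = 1 := by
        apply Subtype.ext
        have := congrArg Subtype.val hk
        simpa using this
      have h1 : (DihedralGroup.r j : DihedralGroup q) ^ (2 ^ k) = 1 := by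
        rw [← hfa, ← map_pow, hak, map_one]
      have h2 : (DihedralGroup.r j : DihedralGroup q) ^ q = 1 := by
        have e : (DihedralGroup.r j : DihedralGroup q) = (DihedralGroup.r 1) ^ j.val := by
          rw [DihedralGroup.r_one_pow, ZMod.natCast_zmod_val]
        rw [e, ← pow_mul, mul_comm, pow_mul, DihedralGroup.r_one_pow_n, one_pow]
      have h3 : orderOf (DihedralGroup.r j : DihedralGroup q) ∣ Nat.gcd (2 ^ k) q :=
        Nat.dvd_gcd (orderOf_dvd_of_pow_eq_one h1) (orderOf_dvd_of_pow_eq_one h2)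
      have h4 : Nat.gcd (2 ^ k) q = 1 := Nat.Coprime.pow_left k hcop.symm
      rw [h4, Nat.dvd_one, orderOf_eq_one_iff] at h3
      apply haQ
      exact (hfQ ⟨a, haM⟩).mp (by rw [hfa, h3])
    | sr j => exact ⟨j, rfl⟩
  obtain ⟨g, hg⟩ := hfs (DihedralGroup.r 1)
  obtain ⟨a', ha'⟩ : ∃ a' : H, a' = (g : H)⁻¹ * a * (g : H) := ⟨_, rfl⟩
  have ha'M : a' ∈ M := by
    rw [ha']
    exact M.mul_mem (M.mul_mem (M.inv_mem g.2) haM) g.2
  have hfa' : f ⟨a', ha'M⟩ = DihedralGroup.sr (i + 2) := by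
    have e : (⟨a', ha'M⟩ : ↥M) = g⁻¹ * ⟨a, haM⟩ * g := by
      apply Subtype.ext
      simp [ha']
    have e2 : (DihedralGroup.r 1 : DihedralGroup q) * DihedralGroup.sr (i + 2) =
        DihedralGroup.sr i * DihedralGroup.r 1 := by
      rw [DihedralGroup.r_mul_sr, DihedralGroup.sr_mul_r]
      congr 1
      ring
    rw [e, map_mul, map_mul, map_inv, hg, hi, mul_assoc, ← e2, inv_mul_cancel_left]
  obtain ⟨y, hy⟩ : ∃ y : H, y = a * a' := ⟨_, rfl⟩
  have hyM : y ∈ M := by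
    rw [hy]
    exact M.mul_mem haM ha'M
  have hfy : f ⟨y, hyM⟩ = (DihedralGroup.r 1) ^ 2 := by
    have e : (⟨y, hyM⟩ : ↥M) = ⟨a, haM⟩ * ⟨a', ha'M⟩ := by
      apply Subtype.ext
      simp [hy]
    rw [e, map_mul, hi, hfa', DihedralGroup.sr_mul_sr, DihedralGroup.r_one_pow]
    congr 1
    push_cast
    ring
  -- orders
  have hQ2 : IsPGroup 2 ↥Q := hyp.S2.to_le hyp.QS
  obtain ⟨jq, hjq⟩ := hQ2.exists_card_eq
  have hQM : Q ≤ M := hyp.QS.trans hyp.SM
  have hker : f.ker = Q.subgroupOf M := by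
    ext m
    rw [MonoidHom.mem_ker, Subgroup.mem_subgroupOf]
    exact hfQ m
  have hcardM : Nat.card ↥M = 2 * q * Nat.card Q := by
    have h1 := Subgroup.card_eq_card_quotient_mul_card_subgroup f.ker
    have h2 : Nat.card (↥M ⧸ f.ker) = 2 * q := by
      rw [Nat.card_congr (QuotientGroup.quotientKerEquivOfSurjective f hfs).toEquiv,
        DihedralGroup.nat_card]
    have h3 : Nat.card ↥f.ker = Nat.card Q := by
      rw [hker]
      exact Nat.card_congr (Subgroup.subgroupOfEquivOfLe hQM).toEquiv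
    rw [h2, h3] at h1
    exact h1
  obtain ⟨y', hy'⟩ : ∃ y' : H, y' = y ^ (2 * Nat.card Q) := ⟨_, rfl⟩
  have hy'M : y' ∈ M := by
    rw [hy']
    exact M.pow_mem hyM _
  have hy'q : y' ^ q = 1 := by
    have h1 : (⟨y, hyM⟩ : ↥M) ^ Nat.card ↥M = 1 := pow_card_eq_one'
    have h2 := congrArg Subtype.val h1
    rw [hcardM] at h2
    rw [hy', ← pow_mul]
    have e : 2 * Nat.card ↥Q * q = 2 * q * Nat.card ↥Q := by ring
    rw [e]
    simpa using h2
  have hy'Q : y' ∉ Q := by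
    intro hmem
    have h1 : f ⟨y', hy'M⟩ = 1 := (hfQ ⟨y', hy'M⟩).mpr hmem
    have e : (⟨y', hy'M⟩ : ↥M) = ⟨y, hyM⟩ ^ (2 * Nat.card Q) := by
      apply Subtype.ext
      simp [hy']
    rw [e, map_pow, hfy, ← pow_mul] at h1
    have h2 : orderOf (DihedralGroup.r 1 : DihedralGroup q) ∣ 2 * (2 * Nat.card ↥Q) :=
      orderOf_dvd_of_pow_eq_one h1
    rw [DihedralGroup.orderOf_r_one, hjq] at h2
    have h3 : q ∣ 2 ^ (jq + 2) := by
      have e : 2 ^ (jq + 2) = 2 * (2 * 2 ^ jq) := by ring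
      rw [e]
      exact h2
    have h4 : q ∣ 2 := hqp.dvd_of_dvd_pow h3
    exact hq2 ((Nat.prime_dvd_prime_iff_eq hqp Nat.prime_two).mp h4)
  -- centralizers in `V`
  have hrel : ∀ K : Subgroup H, K ≤ V → Nat.card K * K.relIndex V = Nat.card V := by
    intro K hK
    have h1 := Subgroup.relIndex_mul_relIndex ⊥ K V bot_le hK
    rwa [Subgroup.relIndex_bot_left, Subgroup.relIndex_bot_left] at h1
  obtain ⟨K1, hK1⟩ : ∃ K1 : Subgroup H, K1 = V ⊓ Subgroup.centralizer ({a} : Set H) := ⟨_, rfl⟩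
  obtain ⟨K2, hK2⟩ : ∃ K2 : Subgroup H, K2 = V ⊓ Subgroup.centralizer ({a'} : Set H) := ⟨_, rfl⟩
  have hK1V : K1 ≤ V := by rw [hK1]; exact inf_le_left
  have hK2V : K2 ≤ V := by rw [hK2]; exact inf_le_left
  have hb1 : Nat.card V ≤ 2 * Nat.card K1 := by rw [hK1]; exact hbound
  have hb2 : Nat.card K1 ≤ Nat.card K2 := by
    have hle : K1.map (MulAut.conj (g : H)⁻¹).toMonoidHom ≤ K2 := by
      rintro _ ⟨v, hv, rfl⟩
      rw [hK1] at hv
      have hvV : v ∈ V := hv.1
      have hvc := Subgroup.mem_centralizer_iff.mp hv.2 a (Set.mem_singleton a)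
      rw [hK2]
      apply Subgroup.mem_inf.mpr
      refine ⟨?_, ?_⟩
      · have := hVn (g : H)⁻¹ (M.inv_mem g.2) v hvV
        simpa using this
      · rw [Subgroup.mem_centralizer_iff]
        intro h hh
        rw [Set.mem_singleton_iff.mp hh, ha']
        show (g : H)⁻¹ * a * (g : H) * ((g : H)⁻¹ * v * ((g : H)⁻¹)⁻¹) =
          (g : H)⁻¹ * v * ((g : H)⁻¹)⁻¹ * ((g : H)⁻¹ * a * (g : H))
        have e1 : (g : H)⁻¹ * a * (g : H) * ((g : H)⁻¹ * v * ((g : H)⁻¹)⁻¹) =
            (g : H)⁻¹ * (a * v) * (g : H) := by group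
        have e2 : (g : H)⁻¹ * v * ((g : H)⁻¹)⁻¹ * ((g : H)⁻¹ * a * (g : H)) =
            (g : H)⁻¹ * (v * a) * (g : H) := by group
        rw [e1, e2, hvc]
    have hc : Nat.card (K1.map (MulAut.conj (g : H)⁻¹).toMonoidHom) = Nat.card K1 :=
      Subgroup.card_map_of_injective (MulAut.conj (g : H)⁻¹).injective
    rw [← hc]
    exact Subgroup.card_le_of_le hle
  have hr1 : K1.relIndex V ≤ 2 := by
    have h1 := hrel K1 hK1V
    have hpos : 0 < Nat.card K1 := Nat.card_pos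
    have h2 : Nat.card K1 * K1.relIndex V ≤ Nat.card K1 * 2 := by omega
    exact Nat.le_of_mul_le_mul_left h2 hpos
  have hr2 : K2.relIndex V ≤ 2 := by
    have h1 := hrel K2 hK2V
    have hpos : 0 < Nat.card K2 := Nat.card_pos
    have h2 : Nat.card K2 * K2.relIndex V ≤ Nat.card K2 * 2 := by omega
    exact Nat.le_of_mul_le_mul_left h2 hpos
  have hr12 : (K1 ⊓ K2).relIndex V ≤ 4 := by
    have h1 := Subgroup.relIndex_inf_le (H := K1) (K := K2) (L := V)
    have h2 : K1.relIndex V * K2.relIndex V ≤ 2 * 2 := Nat.mul_le_mul hr1 hr2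
    omega
  obtain ⟨C, hC⟩ : ∃ C : Subgroup H, C = V ⊓ Subgroup.centralizer ({y'} : Set H) := ⟨_, rfl⟩
  have hCV : C ≤ V := by rw [hC]; exact inf_le_left
  have h12C : K1 ⊓ K2 ≤ C := by
    intro v hv
    have hv1 : v ∈ K1 := hv.1
    have hv2 : v ∈ K2 := hv.2
    rw [hK1] at hv1
    rw [hK2] at hv2
    have c1 := Subgroup.mem_centralizer_iff.mp hv1.2 a (Set.mem_singleton a)
    have c2 := Subgroup.mem_centralizer_iff.mp hv2.2 a' (Set.mem_singleton a')
    rw [hC]
    apply Subgroup.mem_inf.mpr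
    refine ⟨hv1.1, ?_⟩
    rw [Subgroup.mem_centralizer_iff]
    intro h hh
    rw [Set.mem_singleton_iff.mp hh, hy']
    have cy : Commute y v := by
      show y * v = v * y
      rw [hy, mul_assoc, c2, ← mul_assoc, c1, mul_assoc]
    exact (cy.pow_left _)
  have hV4 : Nat.card V ≤ 4 * Nat.card C := by
    have h1 := hrel (K1 ⊓ K2) (inf_le_left.trans hK1V)
    have h2 : Nat.card ↥(K1 ⊓ K2) ≤ Nat.card C := Subgroup.card_le_of_le h12C
    calc Nat.card V = Nat.card ↥(K1 ⊓ K2) * (K1 ⊓ K2).relIndex V := h1.symm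
      _ ≤ Nat.card C * 4 := Nat.mul_le_mul h2 hr12
      _ = 4 * Nat.card C := by ring
  have hCne : Nat.card C < Nat.card V := by
    by_contra hge
    push Not at hge
    have heq : C = V := Subgroup.eq_of_le_of_card_ge hCV hge
    apply hy'Q
    apply hVcent y' hy'M
    intro v hv
    rw [← heq, hC] at hv
    exact Subgroup.mem_centralizer_iff.mp hv.2 y' (Set.mem_singleton y')
  have hmod := fin_fixed V y' q (fun v hv => hVn y' hy'M v hv) hy'q
  rw [← hC] at hmod
  -- arithmetic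
  have hV2 : IsPGroup 2 ↥V := hQ2.to_le hVQ
  have hC2 : IsPGroup 2 ↥C := hV2.to_le hCV
  obtain ⟨n, hn⟩ := hV2.exists_card_eq
  obtain ⟨m, hm⟩ := hC2.exists_card_eq
  rw [hn, hm] at hmod hCne hV4
  have hmn : m < n := (Nat.pow_lt_pow_iff_right (by norm_num : 1 < 2)).mp hCne
  have hnm : n ≤ m + 2 := by
    have h1 : 2 ^ n ≤ 2 ^ (m + 2) := by
      have e : 2 ^ (m + 2) = 4 * 2 ^ m := by ring
      rw [e]
      exact hV4
    exact (Nat.pow_le_pow_iff_right (by norm_num : 1 < 2)).mp h1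
  have hdvd : q ∣ 2 ^ n - 2 ^ m := (Nat.modEq_iff_dvd' hCne.le).mp hmod.symm
  have hq2m : ∀ k : ℕ, ¬ q ∣ 2 ^ k := by
    intro k hk
    exact hq2 ((Nat.prime_dvd_prime_iff_eq hqp Nat.prime_two).mp (hqp.dvd_of_dvd_pow hk))
  rcases (by omega : n = m + 1 ∨ n = m + 2) with h1 | h1
  · exfalso
    rw [h1] at hdvd
    have e : 2 ^ (m + 1) - 2 ^ m = 2 ^ m := by
      rw [pow_succ]
      omega
    rw [e] at hdvd
    exact hq2m m hdvd
  · rw [h1] at hdvd
    have e : 2 ^ (m + 2) - 2 ^ m = 2 ^ m * 3 := by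
      have e' : 2 ^ (m + 2) = 2 ^ m * 4 := by ring
      rw [e']
      omega
    rw [e] at hdvd
    have h3 : q ∣ 3 := (Nat.Coprime.dvd_mul_left (Nat.Coprime.pow_right m hcop)).mp hdvd
    exact (Nat.prime_dvd_prime_iff_eq hqp Nat.prime_three).mp h3

example : StFin.{u} := fin

end Cfsg.Agent.H40.Sm
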