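import Mathlib
import Cfsg.Agent.H52.SmDefs

/-! S2772 piece SM-J (helper52's project): some abelian subgroup of `S` of largest order is
not contained in `Q` (else the join of all of them is normalized by `M` and `t`). -/

set_option autoImplicit false

universe u

namespace Cfsg.Agent.H40.Sm

open Cfsg.Agent.H52.Sm

/-- conjugation carries a largest abelian subgroup of `S` to one, when the image stays in `S`. -/
theorem j_conj_maxAb {H : Type u} [Group H] [Finite H] (S A : Subgroup H) (g : H)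
    (hA : MaxAb S A) (hle : ∀ a ∈ A, g * a * g⁻¹ ∈ S) :
    MaxAb S (A.map (MulAut.conj g).toMonoidHom) := by
  obtain ⟨hAS, hab, hmax⟩ := hA
  refine ⟨?_, ?_, ?_⟩
  · rintro _ ⟨a, ha, rfl⟩
    exact hle a ha
  · rintro _ ⟨a, ha, rfl⟩ _ ⟨b, hb, rfl⟩
    rw [← map_mul, ← map_mul, hab a ha b hb]
  · intro B hB hBab
    have hc : Nat.card (A.map (MulAut.conj g).toMonoidHom) = Nat.card A :=
      Subgroup.card_map_of_injective (MulAut.conj g).injective
    rw [hc]
    exact hmax B hB hBab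

theorem j : StJ.{u} := by
  intro H _ _ M Q S t q hyp
  by_contra hcon
  push Not at hcon
  obtain ⟨A0, hA0⟩ : ∃ A, MaxAb S A := by
    haveI : Nonempty {B : Subgroup H // B ≤ S ∧ ∀ a ∈ B, ∀ b ∈ B, a * b = b * a} :=
      ⟨⟨⊥, bot_le, by
        intro a ha b hb
        rw [Subgroup.mem_bot] at ha hb
        rw [ha, hb]⟩⟩
    obtain ⟨A, hA⟩ := Finite.exists_max
      (fun B : {B : Subgroup H // B ≤ S ∧ ∀ a ∈ B, ∀ b ∈ B, a * b = b * a} => Nat.card B.1)
    exact ⟨A.1, A.2.1, A.2.2, fun B hB hBab => hA ⟨B, hB, hBab⟩⟩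
  obtain ⟨J, hJ⟩ : ∃ J : Subgroup H, J = sSup {A | MaxAb S A} := ⟨_, rfl⟩
  have hJS : J ≤ S := by
    rw [hJ]
    exact sSup_le (fun A hA => hA.1)
  have hinv : ∀ g : H, (∀ A, MaxAb S A → ∀ a ∈ A, g * a * g⁻¹ ∈ S) →
      ∀ x ∈ J, g * x * g⁻¹ ∈ J := by
    intro g hg x hx
    have hle : J ≤ J.comap (MulAut.conj g).toMonoidHom := by
      rw [hJ]
      apply sSup_le
      intro A hA
      rw [← Subgroup.map_le_iff_le_comap]
      exact le_sSup (j_conj_maxAb S A g hA (hg A hA))
    exact hle hx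
  have hJbot : J = ⊥ := by
    apply hyp.star J hJS
    · intro m hm a ha
      exact hinv m (fun A hA a ha => hyp.QS (hyp.Qn m hm a (hcon A hA ha))) a ha
    · intro a ha
      exact hinv t (fun A hA a ha => hyp.tS a (hA.1 ha)) a ha
  have hA0bot : A0 = ⊥ := by
    have hle : A0 ≤ J := by
      rw [hJ]
      exact le_sSup hA0
    rw [hJbot] at hle
    exact le_bot_iff.mp hle
  have hScard : 2 ≤ Nat.card S := by
    have h1 := hyp.card
    have hQ : 0 < Nat.card Q := Nat.card_pos
    omega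
  obtain ⟨s, hs, hs1⟩ : ∃ s ∈ S, s ≠ 1 := by
    by_contra hc
    push Not at hc
    have hSbot : S = ⊥ := by
      rw [eq_bot_iff]
      intro x hx
      rw [Subgroup.mem_bot]
      exact hc x hx
    rw [hSbot, Subgroup.card_bot] at hScard
    omega
  have h1 := hA0.2.2 (Subgroup.zpowers s) (by rw [Subgroup.zpowers_le]; exact hs)
    (by
      intro a ha b hb
      obtain ⟨i, rfl⟩ := Subgroup.mem_zpowers_iff.mp ha
      obtain ⟨k, rfl⟩ := Subgroup.mem_zpowers_iff.mp hb
      exact zpow_mul_comm s i k)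
  rw [hA0bot, Subgroup.card_bot, Nat.card_zpowers] at h1
  have h2 : orderOf s ≠ 1 := fun h => hs1 (orderOf_eq_one_iff.mp h)
  have h3 : 0 < orderOf s := orderOf_pos s
  omega

example : StJ.{u} := j

end Cfsg.Agent.H40.Sm
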