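import Cfsg.Agent.S0617
import Cfsg.Agent.H14.TFail
import Cfsg.Agent.H52.SnDefs

/-!
# SN-GL (piece of S2942): odd-order elements of `J(X)` commute modulo `C_X(V)`

Transport to the holomorph of `V` (helper14's `Holo`), apply the structure theorem S0617 to the
image of `J(X)`, and then the abstract statement `StGLA` on groups generated by independent
normal copies of `SL(2,2)`.
-/

set_option autoImplicit false
open Cfsg
open scoped commutatorElement Pointwise

universe u

namespace Cfsg.Agent.H40.Sn

open Cfsg.Agent.H52.Sn Cfsg.Agent.H14.Holo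

theorem gl (h : StGLA.{u}) : StGL.{u} := by
  intro X _ _ V _ hV hsep hO' x hx y hy hxo hyo
  haveI : Fact (Nat.Prime 2) := ⟨Nat.prime_two⟩
  haveI hJn := thompsonSubgroup_normal 2 X
  have hV' := Vh_elemAb V hV
  have hHV : (thompsonSubgroup 2 X).map (psi V) ≤
      Subgroup.normalizer ((Vh V : Subgroup (Hol V)) : Set (Hol V)) := by
    haveI := Vh_normal V
    rw [Subgroup.normalizer_eq_top]
    exact le_top
  have hHR : (thompsonSubgroup 2 X).map (psi V) ≤ (psi V).range := by
    rintro _ ⟨j, -, rfl⟩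
    exact ⟨j, rfl⟩
  have hf : (thompsonSubgroup 2 X).map (psi V) ⊓
      Subgroup.centralizer ((Vh V : Subgroup (Hol V)) : Set (Hol V)) = ⊥ := by
    rw [eq_bot_iff, ← range_faithful V]
    exact inf_le_inf_right _ hHR
  have hnorm : (psi V).range ≤
      Subgroup.normalizer (((thompsonSubgroup 2 X).map (psi V) : Subgroup (Hol V)) :
        Set (Hol V)) := by
    rintro _ ⟨g, rfl⟩
    rw [Subgroup.mem_normalizer_iff]
    intro h
    constructor
    · rintro ⟨j, hj, rfl⟩
      refine ⟨g * j * g⁻¹, hJn.conj_mem j hj g, ?_⟩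
      simp
    · rintro ⟨j, hj, hjh⟩
      refine ⟨g⁻¹ * j * g, ?_, ?_⟩
      · have := hJn.conj_mem j hj g⁻¹
        simpa using this
      · rw [map_mul, map_mul, hjh, map_inv]
        group
  have hS1 := hS1_of_normal (p := 2) (psi V).range ((thompsonSubgroup 2 X).map (psi V)) hHR hnorm
    (range_isPSolvable V hsep) (range_pCore_eq_bot V hO')
  have hS3 : (thompsonSubgroup 2 X).map (psi V) = ⨆ A : {A : Subgroup (Hol V) //
      A ≤ (thompsonSubgroup 2 X).map (psi V) ∧ IsBestOffenderOn 2 (Vh V) A},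
        (A : Subgroup (Hol V)) := by
    apply le_antisymm
    · conv_lhs => unfold Cfsg.thompsonSubgroup
      rw [Subgroup.map_le_iff_le_comap]
      apply sSup_le
      intro A hA
      rw [← Subgroup.map_le_iff_le_comap]
      exact le_iSup (fun A : {A : Subgroup (Hol V) //
        A ≤ (thompsonSubgroup 2 X).map (psi V) ∧ IsBestOffenderOn 2 (Vh V) A} =>
          (A : Subgroup (Hol V)))
        ⟨A.map (psi V), Subgroup.map_mono (le_sSup hA), bestOffender_map V hV hA⟩
    · exact iSup_le fun A => A.2.1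
  rw [← psi_ker, MonoidHom.mem_ker]
  by_cases hH1 : (thompsonSubgroup 2 X).map (psi V) = ⊥
  · have h1 : ∀ j ∈ thompsonSubgroup 2 X, psi V j = 1 := by
      intro j hj
      have : psi V j ∈ (thompsonSubgroup 2 X).map (psi V) := Subgroup.mem_map_of_mem _ hj
      rw [hH1, Subgroup.mem_bot] at this
      exact this
    rw [map_mul, map_mul, map_mul, map_inv, map_inv, h1 x hx, h1 y hy]
    simp
  · obtain ⟨-, hE, hind, hsup, -, -⟩ := Cfsg.Agent.S0617.result (Vh V)
      ((thompsonSubgroup 2 X).map (psi V)) hV' hHV hf hS1 hS3 hH1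
    have hox : Odd (orderOf (psi V x)) := Odd.of_dvd_nat hxo (orderOf_map_dvd (psi V) x)
    have hoy : Odd (orderOf (psi V y)) := Odd.of_dvd_nat hyo (orderOf_map_dvd (psi V) y)
    have hcomm := h _ ((thompsonSubgroup 2 X).map (psi V)) (fun E => (hE E).1)
      (fun E => (hE E).2.1) hind hsup (psi V x) (Subgroup.mem_map_of_mem _ hx)
      (psi V y) (Subgroup.mem_map_of_mem _ hy) hox hoy
    rw [map_mul, map_mul, map_mul, map_inv, map_inv, hcomm]
    group

example (h : StGLA.{u}) : StGL.{u} := gl h

end Cfsg.Agent.H40.Sn
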