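import Mathlib
import Cfsg.Agent.H77.TpDefs

/-!
helper40: S5980-INVMODEL (team project of helper77).  Symplectic involutions in the tensor
product subgroup with fixed space of dimension `a j`.
-/

set_option autoImplicit false
open scoped MatrixGroups
open scoped Matrix
open scoped Kronecker

namespace Cfsg.Agent.H40.Tp

open Cfsg.Agent.H77.Tp Cfsg.Agent.H77.Fx

universe u

theorem finrank_vec_im {F : Type u} [Field F] {d : ℕ} :
    Module.finrank F (Vec d F) = 2 * d := by
  rw [Module.finrank_fintype_fun_eq_card, Fintype.card_sum, Fintype.card_fin]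
  ring

/-- Rank and fixed space. -/
theorem rank_add_fix_im {F : Type u} [Field F] {d : ℕ} (x : Mat d F) :
    (x - 1).rank + Module.finrank F ↥(fixSp d x) = 2 * d := by
  have h1 := LinearMap.finrank_range_add_finrank_ker (Matrix.toLin' x - 1)
  rw [finrank_vec_im] at h1
  have h2 : (x - 1).rank = Module.finrank F ↥(LinearMap.range (Matrix.toLin' x - 1)) := by
    have h3 : (x - 1).mulVecLin = Matrix.toLin' x - 1 := by
      rw [← Matrix.toLin'_apply', map_sub, Matrix.toLin'_one]
      rfl
    unfold Matrix.rank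
    rw [h3]
  rw [h2]
  exact h1

theorem invModel (hLift : StLift.{u}) (hOrthInv : StOrthInv.{u}) (hTri : StTri.{u}) :
    StInvModel.{u} := by
  intro F _ d a b e P f₁ f₂ hT h2 ha hb j hj
  obtain ⟨D, hDD, hDG, hDr⟩ := hOrthInv F b f₂ h2 hT.orth j hj
  have hDu : IsUnit D.det := by
    have h := congrArg Matrix.det hDD
    rw [Matrix.det_mul, Matrix.det_one] at h
    exact IsUnit.of_mul_eq_one _ h
  have h1u : IsUnit (1 : Matrix (Fin a) (Fin a) F).det := by
    rw [Matrix.det_one]; exact isUnit_one
  obtain ⟨y, hy1, hy2, hy3⟩ := hLift F d a b e P f₁ f₂ hT 1 D h1u hDu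
    (by rw [Matrix.transpose_one, Matrix.one_mul, Matrix.mul_one]) hDG
  obtain ⟨-, -, h3, -, -, h6, -, -⟩ := hTri F d a b e (y : Mat d F) (P : Mat d F) 1 D ha hb
    (Matrix.isUnits_det_units P) h1u hDu hy3
  refine ⟨y, hy1, hy2, ?_, ?_⟩
  · have h := h3 2 1 (by
      rw [pow_two, ← Matrix.mul_kronecker_mul, Matrix.one_mul, hDD, Matrix.one_kronecker_one,
        one_smul])
    rw [pow_two, one_smul] at h
    exact h
  · obtain ⟨h7, -⟩ := h6 1 (by rw [one_smul])
    rw [one_smul, hDr] at h7
    have h8 := rank_add_fix_im (y : Mat d F)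
    have h9 : 2 * d = a * b := by
      have := Fintype.card_congr e
      rw [Fintype.card_sum, Fintype.card_prod, Fintype.card_fin, Fintype.card_fin,
        Fintype.card_fin] at this
      omega
    rw [h7, h9] at h8
    have h10 : a * b = a * (b - j) + a * j := by
      rw [← Nat.mul_add, Nat.sub_add_cancel hj]
    omega

example : Cfsg.Agent.H77.Tp.StLift.{u} → Cfsg.Agent.H77.Tp.StOrthInv.{u} →
    Cfsg.Agent.H77.Tp.StTri.{u} → Cfsg.Agent.H77.Tp.StInvModel.{u} := invModel

end Cfsg.Agent.H40.Tp

#print axioms Cfsg.Agent.H40.Tp.invModel
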