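import Mathlib
import Cfsg.Agent.H77.TpDefs

/-!
helper40: S5980-LIFT (team project of helper77).  Isometries `A` of `f₁` and `B` of `f₂` give a
symplectic element of the tensor product subgroup.
-/

set_option autoImplicit false
open scoped MatrixGroups
open scoped Matrix
open scoped Kronecker

namespace Cfsg.Agent.H40.Tp

open Cfsg.Agent.H77.Tp Cfsg.Agent.H77.Fx

universe u

theorem formOfGram_eq {F : Type u} [Field F] {κ : Type} [Fintype κ] (G : Matrix κ κ F)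
    (x y : κ → F) : Cfsg.Geo.formOfGram id G x y = x ⬝ᵥ (G *ᵥ y) := by
  unfold Cfsg.Geo.formOfGram
  simp only [dotProduct, Matrix.mulVec, id]
  refine Finset.sum_congr rfl fun i _ => ?_
  rw [Finset.mul_sum]
  refine Finset.sum_congr rfl fun j _ => ?_
  ring

theorem formOfGram_mulVec {F : Type u} [Field F] {κ : Type} [Fintype κ] [DecidableEq κ]
    (G K : Matrix κ κ F) (hK : Kᵀ * G * K = G) (x y : κ → F) :
    Cfsg.Geo.formOfGram id G (K *ᵥ x) (K *ᵥ y) = Cfsg.Geo.formOfGram id G x y := by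
  rw [formOfGram_eq, formOfGram_eq]
  have h1 : K *ᵥ x = x ᵥ* Kᵀ := by rw [Matrix.vecMul_transpose]
  rw [h1, ← Matrix.dotProduct_mulVec, Matrix.mulVec_mulVec, Matrix.mulVec_mulVec, hK]

theorem reindex_mulVec {F : Type u} [Field F] {d a b : ℕ}
    (e : (Fin d ⊕ Fin d) ≃ Fin a × Fin b) (K : Matrix (Fin a × Fin b) (Fin a × Fin b) F)
    (u : Fin a × Fin b → F) :
    Matrix.reindex e.symm e.symm K *ᵥ (u ∘ e) = (K *ᵥ u) ∘ e := by
  funext i
  simp only [Matrix.mulVec, dotProduct, Matrix.reindex_apply, Matrix.submatrix_apply,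
    Function.comp_apply, Equiv.symm_symm]
  exact Fintype.sum_equiv e _ _ (fun j => rfl)

theorem lift : StLift.{u} := by
  intro F _ d a b e P f₁ f₂ hT A B hA hB hA1 hB1
  obtain ⟨c, hc, hS⟩ := hT.ten
  obtain ⟨Au, rfl⟩ := (Matrix.isUnit_iff_isUnit_det A).mpr hA
  obtain ⟨Bu, rfl⟩ := (Matrix.isUnit_iff_isUnit_det B).mpr hB
  obtain ⟨k, hk⟩ : ∃ k : GL (Fin a × Fin b) F, (k : Matrix (Fin a × Fin b) (Fin a × Fin b) F)
      = (Au : Matrix (Fin a) (Fin a) F) ⊗ₖ (Bu : Matrix (Fin b) (Fin b) F) := by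
    refine ⟨⟨(Au : Matrix (Fin a) (Fin a) F) ⊗ₖ (Bu : Matrix (Fin b) (Fin b) F),
      ((Au⁻¹ : GL (Fin a) F) : Matrix (Fin a) (Fin a) F) ⊗ₖ
        ((Bu⁻¹ : GL (Fin b) F) : Matrix (Fin b) (Fin b) F), ?_, ?_⟩, rfl⟩
    · rw [← Matrix.mul_kronecker_mul, ← Units.val_mul, ← Units.val_mul, mul_inv_cancel,
        mul_inv_cancel, Units.val_one, Units.val_one, Matrix.one_kronecker_one]
    · rw [← Matrix.mul_kronecker_mul, ← Units.val_mul, ← Units.val_mul, inv_mul_cancel,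
        inv_mul_cancel, Units.val_one, Units.val_one, Matrix.one_kronecker_one]
  have hkmem : k ∈ Cfsg.Geo.kroneckerSubgroup a b F := ⟨Au, Bu, hk⟩
  have hRk : ((Cfsg.Geo.glReindex (F := F) e.symm k : GL (Fin d ⊕ Fin d) F) : Mat d F)
      = Matrix.reindex e.symm e.symm (k : Matrix (Fin a × Fin b) (Fin a × Fin b) F) := rfl
  have hKK : ((Au : Matrix (Fin a) (Fin a) F) ⊗ₖ (Bu : Matrix (Fin b) (Fin b) F))ᵀ *
      (Cfsg.Geo.gramMatrix f₁ ⊗ₖ Cfsg.Geo.gramMatrix f₂) *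
      ((Au : Matrix (Fin a) (Fin a) F) ⊗ₖ (Bu : Matrix (Fin b) (Fin b) F)) =
      Cfsg.Geo.gramMatrix f₁ ⊗ₖ Cfsg.Geo.gramMatrix f₂ := by
    rw [← Matrix.kroneckerMap_transpose, ← Matrix.mul_kronecker_mul, ← Matrix.mul_kronecker_mul,
      hA1, hB1]
  refine ⟨P * Cfsg.Geo.glReindex (F := F) e.symm k * P⁻¹, ?_, ?_, ?_⟩
  · intro u v
    show Cfsg.sympForm d F
      (((P * Cfsg.Geo.glReindex (F := F) e.symm k * P⁻¹ : GL (Fin d ⊕ Fin d) F) : Mat d F) *ᵥ u)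
      (((P * Cfsg.Geo.glReindex (F := F) e.symm k * P⁻¹ : GL (Fin d ⊕ Fin d) F) : Mat d F) *ᵥ v)
      = Cfsg.sympForm d F u v
    have key : ∀ w : Vec d F,
        ((P * Cfsg.Geo.glReindex (F := F) e.symm k * P⁻¹ : GL (Fin d ⊕ Fin d) F) : Mat d F) *ᵥ w
        = (P : Mat d F) *ᵥ
          ((((Au : Matrix (Fin a) (Fin a) F) ⊗ₖ (Bu : Matrix (Fin b) (Fin b) F)) *ᵥ
            ((((P⁻¹ : GL (Fin d ⊕ Fin d) F) : Mat d F) *ᵥ w) ∘ e.symm)) ∘ e) := by
      intro w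
      rw [Units.val_mul, Units.val_mul, hRk, hk, ← reindex_mulVec, Matrix.mulVec_mulVec]
      have : ((((P⁻¹ : GL (Fin d ⊕ Fin d) F) : Mat d F) *ᵥ w) ∘ e.symm) ∘ e
          = ((P⁻¹ : GL (Fin d ⊕ Fin d) F) : Mat d F) *ᵥ w := by
        funext i
        simp
      rw [this, Matrix.mulVec_mulVec]
    have self : ∀ w : Vec d F, w = (P : Mat d F) *ᵥ
        (((((P⁻¹ : GL (Fin d ⊕ Fin d) F) : Mat d F) *ᵥ w) ∘ e.symm) ∘ e) := by
      intro w
      have : ((((P⁻¹ : GL (Fin d ⊕ Fin d) F) : Mat d F) *ᵥ w) ∘ e.symm) ∘ e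
          = ((P⁻¹ : GL (Fin d ⊕ Fin d) F) : Mat d F) *ᵥ w := by
        funext i
        simp
      rw [this, Matrix.mulVec_mulVec, ← Units.val_mul, mul_inv_cancel, Units.val_one,
        Matrix.one_mulVec]
    rw [key u, key v, hS, formOfGram_mulVec _ _ hKK, ← hS, ← self u, ← self v]
  · unfold Cfsg.Geo.tensorProductSubgroup
    exact Subgroup.mem_map.mpr ⟨Cfsg.Geo.glReindex (F := F) e.symm k,
      Subgroup.mem_map.mpr ⟨k, hkmem, rfl⟩, rfl⟩
  · rw [← Units.val_mul, inv_mul_cancel_right, Units.val_mul, hRk, hk]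

example : Cfsg.Agent.H77.Tp.StLift.{u} := lift

end Cfsg.Agent.H40.Tp

#print axioms Cfsg.Agent.H40.Tp.lift
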