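import Mathlib
import Cfsg.Agent.H77.TqDefs

/-!
# S5978-RANK2 (helper40, for helper77)

An isometry of odd order commuting with a self-adjoint field `K` of degree two and with
`rank (y - 1) ≤ 2` is the identity.
-/

set_option autoImplicit false
open scoped MatrixGroups
open scoped Matrix

namespace Cfsg.Agent.H40.Tq

open Cfsg.Agent.H77.Tq Module

universe u

theorem rankTwo_aux {F : Type u} [Field F] {ι : Type} [Fintype ι] [DecidableEq ι]
    (B : (ι → F) →ₗ[F] (ι → F) →ₗ[F] F)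
    (hsymm : ∀ u v, B u v = B v u)
    (hnd : ∀ u, (∀ v, B u v = 0) → u = 0)
    (K : Subalgebra F (Matrix ι ι F)) (h2 : (2 : F) ≠ 0) (hfld : Cfsg.Geo.IsFieldSubalgebra 2 K)
    (hadj : ∀ k ∈ K, ∀ u v, B (k *ᵥ u) v = B u (k *ᵥ v))
    (Y Yi : Matrix ι ι F) (hYi : Y * Yi = 1)
    (hiso : ∀ u v, B (Y *ᵥ u) (Y *ᵥ v) = B u v)
    (hcomm : ∀ a ∈ K, Y * a = a * Y) (r : ℕ) (hr : Odd r) (hYr : Y ^ r = 1)
    (hrank : (Y - 1).rank ≤ 2) : Y = 1 := by
  classical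
  by_contra hne
  have hN : ∀ x, (Y - 1) *ᵥ x = Y *ᵥ x - x := fun x => by
    rw [Matrix.sub_mulVec, Matrix.one_mulVec]
  obtain ⟨u, hu⟩ : ∃ u, Y *ᵥ u - u ≠ 0 := by
    by_contra hcon
    push Not at hcon
    apply hne
    apply Matrix.mulVec_injective
    funext v
    rw [Matrix.one_mulVec]
    exact sub_eq_zero.mp (hcon v)
  obtain ⟨w, hw⟩ : ∃ w, w = Y *ᵥ u - u := ⟨_, rfl⟩
  rw [← hw] at hu
  -- the injective linear map `k ↦ k w`
  let f : K →ₗ[F] (ι → F) :=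
    { toFun := fun k => (k : Matrix ι ι F) *ᵥ w
      map_add' := fun k k' => by simp [Matrix.add_mulVec]
      map_smul' := fun c k => by simp [Matrix.smul_mulVec] }
  have hfapp : ∀ k : K, f k = (k : Matrix ι ι F) *ᵥ w := fun _ => rfl
  have hfinj : Function.Injective f := by
    rw [← LinearMap.ker_eq_bot, LinearMap.ker_eq_bot']
    intro k hk
    by_contra hk0
    obtain ⟨k', hk'K, hk'⟩ := hfld.inv k k.2 (fun h => hk0 (Subtype.ext h))
    have e : (k' * (k : Matrix ι ι F)) *ᵥ w = 0 := by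
      rw [← Matrix.mulVec_mulVec, ← hfapp, hk, Matrix.mulVec_zero]
    rw [← hfld.comm k k.2 k' hk'K, hk', Matrix.one_mulVec] at e
    exact hu e
  have hfW : LinearMap.range f ≤ LinearMap.range (Y - 1).mulVecLin := by
    rintro _ ⟨k, rfl⟩
    refine ⟨(k : Matrix ι ι F) *ᵥ u, ?_⟩
    show (Y - 1) *ᵥ ((k : Matrix ι ι F) *ᵥ u) = (k : Matrix ι ι F) *ᵥ w
    rw [hN, hw, Matrix.mulVec_sub, Matrix.mulVec_mulVec, Matrix.mulVec_mulVec, hcomm k k.2]
  have hfeq : LinearMap.range f = LinearMap.range (Y - 1).mulVecLin := by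
    apply Submodule.eq_of_le_of_finrank_le hfW
    rw [LinearMap.finrank_range_of_inj hfinj, hfld.finrank_eq]
    exact hrank
  have hW : ∀ x, ∃ k ∈ K, Y *ᵥ x - x = k *ᵥ w := by
    intro x
    have hx : (Y - 1) *ᵥ x ∈ LinearMap.range f := by
      rw [hfeq]; exact ⟨x, rfl⟩
    obtain ⟨k, hk⟩ := hx
    exact ⟨k, k.2, by rw [← hN]; exact hk.symm⟩
  -- `Y w = a w`
  obtain ⟨a₀, ha₀K, ha₀⟩ := hW w
  obtain ⟨a, ha⟩ : ∃ a, a = a₀ + 1 := ⟨_, rfl⟩
  have haK : a ∈ K := by rw [ha]; exact K.add_mem ha₀K K.one_mem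
  have haw : Y *ᵥ w = a *ᵥ w := by
    rw [ha, Matrix.add_mulVec, Matrix.one_mulVec, ← ha₀]; abel
  have hYk : ∀ k ∈ K, Y *ᵥ (k *ᵥ w) = a *ᵥ (k *ᵥ w) := by
    intro k hk
    rw [Matrix.mulVec_mulVec, hcomm k hk, ← Matrix.mulVec_mulVec, haw, Matrix.mulVec_mulVec,
      Matrix.mulVec_mulVec, hfld.comm k hk a haK]
  have hpow : ∀ j : ℕ, (Y ^ j) *ᵥ w = (a ^ j) *ᵥ w := by
    intro j
    induction j with
    | zero => simp
    | succ j ih =>
      have hc : Y ^ j * a = a * Y ^ j := (Commute.pow_left (hcomm a haK) j).eq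
      rw [pow_succ, ← Matrix.mulVec_mulVec, haw, Matrix.mulVec_mulVec, hc,
        ← Matrix.mulVec_mulVec, ih, Matrix.mulVec_mulVec, ← pow_succ']
  have har : a ^ r = 1 := by
    have h1 := hpow r
    rw [hYr, Matrix.one_mulVec] at h1
    have h3 : f ⟨a ^ r, K.pow_mem haK r⟩ = f 1 := by
      show a ^ r *ᵥ w = (1 : Matrix ι ι F) *ᵥ w
      rw [← h1, Matrix.one_mulVec]
    exact congrArg Subtype.val (hfinj h3)
  by_cases ha1 : a = 1
  · -- unipotent case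
    have hfix : ∀ k ∈ K, Y *ᵥ (k *ᵥ w) = k *ᵥ w := by
      intro k hk; rw [hYk k hk, ha1, Matrix.one_mulVec]
    have h1 : ∀ x z, Y *ᵥ z = z → B (Y *ᵥ x - x) z = 0 := by
      intro x z hz
      rw [map_sub, LinearMap.sub_apply]
      nth_rewrite 1 [← hz]
      rw [hiso, sub_self]
    have h2' : ∀ v, Y *ᵥ (Y *ᵥ v - v) = Y *ᵥ v - v := by
      intro v
      obtain ⟨k, hk, e⟩ := hW v
      rw [e, hfix k hk]
    have h3 : ∀ x v, B (Y *ᵥ x - x) v = - B x (Y *ᵥ v - v) := by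
      intro x v
      have e := h1 x (Y *ᵥ v - v) (h2' v)
      simp only [map_sub, LinearMap.sub_apply] at e ⊢
      rw [hiso] at e
      linear_combination (-1 : F) * e
    have h4 : ∀ k ∈ K, B w (k *ᵥ u) = 0 := by
      intro k hk
      have e1 := h3 u (k *ᵥ u)
      have e2 : Y *ᵥ (k *ᵥ u) - k *ᵥ u = k *ᵥ w := by
        rw [hw, Matrix.mulVec_sub, Matrix.mulVec_mulVec, Matrix.mulVec_mulVec, hcomm k hk]
      rw [e2, ← hw, ← hadj k hk u w, hsymm (k *ᵥ u) w] at e1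
      have e3 : (2 : F) * B w (k *ᵥ u) = 0 := by linear_combination e1
      rcases mul_eq_zero.mp e3 with h | h
      · exact absurd h h2
      · exact h
    apply hu
    apply hnd
    intro v
    obtain ⟨k, hk, e⟩ := hW v
    have e1 := h3 u v
    rw [e, ← hw, ← hadj k hk u w, hsymm (k *ᵥ u) w, h4 k hk, neg_zero] at e1
    exact e1
  · -- semisimple case
    have haa : a * a ≠ 1 := by
      intro h
      apply ha1
      obtain ⟨j, rfl⟩ := hr
      have e : a ^ (2 * j + 1) = a := by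
        rw [pow_succ, pow_mul, pow_two, h, one_pow, one_mul]
      rw [← e, har]
    have hK1 : a - 1 ∈ K := K.sub_mem haK K.one_mem
    have hK2 : a * a - 1 ∈ K := K.sub_mem (K.mul_mem haK haK) K.one_mem
    obtain ⟨d, hdK, hd⟩ := hfld.inv (a - 1) hK1 (sub_ne_zero.mpr ha1)
    obtain ⟨c, hcK, hc⟩ := hfld.inv (a * a - 1) hK2 (sub_ne_zero.mpr haa)
    have h1 : ∀ k₁ ∈ K, ∀ k₂ ∈ K, B (k₁ *ᵥ w) (k₂ *ᵥ w) = 0 := by
      intro k₁ hk₁ k₂ hk₂
      have key : ∀ k ∈ K, B ((a * a - 1) *ᵥ (k *ᵥ w)) (k₂ *ᵥ w) = 0 := by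
        intro k hk
        have e := hiso (k *ᵥ w) (k₂ *ᵥ w)
        rw [hYk k hk, hYk k₂ hk₂, ← hadj a haK (a *ᵥ (k *ᵥ w)) (k₂ *ᵥ w)] at e
        rw [Matrix.sub_mulVec, Matrix.one_mulVec, map_sub, LinearMap.sub_apply,
          ← Matrix.mulVec_mulVec, e, sub_self]
      have e0 : (a * a - 1) *ᵥ ((c * k₁) *ᵥ w) = k₁ *ᵥ w := by
        rw [Matrix.mulVec_mulVec, ← mul_assoc, hc, one_mul]
      have e := key (c * k₁) (K.mul_mem hcK hk₁)
      rw [e0] at e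
      exact e
    apply hu
    apply hnd
    intro v
    rw [hsymm]
    obtain ⟨x, hx⟩ : ∃ x, Y *ᵥ x = v := ⟨Yi *ᵥ v, by
      rw [Matrix.mulVec_mulVec, hYi, Matrix.one_mulVec]⟩
    obtain ⟨k', hk', e'⟩ := hW x
    have e2 : B (Y *ᵥ x - x) (d *ᵥ w) = 0 := by rw [e']; exact h1 k' hk' d hdK
    have e3 : B x (d *ᵥ w) = B (Y *ᵥ x) (a *ᵥ (d *ᵥ w)) := by
      rw [← hYk d hdK, hiso]
    have e4 : (a - 1) *ᵥ (d *ᵥ w) = w := by
      rw [Matrix.mulVec_mulVec, hd, Matrix.one_mulVec]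
    have e4' : a *ᵥ (d *ᵥ w) - d *ᵥ w = w := by
      have e6 := e4
      rwa [Matrix.sub_mulVec, Matrix.one_mulVec] at e6
    have e5 : B (Y *ᵥ x) w = B (Y *ᵥ x) (a *ᵥ (d *ᵥ w)) - B (Y *ᵥ x) (d *ᵥ w) := by
      rw [← map_sub, e4']
    rw [map_sub, LinearMap.sub_apply] at e2
    rw [← hx, e5, ← e3]
    linear_combination (-1 : F) * e2

theorem rankTwo : StRankTwo.{u} := by
  intro F _ _ ι _ _ Q K hKO y r hy hcomm hr hyr hrank
  classical
  have hY : (y : Matrix ι ι F) = 1 := by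
    refine rankTwo_aux (QuadraticMap.polarBilin Q) ?_ ?_ K hKO.two hKO.fld ?_ (y : Matrix ι ι F)
      ((y⁻¹ : GL ι F) : Matrix ι ι F) ?_ ?_ hcomm r hr ?_ hrank
    · intro u v
      exact QuadraticMap.polar_comm _ _ _
    · exact hKO.nondeg.1
    · exact hKO.adj
    · rw [← Units.val_mul, mul_inv_cancel, Units.val_one]
    · intro u v
      have h1 : ∀ x, Q ((y : Matrix ι ι F) *ᵥ x) = Q x := fun x => hy x x
      show QuadraticMap.polar (⇑Q) _ _ = QuadraticMap.polar (⇑Q) _ _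
      simp only [QuadraticMap.polar]
      rw [← Matrix.mulVec_add, h1, h1, h1]
    · rw [← Units.val_pow_eq_pow_val, hyr, Units.val_one]
  exact Units.ext hY

example : StRankTwo.{u} := rankTwo

end Cfsg.Agent.H40.Tq

#print axioms Cfsg.Agent.H40.Tq.rankTwo
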