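import Cfsg.Agent.S0617
import Cfsg.Agent.H14.TFail
import Cfsg.Agent.H74.TsDefs

/-!
# TS-D (piece of S2948): a subgroup `D ⊇ C_X(V)` of index 3 from Glauberman's theorem

Transport to the holomorph of `V` (helper14's `Holo`), S0617 for the image `H` of `J(X)`: a copy
`E` of `SL(2,2)` normalized by `H`; `D̄ := {e ∈ E | e³ = 1}` has order 3, is normalized by `H`
and is not central in `E`; `D := ψ⁻¹(D̄)`.
-/

set_option autoImplicit false
open Cfsg
open scoped commutatorElement Pointwise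

universe u

namespace Cfsg.Agent.H40.Ts

open Cfsg.Agent.H74.Ts Cfsg.Agent.H14.Holo

theorem d_sl_mul : ∀ A B : Matrix.SpecialLinearGroup (Fin 2) (ZMod 2),
    A ^ 3 = 1 → B ^ 3 = 1 → (A * B) ^ 3 = 1 := by decide

theorem d_sl_card :
    Fintype.card {A : Matrix.SpecialLinearGroup (Fin 2) (ZMod 2) // A ^ 3 = 1} = 3 := by decide

theorem d_sl_nc : ∃ A B : Matrix.SpecialLinearGroup (Fin 2) (ZMod 2),
    A ^ 3 = 1 ∧ A * B * A⁻¹ * B⁻¹ ≠ 1 := by decide

/-- In a copy `E` of `SL(2,2)`, the elements with `e³ = 1` form a subgroup of order 3 which is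
not central in `E`. -/
theorem d_three {Y : Type u} [Group Y] (E : Subgroup Y)
    (φ : ↥E ≃* Matrix.SpecialLinearGroup (Fin 2) (ZMod 2)) :
    ∃ D : Subgroup Y, (∀ y, y ∈ D ↔ y ∈ E ∧ y ^ 3 = 1) ∧ Nat.card ↥D = 3 ∧
      ∃ d ∈ D, ∃ e ∈ E, d * e * d⁻¹ * e⁻¹ ≠ 1 := by
  obtain ⟨A3, hA3⟩ : ∃ A3 : Subgroup (Matrix.SpecialLinearGroup (Fin 2) (ZMod 2)),
      ∀ A, A ∈ A3 ↔ A ^ 3 = 1 :=
    ⟨{ carrier := {A | A ^ 3 = 1}
       one_mem' := one_pow 3
       mul_mem' := fun {a b} ha hb => d_sl_mul a b ha hb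
       inv_mem' := fun {a} ha => by
         show a⁻¹ ^ 3 = 1
         rw [inv_pow, show a ^ 3 = 1 from ha, inv_one] }, fun A => Iff.rfl⟩
  have hmem : ∀ y, y ∈ (A3.comap φ.toMonoidHom).map E.subtype ↔ y ∈ E ∧ y ^ 3 = 1 := by
    intro y
    constructor
    · rintro ⟨e, he, rfl⟩
      refine ⟨e.2, ?_⟩
      have h1 : (φ e) ^ 3 = 1 := (hA3 _).mp he
      rw [← map_pow] at h1
      have h2 : e ^ 3 = 1 := φ.injective (h1.trans (map_one φ).symm)
      have := congrArg Subtype.val h2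
      simpa using this
    · rintro ⟨hy, hy3⟩
      refine ⟨⟨y, hy⟩, ?_, rfl⟩
      show φ ⟨y, hy⟩ ∈ A3
      rw [hA3, ← map_pow]
      have : (⟨y, hy⟩ : ↥E) ^ 3 = 1 := Subtype.ext (by simpa using hy3)
      rw [this, map_one]
  refine ⟨_, hmem, ?_, ?_⟩
  · rw [Nat.card_congr (Subgroup.equivMapOfInjective _ E.subtype E.subtype_injective).symm.toEquiv]
    have e1 : ↥(A3.comap φ.toMonoidHom) ≃
        {A : Matrix.SpecialLinearGroup (Fin 2) (ZMod 2) // A ^ 3 = 1} :=
      { toFun := fun e => ⟨φ e.1, (hA3 _).mp e.2⟩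
        invFun := fun a => ⟨φ.symm a.1, by
          show φ (φ.symm a.1) ∈ A3
          rw [φ.apply_symm_apply]
          exact (hA3 _).mpr a.2⟩
        left_inv := fun e => Subtype.ext (φ.symm_apply_apply e.1)
        right_inv := fun a => Subtype.ext (φ.apply_symm_apply a.1) }
    rw [Nat.card_congr e1, Nat.card_eq_fintype_card, d_sl_card]
  · obtain ⟨A, B, hA, hAB⟩ := d_sl_nc
    refine ⟨(φ.symm A : Y), (hmem _).mpr ⟨(φ.symm A).2, ?_⟩, (φ.symm B : Y), (φ.symm B).2, ?_⟩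
    · have h1 : (φ.symm A) ^ 3 = 1 := by rw [← map_pow, hA, map_one]
      have := congrArg Subtype.val h1
      simpa using this
    · intro h
      apply hAB
      have h1 : φ.symm A * φ.symm B * (φ.symm A)⁻¹ * (φ.symm B)⁻¹ = 1 :=
        Subtype.ext (by simpa using h)
      have h2 := congrArg φ h1
      simpa using h2

theorem d : StD.{u} := by
  intro X _ _ V _ hV hsep hO' hJC
  haveI : Fact (Nat.Prime 2) := ⟨Nat.prime_two⟩
  haveI hJn := thompsonSubgroup_normal 2 X
  have hV' := Vh_elemAb V hV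
  have hHV : (thompsonSubgroup 2 X).map (psi V) ≤
      Subgroup.normalizer ((Vh V : Subgroup (Hol V)) : Set (Hol V)) := by
    haveI := Vh_normal V
    rw [Subgroup.normalizer_eq_top]
    exact le_top
  have hHR : (thompsonSubgroup 2 X).map (psi V) ≤ (psi V).range := by
    rintro _ ⟨j, -, rfl⟩
    exact ⟨j, rfl⟩
  have hf : (thompsonSubgroup 2 X).map (psi V) ⊓
      Subgroup.centralizer ((Vh V : Subgroup (Hol V)) : Set (Hol V)) = ⊥ := by
    rw [eq_bot_iff, ← range_faithful V]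
    exact inf_le_inf_right _ hHR
  have hnorm : (psi V).range ≤
      Subgroup.normalizer (((thompsonSubgroup 2 X).map (psi V) : Subgroup (Hol V)) :
        Set (Hol V)) := by
    rintro _ ⟨g, rfl⟩
    rw [Subgroup.mem_normalizer_iff]
    intro h
    constructor
    · rintro ⟨j, hj, rfl⟩
      refine ⟨g * j * g⁻¹, hJn.conj_mem j hj g, ?_⟩
      simp
    · rintro ⟨j, hj, hjh⟩
      refine ⟨g⁻¹ * j * g, ?_, ?_⟩
      · have := hJn.conj_mem j hj g⁻¹
        simpa using this
      · rw [map_mul, map_mul, hjh, map_inv]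
        group
  have hS1 := hS1_of_normal (p := 2) (psi V).range ((thompsonSubgroup 2 X).map (psi V)) hHR hnorm
    (range_isPSolvable V hsep) (range_pCore_eq_bot V hO')
  have hS3 : (thompsonSubgroup 2 X).map (psi V) = ⨆ A : {A : Subgroup (Hol V) //
      A ≤ (thompsonSubgroup 2 X).map (psi V) ∧ IsBestOffenderOn 2 (Vh V) A},
        (A : Subgroup (Hol V)) := by
    apply le_antisymm
    · conv_lhs => unfold Cfsg.thompsonSubgroup
      rw [Subgroup.map_le_iff_le_comap]
      apply sSup_le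
      intro A hA
      rw [← Subgroup.map_le_iff_le_comap]
      exact le_iSup (fun A : {A : Subgroup (Hol V) //
        A ≤ (thompsonSubgroup 2 X).map (psi V) ∧ IsBestOffenderOn 2 (Vh V) A} =>
          (A : Subgroup (Hol V)))
        ⟨A.map (psi V), Subgroup.map_mono (le_sSup hA), bestOffender_map V hV hA⟩
    · exact iSup_le fun A => A.2.1
  have hH1 : (thompsonSubgroup 2 X).map (psi V) ≠ ⊥ := by
    intro h
    apply hJC
    rw [← psi_ker]
    intro j hj
    rw [MonoidHom.mem_ker]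
    have : psi V j ∈ (thompsonSubgroup 2 X).map (psi V) := Subgroup.mem_map_of_mem _ hj
    rw [h, Subgroup.mem_bot] at this
    exact this
  obtain ⟨-, E₀, hE₀H, hHE₀, ⟨iso⟩⟩ := weak_of_concl (Vh V) _ hH1
    (Cfsg.Agent.S0617.result (Vh V) ((thompsonSubgroup 2 X).map (psi V)) hV' hHV hf hS1 hS3 hH1)
  obtain ⟨Db, hDmem, hDcard, d0, hd0, e0, he0, hne⟩ := d_three E₀ iso
  have hDbE : Db ≤ E₀ := fun y hy => ((hDmem y).mp hy).1
  have hHDb : (thompsonSubgroup 2 X).map (psi V) ≤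
      Subgroup.normalizer ((Db : Subgroup (Hol V)) : Set (Hol V)) := by
    intro h hh
    have hhE := Subgroup.mem_normalizer_iff.mp (hHE₀ hh)
    rw [Subgroup.mem_normalizer_iff]
    intro n
    rw [hDmem, hDmem, conj_pow]
    constructor
    · rintro ⟨hn, hn3⟩
      refine ⟨(hhE n).mp hn, ?_⟩
      rw [hn3, mul_one, mul_inv_cancel]
    · rintro ⟨hn, hn3⟩
      refine ⟨(hhE n).mpr hn, ?_⟩
      have h1 : n ^ 3 = h⁻¹ * (h * n ^ 3 * h⁻¹) * h := by group
      rw [h1, hn3, mul_one, inv_mul_cancel]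
  refine ⟨Db.comap (psi V), ?_, ?_, ?_, ?_⟩
  · intro c hc
    rw [Subgroup.mem_comap]
    have : c ∈ (psi V).ker := by rw [psi_ker]; exact hc
    rw [MonoidHom.mem_ker.mp this]
    exact Db.one_mem
  · have h1 := Subgroup.relIndex_ker (Db.comap (psi V)) (psi V)
    rw [psi_ker, Subgroup.map_comap_eq, inf_eq_right.mpr ((hDbE.trans hE₀H).trans hHR)] at h1
    rw [h1, hDcard]
  · intro j hj
    exact Subgroup.le_normalizer_comap (psi V) (hHDb (Subgroup.mem_map_of_mem _ hj))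
  · intro hle
    obtain ⟨d', hd', hd'e⟩ := hE₀H (hDbE hd0)
    obtain ⟨j, hj, hje⟩ := hE₀H he0
    have hd'D : d' ∈ Db.comap (psi V) := by
      rw [Subgroup.mem_comap, hd'e]
      exact hd0
    have h1 : ⁅d', j⁆ ∈ (psi V).ker := by
      rw [psi_ker]
      exact hle (Subgroup.commutator_mem_commutator hd'D hj)
    rw [MonoidHom.mem_ker, commutatorElement_def, map_mul, map_mul, map_mul, map_inv, map_inv,
      hd'e, hje] at h1
    exact hne h1

example : StD.{u} := d

end Cfsg.Agent.H40.Ts
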