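import Mathlib
import Cfsg.Agent.H77.UfDefs3

/-! S2149 piece UF-REL (helper77's project): the matrix relations among the generators of the
subgroup `3·A₇` of `SU₃(5)`. -/

set_option autoImplicit false

namespace Cfsg.Agent.H40.Uf

open Matrix Cfsg.Agent.H77.Uf

theorem rel_R4_pow : R4 ^ 4 = 1 := by decide +kernel

theorem rel_R4_sq : R4 ^ 2 ≠ 1 := by decide +kernel

theorem rel_S2_sq : S2 ^ 2 = 1 := by decide +kernel

theorem rel_S2_R4 : S2 * R4 = R4 ^ 3 * S2 := by decide +kernel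

theorem rel_D3_pow : D3 ^ 3 = 1 := by decide +kernel

theorem rel_P3_pow : P3 ^ 3 = 1 := by decide +kernel

theorem rel_P3_D3 : P3 * D3 = D3 * Z1m * P3 := by decide +kernel

theorem rel_Z1m_ne : Z1m ≠ 1 := by decide +kernel

theorem rel_Z1m_eq : Z1m = (⟨2, 2⟩ : F25) • (1 : Matrix (Fin 3) (Fin 3) F25) := by
  decide +kernel

theorem rel_Z1m_comm (M : Matrix (Fin 3) (Fin 3) F25) : Z1m * M = M * Z1m := by
  rw [rel_Z1m_eq, smul_mul_assoc, mul_smul_comm, one_mul, mul_one]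

theorem rel_A5_pow : A5 ^ 5 = 1 := by decide +kernel

theorem rel_A5_ne : A5 ≠ 1 := by decide +kernel

theorem rel_A7m_pow : A7m ^ 7 = 1 := by decide +kernel

theorem rel_A7m_ne : A7m ≠ 1 := by decide +kernel

theorem rel : StRel :=
  ⟨rel_R4_pow, rel_R4_sq, rel_S2_sq, rel_S2_R4, rel_D3_pow, rel_P3_pow, rel_P3_D3, rel_Z1m_ne,
    rel_Z1m_comm, rel_A5_pow, rel_A5_ne, rel_A7m_pow, rel_A7m_ne⟩

example : StRel := rel

end Cfsg.Agent.H40.Uf
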