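import Mathlib
import Cfsg.Agent.H77.UfDefs3
import Cfsg.Agent.H40.UfRel

/-! S2149 piece UF-PRES (helper77's project): the seven generator matrices preserve the list
`Yl` of 105 points (table certificates checked by the kernel). -/

set_option autoImplicit false

namespace Cfsg.Agent.H40.Uf

open Matrix Cfsg.Agent.H77.Uf

theorem pres_Yl_length : Yl.length = 105 := by decide +kernel

/-- a table certificate gives `Pres`. -/
theorem pres_of_presT (M : Matrix (Fin 3) (Fin 3) F25) (t : List (ℕ × F25)) (h : PresT M t) :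
    Pres M := by
  intro v hv
  obtain ⟨i, hi, rfl⟩ := List.mem_iff_getElem.mp hv
  have hi' : i < 105 := by rw [← pres_Yl_length]; exact hi
  obtain ⟨h1, h2⟩ := h ⟨i, hi'⟩
  have hj : (t.getD i (0, 0)).1 < Yl.length := by rw [pres_Yl_length]; exact h1
  refine ⟨Yl.getD (t.getD i (0, 0)).1 0, ?_, (t.getD i (0, 0)).2, ?_⟩
  · rw [List.getD_eq_getElem _ _ hj]
    exact List.getElem_mem hj
  · have e : Yl.getD i 0 = Yl[i] := List.getD_eq_getElem _ _ hi
    have h2' : M *ᵥ Yl.getD i 0 =
        (t.getD i (0, 0)).2 • Yl.getD (t.getD i (0, 0)).1 0 := h2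
    rw [e] at h2'
    exact h2'

theorem presT_R4 : PresT R4 tR4 := by decide +kernel

theorem presT_S2 : PresT S2 tS2 := by decide +kernel

theorem presT_D3 : PresT D3 tD3 := by decide +kernel

theorem presT_P3 : PresT P3 tP3 := by decide +kernel

theorem presT_A5 : PresT A5 tA5 := by decide +kernel

theorem presT_A7m : PresT A7m tA7m := by decide +kernel

theorem pres_Z1m : Pres Z1m := by
  intro v hv
  refine ⟨v, hv, (⟨2, 2⟩ : F25), ?_⟩
  rw [rel_Z1m_eq, Matrix.smul_mulVec, Matrix.one_mulVec]

theorem presAll : StPresAll :=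
  ⟨pres_of_presT _ _ presT_R4, pres_of_presT _ _ presT_S2, pres_of_presT _ _ presT_D3,
    pres_of_presT _ _ presT_P3, pres_of_presT _ _ presT_A5, pres_of_presT _ _ presT_A7m,
    pres_Z1m⟩

example : StPresAll := presAll

end Cfsg.Agent.H40.Uf
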