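import Cfsg.Agent.H58.UqDefs
import Cfsg.Agent.H52.SoAsm
import Cfsg.Agent.H14.SnGL
import Cfsg.Agent.H89.SnGLA
import Cfsg.Agent.H5.SnRed
import Cfsg.Agent.H91.SnFinA
import Cfsg.Agent.H63.SnIfSyl
import Cfsg.Agent.H63.SnIfV
import Cfsg.Agent.H63.SnIfZ
import Cfsg.Agent.H71.SnIfS
import Cfsg.Agent.H71.SnIfK
import Cfsg.Agent.H80.SnIfN
import Cfsg.Agent.H25.SoNC
import Cfsg.Agent.H36.SoWid

/-!
Team project S2950 (UQ), piece UQ-SIF: the interface from the abstract statement SABS (inside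
`X = ↥L`, `V = Ω₁Z(O₂(L))`) to the statement S.
-/

set_option autoImplicit false
open Cfsg

namespace Cfsg.Agent.H40.Uq

open Cfsg.Agent.H58.Uq

universe u

/-- An element of `↥L` normalizing `A` normalizes the image of `A` in `G`. -/
theorem sif_norm_map {G : Type u} [Group G] (L : Subgroup G) (A : Subgroup ↥L) (y : ↥L)
    (hy : y ∈ Subgroup.normalizer (A : Set ↥L)) :
    (y : G) ∈ Subgroup.normalizer ((A.map L.subtype : Subgroup G) : Set G) := by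
  rw [Subgroup.mem_normalizer_iff]
  intro h
  constructor
  · rintro ⟨a, ha, rfl⟩
    exact ⟨y * a * y⁻¹, (Subgroup.mem_normalizer_iff.mp hy a).mp ha, rfl⟩
  · rintro ⟨a, ha, hae⟩
    refine ⟨y⁻¹ * a * y, ?_, ?_⟩
    · have h1 := (Subgroup.mem_normalizer_iff.mp hy (y⁻¹ * a * y)).mpr
      apply h1
      have e : y * (y⁻¹ * a * y) * y⁻¹ = a := by group
      rw [e]
      exact ha
    · have h2 : (L.subtype a : G) = (y : G) * h * (y : G)⁻¹ := hae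
      show ((y⁻¹ * a * y : ↥L) : G) = h
      push_cast
      have h3 : ((a : ↥L) : G) = (y : G) * h * (y : G)⁻¹ := h2
      rw [h3]
      group

/-- UQ-SIF. -/
theorem sB (h : StSAbs.{u}) : StS.{u} := by
  intro G _ _ hZN T hT hT1 L hLT K hKc hKL _ l hl
  obtain ⟨hL, hNsol, hZ⟩ := hZN
  have F1 := Cfsg.Agent.H52.Sn.facts (Cfsg.Agent.H14.Sn.gl Cfsg.Agent.H89.Sn.gla)
    Cfsg.Agent.H5.Sn.red Cfsg.Agent.H63.Sn.ifSyl Cfsg.Agent.H63.Sn.ifV Cfsg.Agent.H63.Sn.ifZ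
    Cfsg.Agent.H71.Sn.ifS Cfsg.Agent.H71.Sn.ifK Cfsg.Agent.H80.Sn.ifN
    hL hNsol hZ T hT hT1 L hLT K hKc hKL
  have hO1 := (Cfsg.Agent.H91.Sn.finA _ _ _ _ _ _ _ F1.hT F1.hTi F1.hC F1.hQ F1.hM F1.hTC F1.hJM
    F1.hcomm F1.hKgen F1.hKJ F1.hOK F1.hO).1
  have hnc1 := Cfsg.Agent.H25.So.nc _ _ _ _ _ _ _ F1
  have hw1 := Cfsg.Agent.H36.So.wid T L K _ hKc hKL F1 hO1 hnc1
  obtain ⟨hT2, hTi, hJT, hJM⟩ := Cfsg.Agent.H63.Sn.ifSyl T L hLT.1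
  obtain ⟨hVn, hVel, hQV⟩ := Cfsg.Agent.H63.Sn.ifV L
  have hCT := Cfsg.Agent.H63.Sn.ifZ hZ T L hLT
  have hPS := Cfsg.Agent.H71.Sn.ifS hNsol T L hT1 hLT
  obtain ⟨hred1, hred2⟩ := Cfsg.Agent.H5.Sn.red (T.subgroupOf L)
    ((omegaCenterOf (pCoreOf 2 L)).subgroupOf L) hT2 hTi hQV hCT
  have hc1 : Nat.card ↥⁅(omegaCenterOf (pCoreOf 2 L)).subgroupOf L, K.subgroupOf L⁆ = 4 := by
    rw [← hKc.2.2.2.2.1, ← hw1]
    exact Nat.card_congr (Subgroup.equivMapOfInjective _ _ (Subgroup.subtype_injective L)).toEquiv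
  have hMn := F1.hM
  have hKM : K.subgroupOf L ≤ thompsonSubgroup 2 ↥L := by
    rw [← F1.hKJ]
    rw [Subgroup.commutator_le]
    intro k _ j hj
    have hjM := F1.hJM hj
    have h1 : k * j * k⁻¹ ∈ thompsonSubgroup 2 ↥L := hMn.conj_mem j hjM k
    rw [commutatorElement_def]
    exact (thompsonSubgroup 2 ↥L).mul_mem h1 ((thompsonSubgroup 2 ↥L).inv_mem hjM)
  have hJN := h ((omegaCenterOf (pCoreOf 2 L)).subgroupOf L) hVel hPS hred1 (K.subgroupOf L)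
    ((pCoreOf 2 K).subgroupOf L) hKM F1.hOK (hO1.trans F1.hQC) F1.hO3 hc1
  rintro _ ⟨j, hj, rfl⟩
  have hjT : j ∈ T := by
    obtain ⟨x, _, rfl⟩ := hj
    exact x.2
  have hjL : j ∈ L := hLT.1.1 hjT
  have hjM : (⟨j, hjL⟩ : ↥L) ∈ thompsonSubgroup 2 ↥L := hJM hj
  have hconj : (⟨l, hl⟩ : ↥L) * ⟨j, hjL⟩ * (⟨l, hl⟩ : ↥L)⁻¹ ∈ thompsonSubgroup 2 ↥L :=
    hMn.conj_mem _ hjM _
  have h3 := sif_norm_map L _ _ (hJN hconj)
  rw [hw1] at h3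
  exact h3

example : (StSAbs.{u} → StS.{u}) := sB

end Cfsg.Agent.H40.Uq
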