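import Cfsg.Agent.H72.ZasFrobDefs

/-!
# S3359 piece OD: elements of odd order lie in `D · C_G(D)` (from OD1 and OD2)
-/

set_option autoImplicit false

namespace Cfsg.Agent.H40.Zas

open Cfsg.Agent.H72.Zas

universe u

/-- an element all of whose prime-power-order powers lie in a subgroup lies in it. -/
theorem mem_of_primary {G : Type u} [Group G] (K : Subgroup G)
    (hK : ∀ (p : ℕ) (x : G), p.Prime → (∃ k : ℕ, orderOf x = p ^ k) → Odd (orderOf x) → x ∈ K) :
    ∀ (n : ℕ) (g : G), orderOf g = n → Odd n → g ∈ K := by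
  intro n
  induction n using Nat.strong_induction_on with
  | _ n ih =>
    intro g hg hodd
    by_cases h1 : n = 1
    · rw [h1] at hg
      rw [orderOf_eq_one_iff.mp hg]
      exact K.one_mem
    have hn0 : n ≠ 0 := by
      rintro rfl
      exact absurd hodd (by decide)
    have hp : (n.minFac).Prime := Nat.minFac_prime h1
    obtain ⟨p, hpdef⟩ : ∃ p, p = n.minFac := ⟨_, rfl⟩
    rw [← hpdef] at hp
    have hpn : p ∣ n := hpdef ▸ Nat.minFac_dvd n
    obtain ⟨a, ha⟩ : ∃ a, a = p ^ n.factorization p := ⟨_, rfl⟩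
    obtain ⟨b, hb⟩ : ∃ b, b = n / p ^ n.factorization p := ⟨_, rfl⟩
    have hab : a * b = n := by rw [ha, hb]; exact Nat.ordProj_mul_ordCompl_eq_self n p
    have hcop : Nat.Coprime a b := by
      rw [ha, hb]
      exact (Nat.coprime_ordCompl hp hn0).pow_left _
    have hfac : 0 < n.factorization p := hp.factorization_pos_of_dvd hn0 hpn
    have ha2 : 2 ≤ a := by
      rw [ha]
      calc 2 ≤ p := hp.two_le
        _ = p ^ 1 := (pow_one p).symm
        _ ≤ p ^ n.factorization p := Nat.pow_le_pow_right hp.pos hfac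
    have hb0 : b ≠ 0 := by
      rintro rfl
      rw [mul_zero] at hab
      exact hn0 hab.symm
    by_cases hb1 : b = 1
    · -- prime power order
      have hna : n = a := by rw [← hab, hb1, mul_one]
      apply hK p g hp ⟨n.factorization p, ?_⟩ (hg ▸ hodd)
      rw [hg, ← ha]
      exact hna
    · have hb2 : 2 ≤ b := by omega
      have hoa : orderOf (g ^ a) = b := by
        rw [orderOf_pow' g (by omega : a ≠ 0), hg, ← hab, Nat.gcd_mul_right_left,
          Nat.mul_div_cancel_left _ (by omega : 0 < a)]
      have hob : orderOf (g ^ b) = a := by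
        rw [orderOf_pow' g hb0, hg, ← hab, Nat.gcd_mul_left_left,
          Nat.mul_div_cancel _ (by omega : 0 < b)]
      have hbn : b < n := by nlinarith
      have han : a < n := by nlinarith
      have hoddb : Odd b := Odd.of_dvd_nat hodd ⟨a, by rw [← hab, mul_comm]⟩
      have hodda : Odd a := Odd.of_dvd_nat hodd ⟨b, hab.symm⟩
      have m1 : g ^ a ∈ K := ih b hbn (g ^ a) hoa hoddb
      have m2 : g ^ b ∈ K := ih a han (g ^ b) hob hodda
      have hbez : (a : ℤ) * Nat.gcdA a b + (b : ℤ) * Nat.gcdB a b = 1 := by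
        have := Nat.gcd_eq_gcd_ab a b
        rw [hcop.gcd_eq_one] at this
        exact_mod_cast this.symm
      have hgg : g = (g ^ a) ^ (Nat.gcdA a b) * (g ^ b) ^ (Nat.gcdB a b) := by
        rw [← zpow_natCast g a, ← zpow_natCast g b, ← zpow_mul, ← zpow_mul, ← zpow_add, hbez,
          zpow_one]
      rw [hgg]
      exact K.mul_mem (K.zpow_mem m1 _) (K.zpow_mem m2 _)

theorem stOd (h1 : StOd1.{u}) (h2 : StOd2.{u}) : StOd.{u} := by
  intro G _ _ hax D hDn hperf hcard g hodd
  have key : g ∈ D ⊔ Subgroup.centralizer (D : Set G) := by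
    apply mem_of_primary (D ⊔ Subgroup.centralizer (D : Set G)) ?_ (orderOf g) g rfl hodd
    intro p x hp hx hxodd
    by_cases h35 : p = 3 ∨ p = 5
    · exact Subgroup.mem_sup_left (h1 G hax D hDn hperf hcard p x h35 hx)
    · apply Subgroup.mem_sup_right
      by_cases hx1 : x = 1
      · rw [hx1]; exact Subgroup.one_mem _
      have hp2 : p ≠ 2 := by
        rintro rfl
        obtain ⟨k, hk⟩ := hx
        rw [hk] at hxodd
        rcases k with _ | k
        · rw [pow_zero] at hk
          exact hx1 (orderOf_eq_one_iff.mp hk)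
        · rw [pow_succ] at hxodd
          exact absurd hxodd (by simp)
      have hp7 : 7 ≤ p := by
        have := hp.two_le
        push Not at h35
        by_contra hlt
        have hp46 : p = 4 ∨ p = 6 := by omega
        rcases hp46 with rfl | rfl
        · exact absurd hp (by norm_num)
        · exact absurd hp (by norm_num)
      rw [Subgroup.mem_centralizer_iff]
      intro d hd
      exact (h2 G hax D hDn hperf hcard p x hp hp7 hx d hd).symm
  have hset : g ∈ ((D ⊔ Subgroup.centralizer (D : Set G) : Subgroup G) : Set G) := key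
  rw [Subgroup.normal_mul] at hset
  obtain ⟨d, hd, c, hc, hdc⟩ := Set.mem_mul.mp hset
  refine ⟨d, hd, c, ?_, hdc.symm⟩
  intro x hx
  exact ((Subgroup.mem_centralizer_iff.mp hc) x hx).symm

end Cfsg.Agent.H40.Zas
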