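import Cfsg.Agent.H72.ZasFrobDefs

/-!
# S3359 piece OD2: `p`-elements for primes `p ≥ 7` centralize `D`
-/

set_option autoImplicit false

namespace Cfsg.Agent.H40.Zas

open Cfsg.Agent.H72.Zas
open scoped Pointwise

universe u

/-- a `p`-element normalizing a subgroup with few non-fixed elements centralizes it. -/
theorem fix_of_small {G : Type u} [Group G] [Finite G] (g : G) (p k : ℕ) (hp : p.Prime)
    (hg : orderOf g = p ^ k) (R : Subgroup G) (hR : ∀ r ∈ R, g * r * g⁻¹ ∈ R)
    (F : Finset G) (hF : ∀ f ∈ F, f ∈ R ∧ g * f = f * g) (hcard : Nat.card R < F.card + p) :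
    ∀ r ∈ R, g * r = r * g := by
  classical
  intro r hr
  by_contra hne
  obtain ⟨c, hc⟩ : ∃ c : G → G, c = fun x => g * x * g⁻¹ := ⟨_, rfl⟩
  have hiter : ∀ n x, c^[n] x = g ^ n * x * (g ^ n)⁻¹ := by
    intro n
    induction n with
    | zero => intro x; simp
    | succ n ih =>
      intro x
      rw [Function.iterate_succ_apply', ih, hc, pow_succ']
      group
  have hper : Function.IsPeriodicPt c (p ^ k) r := by
    show c^[p ^ k] r = r
    rw [hiter, ← hg, pow_orderOf_eq_one]
    simp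
  obtain ⟨m, hm⟩ : ∃ m, m = Function.minimalPeriod c r := ⟨_, rfl⟩
  have hmdvd : m ∣ p ^ k := hm ▸ hper.minimalPeriod_dvd
  have hm1 : m ≠ 1 := by
    intro h1
    rw [hm] at h1
    have hfix : Function.IsFixedPt c r := Function.minimalPeriod_eq_one_iff_isFixedPt.mp h1
    apply hne
    have h2 : g * r * g⁻¹ = r := by
      have := hfix
      rw [Function.IsFixedPt, hc] at this
      exact this
    calc g * r = g * r * g⁻¹ * g := by group
      _ = r * g := by rw [h2]
  have hpm : p ≤ m := by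
    obtain ⟨j, -, hmj⟩ := (Nat.dvd_prime_pow hp).mp hmdvd
    rcases j with _ | j
    · rw [pow_zero] at hmj; exact absurd hmj hm1
    · rw [hmj, pow_succ]; exact Nat.le_mul_of_pos_left _ (pow_pos hp.pos j)
  have hcR : ∀ i, c^[i] r ∈ R := by
    intro i
    induction i with
    | zero => simpa using hr
    | succ i ih =>
      have h := hR _ ih
      rw [Function.iterate_succ_apply']
      rw [hc] at h ⊢
      exact h
  have hcF : ∀ f ∈ F, ∀ i, c^[i] f = f := by
    intro f hf i
    apply Function.iterate_fixed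
    rw [hc]
    show g * f * g⁻¹ = f
    rw [(hF f hf).2]
    group
  obtain ⟨S, hS⟩ : ∃ S : Finset G, S = Finset.image (fun i => c^[i] r) (Finset.range m) :=
    ⟨_, rfl⟩
  have hScard : S.card = m := by
    rw [hS, Finset.card_image_of_injOn, Finset.card_range]
    intro i hi j hj hij
    rw [hm] at hi hj
    exact Function.iterate_injOn_Iio_minimalPeriod (by simpa using hi) (by simpa using hj) hij
  have hdisj : Disjoint S F := by
    rw [Finset.disjoint_left]
    intro y hyS hyF
    rw [hS] at hyS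
    obtain ⟨i, hi, rfl⟩ := Finset.mem_image.mp hyS
    rw [Finset.mem_range] at hi
    have h1 : c^[m - i] (c^[i] r) = r := by
      rw [← Function.iterate_add_apply, Nat.sub_add_cancel hi.le, hm]
      exact Function.isPeriodicPt_minimalPeriod c r
    have h2 : c^[m - i] (c^[i] r) = c^[i] r := hcF _ hyF _
    rw [h1] at h2
    apply hne
    rw [h2]
    exact (hF _ hyF).2
  have hsub : ((S ∪ F : Finset G) : Set G) ⊆ (R : Set G) := by
    intro y hy
    rw [Finset.mem_coe, Finset.mem_union] at hy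
    rcases hy with hy | hy
    · rw [hS] at hy
      obtain ⟨i, -, rfl⟩ := Finset.mem_image.mp hy
      exact hcR i
    · exact (hF y hy).1
  have hle : (S ∪ F).card ≤ Nat.card R := by
    have h1 := Set.ncard_le_ncard hsub (Set.toFinite _)
    rw [Set.ncard_coe_finset] at h1
    exact h1
  rw [Finset.card_union_of_disjoint hdisj, hScard] at hle
  omega

theorem not_dvd_120 {p : ℕ} (hp : p.Prime) (h7 : 7 ≤ p) : ¬ p ∣ 120 := by
  intro h
  have h1 : p ∣ 8 * 15 := by norm_num; exact h
  rcases (Nat.Prime.dvd_mul hp).mp h1 with h8 | h15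
  · have h8' : p ∣ 2 ^ 3 := by norm_num; exact h8
    have := Nat.le_of_dvd (by norm_num) (hp.dvd_of_dvd_pow h8')
    omega
  · have h15' : p ∣ 3 * 5 := by norm_num; exact h15
    rcases (Nat.Prime.dvd_mul hp).mp h15' with h | h
    · have := Nat.le_of_dvd (by norm_num) h
      omega
    · have := Nat.le_of_dvd (by norm_num) h
      omega

theorem exists_sylow_fixed {G : Type u} [Group G] [Finite G] (D : Subgroup G) [D.Normal]
    (hcard : Nat.card D = 120) (p : ℕ) (g : G) (hp : p.Prime) (h7 : 7 ≤ p) (k : ℕ)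
    (hk : orderOf g = p ^ k) (q : ℕ) [Fact q.Prime] :
    ∃ R : Sylow q D, ∀ r ∈ (R : Subgroup D).map D.subtype,
      g * r * g⁻¹ ∈ (R : Subgroup D).map D.subtype := by
  have : Fact p.Prime := ⟨hp⟩
  have hZ : IsPGroup p (Subgroup.zpowers (ConjAct.toConjAct g)) := by
    apply IsPGroup.of_card (n := k)
    rw [Nat.card_zpowers, MulEquiv.orderOf_eq]
    exact hk
  have hnd : ¬ p ∣ Nat.card (Sylow q D) := by
    intro h
    obtain ⟨P⟩ : Nonempty (Sylow q D) := inferInstance
    have h1 := P.card_dvd_index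
    have h2 : (P : Subgroup D).index ∣ Nat.card D := Subgroup.index_dvd_card _
    rw [hcard] at h2
    exact not_dvd_120 hp h7 (h.trans (h1.trans h2))
  obtain ⟨R, hR⟩ := hZ.nonempty_fixed_point_of_prime_not_dvd_card (Sylow q D) hnd
  refine ⟨R, ?_⟩
  rintro _ ⟨r, hr, rfl⟩
  have hfix : (ConjAct.toConjAct g) • R = R :=
    hR ⟨ConjAct.toConjAct g, Subgroup.mem_zpowers _⟩
  have hmem : ConjAct.toConjAct g • r ∈ (R : Subgroup D) := by
    have h1 : ConjAct.toConjAct g • r ∈ ConjAct.toConjAct g • (R : Subgroup D) :=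
      Subgroup.smul_mem_pointwise_smul _ _ _ hr
    rw [← Sylow.pointwise_smul_def, hfix] at h1
    exact h1
  refine ⟨ConjAct.toConjAct g • r, hmem, ?_⟩
  rw [Subgroup.subtype_apply, ConjAct.Subgroup.val_conj_smul, ConjAct.smul_def,
    ConjAct.ofConjAct_toConjAct]
  rfl

theorem sylow_card_120 {D : Type u} [Group D] [Finite D] (hcard : Nat.card D = 120) (q : ℕ)
    [Fact q.Prime] (R : Sylow q D) :
    (q = 2 → Nat.card R = 8) ∧ (q = 3 → Nat.card R = 3) ∧ (q = 5 → Nat.card R = 5) := by
  obtain ⟨n, hn⟩ := IsPGroup.iff_card.mp R.isPGroup'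
  have hmul : Nat.card R * (R : Subgroup D).index = 120 := by
    rw [Subgroup.card_mul_index, hcard]
  have hnd : ¬ q ∣ (R : Subgroup D).index := R.not_dvd_index
  rw [hn] at hmul ⊢
  obtain ⟨idx, hidx⟩ : ∃ idx, idx = (R : Subgroup D).index := ⟨_, rfl⟩
  rw [← hidx] at hmul hnd
  have hn7 : n < 7 := by
    by_contra hcon
    have h1 : q ^ 7 ≤ q ^ n :=
      Nat.pow_le_pow_right (Fact.out : q.Prime).pos (not_lt.mp hcon)
    have h2 : 2 ^ 7 ≤ q ^ 7 := Nat.pow_le_pow_left (Fact.out : q.Prime).two_le 7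
    have h3 : q ^ n ≤ 120 := by
      have hpos : 0 < idx := by
        rcases Nat.eq_zero_or_pos idx with h0 | h0
        · rw [h0, mul_zero] at hmul; omega
        · exact h0
      calc q ^ n = q ^ n * 1 := (mul_one _).symm
        _ ≤ q ^ n * idx := Nat.mul_le_mul_left _ hpos
        _ = 120 := hmul
    norm_num at h2
    omega
  refine ⟨?_, ?_, ?_⟩
  · rintro rfl
    interval_cases n <;> norm_num at hmul ⊢ <;> omega
  · rintro rfl
    interval_cases n <;> norm_num at hmul ⊢ <;> omega
  · rintro rfl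
    interval_cases n <;> norm_num at hmul ⊢ <;> omega

theorem stOd2 : StOd2.{u} := by
  intro G _ _ hax D hDn hperf hcard p g hp h7 ⟨k, hk⟩ d hd
  classical
  have hD : D.Normal := hDn
  have h2dvd : 2 ∣ Nat.card D := by rw [hcard]; norm_num
  obtain ⟨z0, hz0⟩ := exists_prime_orderOf_dvd_card' 2 h2dvd
  obtain ⟨z, hzdef⟩ : ∃ z : G, z = (z0 : G) := ⟨_, rfl⟩
  have hz : orderOf z = 2 := by rw [hzdef, Subgroup.orderOf_coe]; exact hz0
  have hz1 : (1 : G) ≠ z := by
    intro h
    rw [← h, orderOf_one] at hz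
    omega
  have hgz : g * z = z * g := by
    have h1 : orderOf (g * z * g⁻¹) = 2 := by
      have := MulEquiv.orderOf_eq (MulAut.conj g) z
      rw [MulAut.conj_apply] at this
      rw [this, hz]
    have h2 := hax.invol (g * z * g⁻¹) z h1 hz
    calc g * z = g * z * g⁻¹ * g := by group
      _ = z * g := by rw [h2]
  have h5 : Fact (Nat.Prime 5) := ⟨by norm_num⟩
  have h3 : Fact (Nat.Prime 3) := ⟨by norm_num⟩
  obtain ⟨R2, hR2⟩ := exists_sylow_fixed D hcard p g hp h7 k hk 2
  obtain ⟨R3, hR3⟩ := exists_sylow_fixed D hcard p g hp h7 k hk 3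
  obtain ⟨R5, hR5⟩ := exists_sylow_fixed D hcard p g hp h7 k hk 5
  have c2 : Nat.card ((R2 : Subgroup D).map D.subtype) = 8 := by
    rw [Subgroup.card_map_of_injective D.subtype_injective]
    exact (sylow_card_120 hcard 2 R2).1 rfl
  have c3 : Nat.card ((R3 : Subgroup D).map D.subtype) = 3 := by
    rw [Subgroup.card_map_of_injective D.subtype_injective]
    exact (sylow_card_120 hcard 3 R3).2.1 rfl
  have c5 : Nat.card ((R5 : Subgroup D).map D.subtype) = 5 := by
    rw [Subgroup.card_map_of_injective D.subtype_injective]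
    exact (sylow_card_120 hcard 5 R5).2.2 rfl
  have hzR : z ∈ (R2 : Subgroup D).map D.subtype := by
    have h2' : 2 ∣ Nat.card R2 := by rw [(sylow_card_120 hcard 2 R2).1 rfl]; norm_num
    obtain ⟨y, hy⟩ := exists_prime_orderOf_dvd_card' 2 h2'
    have hy2 : orderOf (((y : D) : G)) = 2 := by
      rw [Subgroup.orderOf_coe, Subgroup.orderOf_coe]; exact hy
    have := hax.invol _ _ hy2 hz
    rw [← this]
    exact ⟨(y : D), y.2, rfl⟩
  have f2 := fix_of_small g p k hp hk _ hR2 {1, z}
    (by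
      intro f hf
      rw [Finset.mem_insert, Finset.mem_singleton] at hf
      rcases hf with rfl | rfl
      · exact ⟨Subgroup.one_mem _, by simp⟩
      · exact ⟨hzR, hgz⟩)
    (by rw [c2, Finset.card_pair hz1]; omega)
  have f3 := fix_of_small g p k hp hk _ hR3 {1}
    (by
      intro f hf
      rw [Finset.mem_singleton] at hf
      rw [hf]
      exact ⟨Subgroup.one_mem _, by simp⟩)
    (by rw [c3, Finset.card_singleton]; omega)
  have f5 := fix_of_small g p k hp hk _ hR5 {1}
    (by
      intro f hf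
      rw [Finset.mem_singleton] at hf
      rw [hf]
      exact ⟨Subgroup.one_mem _, by simp⟩)
    (by rw [c5, Finset.card_singleton]; omega)
  have hle : ∀ (q : ℕ) [Fact q.Prime] (R : Sylow q D),
      (∀ r ∈ (R : Subgroup D).map D.subtype, g * r = r * g) →
      (R : Subgroup D).map D.subtype ≤ D ⊓ Subgroup.centralizer {g} := by
    intro q _ R hfix r hr
    refine Subgroup.mem_inf.mpr ⟨Subgroup.map_subtype_le _ hr, ?_⟩
    rw [Subgroup.mem_centralizer_singleton_iff]
    exact (hfix r hr).symm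
  have d2 : 8 ∣ Nat.card (D ⊓ Subgroup.centralizer {g} : Subgroup G) :=
    c2 ▸ Subgroup.card_dvd_of_le (hle 2 R2 f2)
  have d3 : 3 ∣ Nat.card (D ⊓ Subgroup.centralizer {g} : Subgroup G) :=
    c3 ▸ Subgroup.card_dvd_of_le (hle 3 R3 f3)
  have d5 : 5 ∣ Nat.card (D ⊓ Subgroup.centralizer {g} : Subgroup G) :=
    c5 ▸ Subgroup.card_dvd_of_le (hle 5 R5 f5)
  have d24 : 8 * 3 ∣ Nat.card (D ⊓ Subgroup.centralizer {g} : Subgroup G) :=
    Nat.Coprime.mul_dvd_of_dvd_of_dvd (by norm_num) d2 d3
  have d120 : 8 * 3 * 5 ∣ Nat.card (D ⊓ Subgroup.centralizer {g} : Subgroup G) :=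
    Nat.Coprime.mul_dvd_of_dvd_of_dvd (by norm_num) d24 d5
  have hKD : D ⊓ Subgroup.centralizer {g} = D := by
    apply Subgroup.eq_of_le_of_card_ge inf_le_left
    rw [hcard]
    exact Nat.le_of_dvd Nat.card_pos d120
  have hdK : d ∈ D ⊓ Subgroup.centralizer {g} := by rw [hKD]; exact hd
  exact (Subgroup.mem_centralizer_singleton_iff.mp hdK.2).symm

end Cfsg.Agent.H40.Zas
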